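import Cfsg.Agent.C6.XS2

/-! The group-theoretic form of the main theorem. -/

set_option autoImplicit false
set_option linter.unusedSimpArgs false
set_option linter.unusedSectionVars false
set_option linter.unusedVariables false

namespace Cfsg.Agent.C6

open Subgroup Module

/-- commuting or anticommuting -/
def PM {G : Type*} [Group G] (ε a z : G) : Prop := a * z = z * a ∨ a * z = ε * (z * a)

theorem cj_of_comm {G : Type*} [Group G] {a z : G} (h : a * z = z * a) : cj a z = z := if_pos h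

theorem cj_of_anti {G : Type*} [Group G] {ε a z : G} (h0 : ε ≠ 1) (h : a * z = ε * (z * a)) :
    cj a z = a * z := if_neg fun e => h0 (by simpa [e] using h.symm)

/-- the hypotheses of the main theorem -/
structure CH {G : Type*} [Group G] (M R Z : Subgroup G) (ε : G) : Prop where
  RM : R ≤ M
  Zc : ∀ z ∈ Z, ∀ g, g * z = z * g
  Z2 : ∀ c ∈ Z, c * c = 1 → c = 1 ∨ c = ε
  D : ∀ a ∈ R, ∀ b ∈ R, a * a = ε → b * b = ε →
    ∃ k ∈ M, ∀ z, PM ε b z → PM ε a (cj b z) → k * z * k⁻¹ = cj a (cj b z)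
  C : ∀ x ∈ R, ∀ s ∈ R, x ∉ Z → x * x = 1 → s * s = 1 → x * s = s * x → ∃ k ∈ M,
    (∀ z, x * z = z * x → s * z = z * s → k * z = z * k) ∧ ∀ z, x * z = ε * (z * x) →
      (s * z = z * s → k * z * k⁻¹ = s * z) ∧ (s * z = ε * (z * s) → k * z * k⁻¹ = ε * x * s * z)
  A : ∀ x ∈ R, x ∉ Z → x * x = 1 → ∀ g ∈ M, g * x = x * g → ∀ r ∈ R, r * x = x * r →
    g * r * g⁻¹ ∈ R
  Tw : ∀ w ∈ R, ∀ g ∈ M, g * w = w * g → ∀ x ∈ R, x ∉ Z → w * x ∉ Z →
    (∀ r ∈ R, r * w = w * r → r * (g * x * g⁻¹) * r⁻¹ * (g * x * g⁻¹)⁻¹ ∈ R) →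
    ∃ r ∈ R, r * w = w * r ∧ r * (g * x * g⁻¹) = ε * (g * x * g⁻¹ * r)

variable {G : Type*} [Group G] [Finite G] {M R Z : Subgroup G} {ε : G} {A : Type*} [AddCommGroup A]
  [Module (ZMod 2) A] [FiniteDimensional (ZMod 2) A]
  {π : G → A} {β : A →ₗ[ZMod 2] A →ₗ[ZMod 2] ZMod 2}

theorem XS.exists_inv0 (h : XS R Z ε π β) (hd : 3 ≤ finrank (ZMod 2) A) :
    ∃ x ∈ R, x ∉ Z ∧ x * x = 1 := by
  suffices ∃ x, x ≠ 0 ∧ SQ R π 1 x by
    obtain ⟨_, x0, x, hx, rfl, e1⟩ := this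
    exact ⟨x, hx, mt (h.ker x hx).2 x0, e1⟩
  rcases h.ty with ⟨-, h0⟩ | ⟨q, hq, h1, h0⟩
  · obtain ⟨u, -, u0⟩ := H6.exists_ne_zero_of_finrank (F := ZMod 2) (K := (⊤ : Submodule _ A))
      (by rw [finrank_top]; omega)
    exact ⟨u, u0, h0 u⟩
  · obtain ⟨s, -, s2, s3⟩ := hq.exists_sing h.alt h.nd (by simpa)
    exact ⟨s, s2, (h0 s).2 s3⟩

theorem conj_sq {g x : G} : g * x * g⁻¹ * (g * x * g⁻¹) = g * (x * x) * g⁻¹ := by group

namespace CH

variable (c : CH M R Z ε) (h : XS R Z ε π β) (hd : 5 ≤ finrank (ZMod 2) A)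
include c h

theorem conj_Z {g x : G} : g * x * g⁻¹ ∈ Z ↔ x ∈ Z :=
  ⟨fun e => by
    have := c.Zc _ e g
    rw [inv_mul_cancel_right, mul_left_cancel_iff] at this
    rwa [← this], fun e => by rw [c.Zc _ e]; simpa using e⟩

theorem conj_sq' {g x : G} (hx : x ∈ R) : g * x * g⁻¹ * (g * x * g⁻¹) = x * x := by
  rw [conj_sq, c.Zc _ (h.sqZ hx)]; simp

theorem adj {u x x' : G} (hx : x ∈ R) (hx' : x' ∈ R) (h0 : x' ∉ Z) (e : x * x = x' * x')
    (hu : u * x * u⁻¹ * x'⁻¹ ∈ Z) : ∃ t ∈ R, t * u * x * (t * u)⁻¹ = x' := by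
  set z := u * x * u⁻¹ * x'⁻¹ with hz
  have e1 : u * x * u⁻¹ = z * x' := by rw [hz]; group
  have e2 := c.conj_sq' h (g := u) hx
  rw [e1, h.sq_mul hu hx', e, mul_eq_right] at e2
  rcases c.Z2 z hu e2 with a | a
  · exact ⟨1, one_mem _, by simp [e1, a]⟩
  · obtain ⟨t, ht, e3⟩ := h.exists_anti hx' h0
    refine ⟨t, ht, ?_⟩
    rw [show t * u * x * (t * u)⁻¹ = t * (u * x * u⁻¹) * t⁻¹ by group, e1, a, ← mul_assoc,
      c.Zc _ h.εZ, mul_assoc ε, ← e3]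
    simp

include hd

theorem trans {x x' : G} (hx : x ∈ R) (hx' : x' ∈ R) (h0 : x ∉ Z) (h0' : x' ∉ Z)
    (e : x * x = x' * x') : ∃ k ∈ M, k ∈ normalizer (R : Set G) ∧ k * x * k⁻¹ = x' := by
  obtain ⟨k, k1, k2, k3⟩ := h.trans (by omega) M (fun a ha b hb a1 b1 _ _ =>
    let ⟨k, k1, k2⟩ := c.D a ha b hb a1 b1
    ⟨k, k1, fun r hr => k2 r (h.anti hb hr) (h.anti ha (cj_mem hb hr))⟩) hx hx' h0 h0'
    ((h.sq x hx).imp (fun a => ⟨⟨x, hx, rfl, a⟩, x', hx', rfl, e ▸ a⟩)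
      fun a => ⟨⟨x, hx, rfl, a⟩, ⟨x', hx', rfl, e ▸ a⟩, hd⟩)
  obtain ⟨t, ht, e⟩ := c.adj h hx hx' h0' e k3
  exact ⟨_, mul_mem (c.RM ht) k1, mul_mem (le_normalizer ht) k2, e⟩

theorem cinv {x g : G} (hx : x ∈ R) (h0 : x ∉ Z) (h1 : x * x = 1) (hg : g ∈ M)
    (e : g * x = x * g) : g ∈ normalizer (R : Set G) := by
  obtain ⟨W, π₁, β₁, hW, hd'⟩ := h.sub hx h0
  obtain ⟨x', ⟨a1, a2⟩, a3, a4⟩ := hW.exists_inv0 (by omega)
  rw [h.mem_Zx hx, not_or] at a3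
  replace a2 : x' * x = x * x' := mem_centralizer_singleton_iff.1 a2
  obtain ⟨k, k1, k2, k3⟩ := c.trans h hd a1 (c.A x hx h0 h1 g hg e x' a1 a2) a3.1
    (mt (c.conj_Z h).1 a3.1) (c.conj_sq' h a1).symm
  obtain ⟨y, y1, y2, y3⟩ := h.exists_two hx a1 h0 (a2 ▸ a3.2)
  have y4 : g * y * g⁻¹ ∈ R := by
    convert conj_mem_of_norm k2 (c.A x' a1 a3.1 a4 (k⁻¹ * g) (mul_mem (inv_mem k1) hg) (by
      rw [mul_assoc, ← mul_inv_eq_iff_eq_mul, mul_assoc, mul_inv_rev, ← mul_assoc (g * x'), ← k3]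
      group) y y1 y3.symm) using 1
    group
  refine mem_normalizer_fintype fun r hr => (h.anti hx hr).elim
    (fun a => c.A x hx h0 h1 g hg e r hr a.symm) fun a => ?_
  simpa [mul_assoc] using mul_mem (c.A x hx h0 h1 g hg e (r * y) (mul_mem hr y1) (by
    rw [← mul_assoc, a, mul_assoc ε, mul_assoc r x, y2, ← mul_assoc r ε, c.Zc _ h.εZ r]
    simp only [← mul_assoc, h.ε2, one_mul])) (inv_mem y4)

theorem ti {x g : G} (hx : x ∈ R) (h0 : x ∉ Z) (h1 : x * x = 1) (hg : g ∈ M)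
    (e : g * x * g⁻¹ ∈ R) : g ∈ normalizer (R : Set G) := by
  obtain ⟨k, k1, k2, k3⟩ := c.trans h hd hx e h0 (mt (c.conj_Z h).1 h0) (c.conj_sq' h hx).symm
  refine (mul_mem_cancel_left (inv_mem k2)).1 (c.cinv h hd hx h0 h1 (mul_mem (inv_mem k1) hg) ?_)
  rw [mul_assoc, ← mul_inv_eq_iff_eq_mul, mul_assoc, mul_inv_rev, ← mul_assoc (g * x), ← k3]
  group

theorem par {R' Z' : Subgroup G} {A' : Type*} [AddCommGroup A'] [Module (ZMod 2) A']
    [FiniteDimensional (ZMod 2) A'] {π' : G → A'} {β' : A' →ₗ[ZMod 2] A' →ₗ[ZMod 2] ZMod 2}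
    (h' : XS R' Z' ε π' β') (hd' : 3 ≤ finrank (ZMod 2) A') {w : G} (hw : w ∈ R) (hw' : w * w = ε)
    (hR : ∀ r, r ∈ R' ↔ r ∈ R ∧ r * w = w * r) (hZ : ∀ r, r ∈ Z' ↔ r ∈ Z ∨ r * w ∈ Z)
    (Z2 : ∀ c ∈ Z', c * c = 1 → c = 1 ∨ c = ε) {g : G} (hg : g ∈ M) (e : g * w = w * g) :
    g ∈ normalizer (R : Set G) := by
  have hJ : ∀ u, u ∈ M ⊓ centralizer {w} ↔ u ∈ M ∧ u * w = w * u := fun u =>
    and_congr_right fun _ => mem_centralizer_singleton_iff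
  have wZ : w ∈ Z' := (hZ w).2 (Or.inr (hw' ▸ h.εZ))
  have Zc : ∀ z ∈ Z', ∀ u, u * w = w * u → u * z = z * u := fun z hz u hu =>
    ((hZ z).1 hz).elim (fun a => c.Zc z a u) fun a => by
      have := c.Zc _ a u
      rwa [mul_assoc z, ← hu, ← mul_assoc, ← mul_assoc, mul_left_inj] at this
  have ti : ∀ x ∈ R', x ∉ Z' → ∀ u ∈ M, u * w = w * u → u * x * u⁻¹ ∈ R →
      u ∈ normalizer (R : Set G) := fun x hx h0 u hu e e' => by
    obtain ⟨x1, x2⟩ := (hR x).1 hx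
    rw [hZ, not_or] at h0
    rcases h.sq x x1 with a | a
    · exact c.ti h hd x1 h0.1 a hu e'
    · refine c.ti h hd (mul_mem x1 hw) h0.2 ?_ hu ?_
      · rw [mul_assoc, ← mul_assoc w, ← x2, mul_assoc, hw', ← mul_assoc, a, h.ε2]
      · convert mul_mem e' hw using 1
        rw [mul_assoc _ u⁻¹, (Commute.inv_left e).eq]; simp only [mul_assoc]
  have nn : ∀ u ∈ normalizer (R : Set G), u * w = w * u → u ∈ normalizer (R' : Set G) :=
    fun u hu e => mem_normalizer_fintype fun r hr => (hR _).2 ⟨conj_mem_of_norm hu ((hR r).1 hr).1,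
      (((Commute.mul_left e ((hR r).1 hr).2).mul_left (Commute.inv_left e))).eq⟩
  have b : BH (M ⊓ centralizer {w}) R' Z' ε := ⟨fun r hr => (hJ r).2 ⟨c.RM ((hR r).1 hr).1,
    ((hR r).1 hr).2⟩, h'.ZR, fun z hz u hu => Zc z hz u ((hJ u).1 hu).2, h'.εZ, h.ε2, Z2, h'.sq,
    fun x hx h0 u hu e => nn _ (ti x hx h0 u hu.1 ((hJ u).1 hu).2
      ((mul_mem_cancel_right (inv_mem ((hR x).1 hx).1)).1 ((hR _).1 (h'.ZR e)).1)) ((hJ u).1 hu).2,
    fun u hu x hx h0 e => by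
      rw [hZ, not_or, ((hR x).1 hx).2] at h0
      obtain ⟨r, r1, r2, r3⟩ := c.Tw w hw u hu.1 ((hJ u).1 hu).2 x ((hR x).1 hx).1 h0.1 h0.2
        fun r r1 r2 => by
          convert mul_mem r1 ((hR _).1 (conj_mem_of_norm e (inv_mem ((hR r).2 ⟨r1, r2⟩)))).1 using 1
          group
      exact ⟨r, (hR r).2 ⟨r1, r2⟩, r3⟩,
    fun u hu x hx h0 e => ⟨u, hu, nn _ (ti x hx h0 u hu.1 ((hJ u).1 hu).2 ((hR _).1 e).1)
      ((hJ u).1 hu).2, by simp⟩,
    fun z hz z1 z2 => by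
      have zw := ((hJ z).1 hz).2
      obtain ⟨a, a1, a2, a3, a4⟩ : ∃ a ∈ R', a ∉ Z' ∧ a * z = z * a ∧ a * a = ε := by
        obtain ⟨a, a1, a2, a3⟩ := h'.fix_one hd' Z2 z1 (fun r hr => by
          rcases z2 with e | e <;> simp [e, c.Zc _ h.εZ]) fun b hb => Zc b hb z zw
        rcases h'.sq a a1 with e | e
        · exact ⟨w * a, mul_mem (h'.ZR wZ) a1, mt (mul_mem_cancel_left wZ).1 a2,
            (Commute.mul_left zw.symm a3).eq, by rw [h'.sq_mul wZ a1, hw', e, mul_one]⟩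
        · exact ⟨a, a1, a2, a3, e⟩
      obtain ⟨k, k1, k2⟩ := c.D a ((hR a).1 a1).1 w hw a4 hw'
      have k3 : ∀ u, u * w = w * u → PM ε a u → k * u * k⁻¹ = cj a u := fun u e e' => by
        simpa only [cj_of_comm e.symm] using k2 u (Or.inl e.symm) (by rwa [cj_of_comm e.symm])
      have k4 : ∀ u, u * w = w * u → a * u = u * a → k * u = u * k := fun u e e' => by
        rw [← mul_inv_eq_iff_eq_mul, k3 u e (Or.inl e'), cj_of_comm e']
      refine ⟨a, a1, 1, one_mem _, a2, a3, by simp, k, (hJ k).2 ⟨k1, k4 w rfl ((hR a).1 a1).2⟩,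
        k4 z zw a3, fun z' hz' e _ => ?_⟩
      rw [k3 z' ((hJ z').1 hz').2 (Or.inr e), cj_of_anti h.ε1 e, mul_inv_cancel_right]
      exact ⟨a1, a2⟩⟩
  have hN : g ∈ normalizer (R' : Set G) := by
    by_contra hN
    obtain ⟨T, δ, d1, d2⟩ := b.sharp ((hJ g).2 ⟨hg, e⟩) hN
    exact h'.no_sharp hd' δ d1 d2
  obtain ⟨x, x1, x2, -⟩ := h'.exists_inv0 hd'
  exact ti x x1 x2 g hg e ((hR _).1 (conj_mem_of_norm hN x1)).1

theorem main : M ≤ normalizer (R : Set G) := by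
  intro g hg
  by_cases hi : ∃ i ∈ Z, i * i = ε
  · obtain ⟨i, i1, i2⟩ := hi
    exact c.par h hd h (by omega) (h.ZR i1) i2 (fun r => by simp [c.Zc i i1])
      (fun r => by simp [mul_mem_cancel_right i1]) c.Z2 hg (c.Zc i i1 g)
  push Not at hi
  replace hi := fun z hz => (h.sq z (h.ZR hz)).resolve_right (hi z hz)
  have cc : ∀ x ∈ R, x ∉ Z → ∀ u ∈ M, u * x = x * u → u ∈ normalizer (R : Set G) :=
    fun x hx h0 u hu e => by
      rcases h.sq x hx with a | a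
      · exact c.cinv h hd hx h0 a hu e
      obtain ⟨W, π₁, β₁, hW, hd'⟩ := h.sub hx h0
      refine c.par h hd hW (by omega) hx a (fun r => and_congr_right fun _ =>
        mem_centralizer_singleton_iff) (fun r => h.mem_Zx hx) (fun z hz z2 => ?_) hu e
      refine c.Z2 z (((h.mem_Zx hx).1 hz).resolve_right fun b => h.ε1 ?_) z2
      rw [← hi _ b, mul_assoc, ← mul_assoc x, ← mem_centralizer_singleton_iff.1 (hW.ZR hz).2,
        mul_assoc, a, ← mul_assoc, z2, one_mul]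
  have b : BH M R Z ε := ⟨c.RM, h.ZR, fun z hz u _ => c.Zc z hz u, h.εZ, h.ε2, c.Z2, h.sq,
    fun x hx h0 u hu e => by
      obtain ⟨t, ht, e⟩ := c.adj h hx hx h0 rfl e
      exact (mul_mem_cancel_left (le_normalizer ht)).1
        (cc x hx h0 _ (mul_mem (c.RM ht) hu) (mul_inv_eq_iff_eq_mul.1 e)),
    fun u hu x hx h0 e => by
      obtain ⟨r, r1, -, r3⟩ := c.Tw 1 (one_mem _) u hu (by simp) x hx h0 (by simpa)
        fun r r1 _ => by
          convert mul_mem r1 (conj_mem_of_norm e (inv_mem r1)) using 1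
          group
      exact ⟨r, r1, r3⟩,
    fun u hu x hx h0 e => by
      obtain ⟨k, k1, k2, k3⟩ := c.trans h hd hx e h0 (mt (c.conj_Z h).1 h0) (c.conj_sq' h hx).symm
      exact ⟨k, k1, k2, by simp [k3]⟩,
    fun z hz z1 z2 => by
      have key : ∀ a ∈ R, ∀ b ∈ R, a ∉ Z → a * b ∉ Z → a * z = z * a → b * z = z * b →
          a * b = b * a → a * a = ε → b * b = ε → ∃ k ∈ M, k * z = z * k ∧
          ∀ z' ∈ M, a * z' = ε * (z' * a) → (b * z' = z' * b ∨ b * z' = ε * (z' * b)) →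
            k * z' * k⁻¹ * z'⁻¹ ∈ R ∧ k * z' * k⁻¹ * z'⁻¹ ∉ Z :=
        fun a a1 b b1 a2 c2 a3 b3 ab a4 b4 => by
          obtain ⟨k, k1, k2⟩ := c.D a a1 b b1 a4 b4
          refine ⟨k, k1, ?_, fun z' _ e e' => ?_⟩
          · rw [← mul_inv_eq_iff_eq_mul, k2 z (Or.inl b3) (by rw [cj_of_comm b3]; exact Or.inl a3),
              cj_of_comm b3, cj_of_comm a3]
          rcases e' with e' | e'
          · rw [k2 z' (Or.inl e') (by rw [cj_of_comm e']; exact Or.inr e), cj_of_comm e',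
              cj_of_anti h.ε1 e, mul_inv_cancel_right]
            exact ⟨a1, a2⟩
          · have e'' : a * (b * z') = ε * (b * z' * a) := by
              rw [← mul_assoc, ab, mul_assoc, e, ← mul_assoc, c.Zc _ h.εZ]; simp only [mul_assoc]
            rw [k2 z' (Or.inr e') (by rw [cj_of_anti h.ε1 e']; exact Or.inr e''),
              cj_of_anti h.ε1 e', cj_of_anti h.ε1 e'', ← mul_assoc, mul_inv_cancel_right]
            exact ⟨mul_mem a1 b1, c2⟩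
      obtain ⟨a, a1, b, b1, a2, b2, c2, a3, b3, ab⟩ := h.fix_two hd c.Z2 z1 (fun r hr => by
        rcases z2 with e | e <;> simp [e, c.Zc _ h.εZ]) fun b hb => c.Zc b hb z
      have c3 : a * b * z = z * (a * b) := (Commute.mul_left a3 b3).eq
      have c4 : a * b * (a * b) = a * a * (b * b) := by
        rw [mul_assoc, ← mul_assoc b, ← ab]; simp only [mul_assoc]
      rcases h.sq a a1 with a4 | a4 <;> rcases h.sq b b1 with b4 | b4
      · obtain ⟨k, k1, k2, k3⟩ := c.C a a1 b b1 a2 a4 b4 ab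
        refine ⟨a, a1, b, b1, a2, a3, b3, k, k1, k2 z a3 b3, fun z' _ e e' => ?_⟩
        rcases e' with e' | e'
        · rw [(k3 z' e).1 e', mul_inv_cancel_right]; exact ⟨b1, b2⟩
        · rw [(k3 z' e).2 e', mul_inv_cancel_right, mul_assoc, mul_mem_cancel_left h.εR,
            mul_mem_cancel_left h.εZ]
          exact ⟨mul_mem a1 b1, c2⟩
      · exact ⟨b, b1, _, mul_mem a1 b1, b2, b3, c3, key b b1 _ (mul_mem a1 b1) b2
          (by rwa [← mul_assoc, ← ab, mul_assoc, b4, mul_mem_cancel_right h.εZ]) b3 c3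
          (by rw [← mul_assoc, ← ab]) b4 (by rw [c4, a4, b4, one_mul])⟩
      · exact ⟨a, a1, _, mul_mem a1 b1, a2, a3, c3, key a a1 _ (mul_mem a1 b1) a2
          (by rwa [← mul_assoc, a4, mul_mem_cancel_left h.εZ]) a3 c3
          (by rw [mul_assoc, ← ab]) a4 (by rw [c4, a4, b4, mul_one])⟩
      · exact ⟨a, a1, b, b1, a2, a3, b3, key a a1 b b1 a2 c2 a3 b3 ab a4 b4⟩⟩
  by_contra hN
  obtain ⟨T, δ, d1, d2⟩ := b.sharp hg hN
  obtain ⟨x, x1, x2, x3⟩ := h.exists_inv0 (by omega)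
  obtain ⟨y, y1, y2, -⟩ := h.exists_ns (by omega) (one_mem R)
  obtain ⟨t, ht, -⟩ := d2 x x1 x2 y y1 fun e => h.ε1 (y2 ▸ hi y e)
  have := h.sq_eq hi (conj_mem_of_norm (d1 t) x1) y1 ((h.eq_iff (conj_mem_of_norm (d1 t) x1) y1).2 ht)
  rw [c.conj_sq' h x1, x3, y2] at this
  exact h.ε1 this.symm

end CH

end Cfsg.Agent.C6
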