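import Mathlib

/-! Absolutely irreducible `2`-groups of symplectic type: definitions. -/

set_option autoImplicit false

namespace Cfsg.Agent.C6

open Module

variable {F V : Type*} [Field F] [AddCommGroup V] [Module F V]

/-- `-1` -/
abbrev ng (F V : Type*) [Field F] [AddCommGroup V] [Module F V] : V ≃ₗ[F] V := LinearEquiv.neg F

/-- scalar maps -/
def Sc (g : V ≃ₗ[F] V) : Prop := ∃ c : F, ∀ v, g v = c • v

/-- `R` is `2^{1+2m}_±` or `4 ∘ 2^{1+2m}` acting absolutely irreducibly -/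
structure ES (R : Subgroup (V ≃ₗ[F] V)) : Prop where
  two : (2 : F) ≠ 0
  ng_mem : ng F V ∈ R
  sq : ∀ r ∈ R, r * r = 1 ∨ r * r = ng F V
  cent : ∀ X : End F V, (∀ r ∈ R, ∀ v, X (r v) = r (X v)) → ∃ c : F, ∀ v, X v = c • v

/-- `g = (1 + a) (1 + b) / 2` -/
def IsD (a b g : V ≃ₗ[F] V) : Prop := ∀ v, (2 : F) • g v = (v + b v) + a (v + b v)

/-- `M` contains the elements `(1 + a) (1 + b) / 2`, `a, b ∈ R` of square `-1` -/
def HasD (R M : Subgroup (V ≃ₗ[F] V)) : Prop :=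
  ∀ a ∈ R, ∀ b ∈ R, a * a = ng F V → b * b = ng F V → ∃ g ∈ M, IsD a b g

/-- scalars of order dividing four in `M` lie in `R` -/
def HasZ (R M : Subgroup (V ≃ₗ[F] V)) : Prop :=
  ∀ g ∈ M, ∀ c : F, (∀ v, g v = c • v) → c ^ 4 = 1 → g ∈ R

/-- the centraliser in `M` of a non-scalar involution `x ∈ R` normalises the restriction of
`C_R(x)` to the `1`-eigenspace of `x` -/
def HasN (R M : Subgroup (V ≃ₗ[F] V)) : Prop :=
  ∀ x ∈ R, x * x = 1 → ¬ Sc x → ∀ g ∈ M, g * x = x * g → ∀ r ∈ R, r * x = x * r →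
    ∃ s ∈ R, s * x = x * s ∧ ∀ v, x v = v → g (r (g⁻¹ v)) = s v

/-- `R` has no three independent commuting involutions -/
def NoThree (R : Subgroup (V ≃ₗ[F] V)) : Prop :=
  ∀ x ∈ R, ∀ s ∈ R, ∀ t ∈ R, x * x = 1 → s * s = 1 → t * t = 1 → x * s = s * x → x * t = t * x →
    s * t = t * s → Sc x ∨ Sc s ∨ Sc t ∨ Sc (x * s) ∨ Sc (x * t) ∨ Sc (s * t) ∨ Sc (x * s * t)

/-- the statement of the main theorem (proved in `C6/Main.lean` as `C6.main`) -/
def MainStmt (F V : Type*) [Field F] [AddCommGroup V] [Module F V] : Prop :=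
  ∀ R M : Subgroup (V ≃ₗ[F] V), ES R → 8 ≤ finrank F V →
    ((∃ i ∈ R, Sc i ∧ i * i = ng F V) ∨ 16 ≤ finrank F V ∨ NoThree R) →
    R ≤ M → HasD R M → HasZ R M → HasN R M → M ≤ Subgroup.normalizer (R : Set (V ≃ₗ[F] V))

/-- the `1`-eigenspace -/
def Vp (x : V ≃ₗ[F] V) : Submodule F V where
  carrier := {v | x v = v}
  add_mem' := fun {a b} (ha : x a = a) (hb : x b = b) => show x (a + b) = a + b by
    rw [map_add, ha, hb]
  zero_mem' := map_zero x
  smul_mem' := fun c a (ha : x a = a) => show x (c • a) = c • a by rw [map_smul, ha]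

@[simp] theorem mem_Vp {x : V ≃ₗ[F] V} {v : V} : v ∈ Vp x ↔ x v = v := Iff.rfl

/-- restriction to the `1`-eigenspace of `x`, on the centraliser of `x` -/
def res (x : V ≃ₗ[F] V) : Subgroup.centralizer {x} →* (Vp x ≃ₗ[F] Vp x) where
  toFun g :=
    { toFun := fun v => ⟨g.1 v, by
        have := LinearEquiv.congr_fun (g.2 x rfl) v.1
        simp only [LinearEquiv.mul_apply] at this
        rw [mem_Vp, this, show x v.1 = v.1 from v.2]⟩
      invFun := fun v => ⟨g.1⁻¹ v, by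
        have := LinearEquiv.congr_fun ((g⁻¹).2 x rfl) v.1
        simp only [LinearEquiv.mul_apply] at this
        rw [mem_Vp]
        exact this.trans (by rw [show x v.1 = v.1 from v.2]; rfl)⟩
      map_add' := fun a b => Subtype.ext (map_add g.1 _ _)
      map_smul' := fun c a => Subtype.ext (map_smul g.1 _ _)
      left_inv := fun v => Subtype.ext (g.1.symm_apply_apply _)
      right_inv := fun v => Subtype.ext (g.1.apply_symm_apply _) }
  map_one' := rfl
  map_mul' _ _ := rfl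

@[simp] theorem res_apply (x : V ≃ₗ[F] V) (g : Subgroup.centralizer {x}) (v : Vp x) :
    (res x g v : V) = g.1 v := rfl

/-- the group induced on the `1`-eigenspace of `x` by the centraliser of `x` in `M` -/
def resG (x : V ≃ₗ[F] V) (M : Subgroup (V ≃ₗ[F] V)) : Subgroup (Vp x ≃ₗ[F] Vp x) :=
  (M.subgroupOf (Subgroup.centralizer {x})).map (res x)

theorem mem_resG {x : V ≃ₗ[F] V} {M : Subgroup (V ≃ₗ[F] V)} {k : Vp x ≃ₗ[F] Vp x} :
    k ∈ resG x M ↔ ∃ g ∈ M, g * x = x * g ∧ ∀ v : Vp x, (k v : V) = g v := by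
  constructor
  · rintro ⟨g, hg, rfl⟩
    exact ⟨g.1, hg, (g.2 x rfl).symm, fun _ => rfl⟩
  · rintro ⟨g, hg, h1, h2⟩
    exact ⟨⟨g, by rintro _ rfl; exact h1.symm⟩, hg, LinearEquiv.ext fun v =>
      Subtype.ext (h2 v).symm⟩

end Cfsg.Agent.C6
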