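import Cfsg.Agent.H6.Lin

/-! Symplectic and quadratic spaces over the field with two elements. -/

set_option autoImplicit false
set_option linter.unusedSimpArgs false
set_option linter.unusedSectionVars false
set_option linter.unusedVariables false

namespace Cfsg.Agent.C6

open Module Cfsg.Agent.H6

/-- identities between vectors in characteristic two -/
macro "vec2" : tactic =>
  `(tactic| (refine Eq.trans (one_smul (ZMod 2) _).symm ?_; match_scalars <;> grind))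

theorem zo (c : ZMod 2) : c = 0 ∨ c = 1 := by revert c; decide

theorem one_of_ne {c : ZMod 2} (h : c ≠ 0) : c = 1 := (zo c).resolve_left h

theorem zero_of_ne {c : ZMod 2} (h : c ≠ 1) : c = 0 := (zo c).resolve_right h

theorem z11 : (1 + 1 : ZMod 2) = 0 := by decide

variable {A : Type*} [AddCommGroup A] [Module (ZMod 2) A]

theorem aa (a : A) : a + a = 0 := ZModModule.add_self a

theorem add_eq_zero' {a b : A} : a + b = 0 ↔ a = b := by
  rw [← ZModModule.sub_eq_add, sub_eq_zero]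

/-- alternating forms -/
structure Alt (β : A →ₗ[ZMod 2] A →ₗ[ZMod 2] ZMod 2) : Prop where
  alt : ∀ a, β a a = 0

variable {β : A →ₗ[ZMod 2] A →ₗ[ZMod 2] ZMod 2}

theorem Alt.symm (h : Alt β) (a b : A) : β a b = β b a := by
  have := h.alt (a + b)
  simp only [map_add, LinearMap.add_apply, h.alt] at this
  grind

/-- non-degeneracy on a subspace -/
def Nd (β : A →ₗ[ZMod 2] A →ₗ[ZMod 2] ZMod 2) (W : Submodule (ZMod 2) A) : Prop :=
  ∀ u ∈ W, u ≠ 0 → ∃ v ∈ W, β u v = 1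

/-- the orthogonal complement of a pair -/
def cut (β : A →ₗ[ZMod 2] A →ₗ[ZMod 2] ZMod 2) (W : Submodule (ZMod 2) A) (x y : A) :
    Submodule (ZMod 2) A := W ⊓ LinearMap.ker (β x) ⊓ LinearMap.ker (β y)

theorem mem_cut {W : Submodule (ZMod 2) A} {x y v : A} :
    v ∈ cut β W x y ↔ v ∈ W ∧ β x v = 0 ∧ β y v = 0 := by
  simp [cut, and_assoc]

theorem finrank_cut [FiniteDimensional (ZMod 2) A] (W : Submodule (ZMod 2) A) (x y : A) :
    finrank (ZMod 2) W ≤ finrank (ZMod 2) (cut β W x y) + 2 := by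
  have := finrank_inf_ker_ge W (β x)
  have := finrank_inf_ker_ge (W ⊓ LinearMap.ker (β x)) (β y)
  unfold cut; omega

theorem Nd.cut (h : Alt β) {W : Submodule (ZMod 2) A} (hW : Nd β W) {x y : A} (hx : x ∈ W)
    (hy : y ∈ W) (hxy : β x y = 1) : Nd β (cut β W x y) := by
  intro u hu hu0
  obtain ⟨u1, u2, u3⟩ := mem_cut.1 hu
  obtain ⟨v, v1, v2⟩ := hW u u1 hu0
  refine ⟨v + β y v • x + β x v • y, mem_cut.2 ⟨?_, ?_, ?_⟩, ?_⟩
  · exact add_mem (add_mem v1 (W.smul_mem _ hx)) (W.smul_mem _ hy)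
  · simp [h.alt, hxy, aa]
  · simp [h.alt, h.symm y x, hxy, aa]
  · simp [h.symm u x, h.symm u y, u2, u3, v2]

theorem Nd.two (h : Alt β) {W : Submodule (ZMod 2) A} (hW : Nd β W) {a c : A} (ha : a ∈ W)
    (hc : c ∈ W) (ha0 : a ≠ 0) (hac : a ≠ c) : ∃ b ∈ W, β a b = 1 ∧ β c b = 0 := by
  obtain ⟨u, u1, u2⟩ := hW a ha ha0
  rcases zo (β c u) with e | e
  · exact ⟨u, u1, u2, e⟩
  obtain ⟨v, v1, v2⟩ := hW (a + c) (add_mem ha hc) (by rwa [Ne, add_eq_zero'])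
  simp only [map_add, LinearMap.add_apply] at v2
  rcases zo (β c v) with e' | e'
  · exact ⟨v, v1, by simpa [e'] using v2, e'⟩
  · refine ⟨u + v, add_mem u1 v1, ?_, by simp [e, e', z11]⟩
    rw [map_add]; grind

theorem Nd.both (h : Alt β) {W : Submodule (ZMod 2) A} (hW : Nd β W) {a c : A} (ha : a ∈ W)
    (hc : c ∈ W) (ha0 : a ≠ 0) (hc0 : c ≠ 0) : ∃ b ∈ W, β a b = 1 ∧ β c b = 1 := by
  by_cases hac : a = c
  · obtain ⟨u, u1, u2⟩ := hW a ha ha0
    exact ⟨u, u1, u2, hac ▸ u2⟩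
  obtain ⟨u, u1, u2, u3⟩ := hW.two h ha hc ha0 hac
  obtain ⟨v, v1, v2, v3⟩ := hW.two h hc ha hc0 (Ne.symm hac)
  exact ⟨u + v, add_mem u1 v1, by simp [u2, v3], by simp [u3, v2]⟩

/-- transvections -/
def tr (h : Alt β) (a : A) : A ≃ₗ[ZMod 2] A where
  toFun v := v + β a v • a
  invFun v := v + β a v • a
  map_add' u v := by simp only [map_add]; vec2
  map_smul' c v := by simp only [map_smul, smul_eq_mul, RingHom.id_apply]; vec2
  left_inv v := by simp [h.alt, add_assoc, aa]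
  right_inv v := by simp [h.alt, add_assoc, aa]

theorem tr_apply (h : Alt β) (a v : A) : tr h a v = v + β a v • a := rfl

theorem tr_of_zero (h : Alt β) {a v : A} (e : β a v = 0) : tr h a v = v := by simp [tr_apply, e]

theorem tr_of_one (h : Alt β) {a v : A} (e : β a v = 1) : tr h a v = v + a := by simp [tr_apply, e]

theorem tr_mul_self (h : Alt β) (a : A) : tr h a * tr h a = 1 :=
  LinearEquiv.ext fun v => (tr h a).left_inv v

theorem tr_inv (h : Alt β) (a : A) : (tr h a)⁻¹ = tr h a :=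
  inv_eq_of_mul_eq_one_right (tr_mul_self h a)

theorem tr_zero (h : Alt β) : tr h 0 = 1 := LinearEquiv.ext fun v => by simp [tr_apply]

/-- isometries -/
def Iso2 (β : A →ₗ[ZMod 2] A →ₗ[ZMod 2] ZMod 2) (φ : A ≃ₗ[ZMod 2] A) : Prop :=
  ∀ u v, β (φ u) (φ v) = β u v

theorem Iso2.mul {φ ψ : A ≃ₗ[ZMod 2] A} (h1 : Iso2 β φ) (h2 : Iso2 β ψ) : Iso2 β (φ * ψ) :=
  fun u v => (h1 _ _).trans (h2 u v)

theorem iso_tr (h : Alt β) (a : A) : Iso2 β (tr h a) := fun u v => by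
  simp only [tr_apply, map_add, map_smul, LinearMap.add_apply, LinearMap.smul_apply, h.alt,
    smul_eq_mul, h.symm u a]
  grind

theorem Iso2.conj_tr (h : Alt β) {φ : A ≃ₗ[ZMod 2] A} (hφ : Iso2 β φ) (a : A) :
    φ * tr h a * φ⁻¹ = tr h (φ a) := LinearEquiv.ext fun v => by
  obtain ⟨v, rfl⟩ := φ.surjective v
  simp [tr_apply, hφ a v]

/-- quadratic forms polarising to `β` -/
def Qf (β : A →ₗ[ZMod 2] A →ₗ[ZMod 2] ZMod 2) (q : A → ZMod 2) : Prop :=
  ∀ a b, q (a + b) = q a + q b + β a b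

variable {q : A → ZMod 2}

theorem Qf.zero (hq : Qf β q) : q 0 = 0 := by
  have := hq 0 0
  simp only [add_zero, map_zero] at this
  grind

theorem Qf.ne_zero (hq : Qf β q) {a : A} (ha : q a = 1) : a ≠ 0 := by
  rintro rfl; rw [hq.zero] at ha; exact zero_ne_one ha

theorem Qf.tr (h : Alt β) (hq : Qf β q) {a : A} (ha : q a = 1) (v : A) : q (tr h a v) = q v := by
  rcases zo (β a v) with e | e
  · rw [tr_of_zero h e]
  · rw [tr_of_one h e, hq, ha, h.symm, e]; grind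

theorem Qf.exists_ns (hq : Qf β q) {W : Submodule (ZMod 2) A} (hW : Nd β W) {u : A} (hu : u ∈ W)
    (hu0 : u ≠ 0) : ∃ e ∈ W, q e = 1 := by
  obtain ⟨v, v1, v2⟩ := hW u hu hu0
  rcases zo (q u) with a | a
  · rcases zo (q v) with b | b
    · exact ⟨u + v, add_mem hu v1, by rw [hq, a, b, v2]; simp⟩
    · exact ⟨v, v1, b⟩
  · exact ⟨u, hu, a⟩

variable [FiniteDimensional (ZMod 2) A]

theorem Qf.exists_ns' (hq : Qf β q) {W : Submodule (ZMod 2) A} (hW : Nd β W)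
    (hd : 1 ≤ finrank (ZMod 2) W) : ∃ e ∈ W, q e = 1 :=
  let ⟨u, hu, hu0⟩ := exists_ne_zero_of_finrank hd
  hq.exists_ns hW hu hu0

theorem Qf.ns_cut (h : Alt β) (hq : Qf β q) {W : Submodule (ZMod 2) A} (hW : Nd β W)
    (hd : 3 ≤ finrank (ZMod 2) W) {x y : A} (hx : x ∈ W) (hy : y ∈ W) (hxy : β x y = 1) :
    ∃ e ∈ W, β x e = 0 ∧ β y e = 0 ∧ q e = 1 := by
  obtain ⟨e, e1, e2⟩ := hq.exists_ns' (hW.cut h hx hy hxy)
    (by have := finrank_cut (β := β) W x y; omega)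
  obtain ⟨a, b, c⟩ := mem_cut.1 e1
  exact ⟨e, a, b, c, e2⟩

theorem Qf.ns_perp (h : Alt β) (hq : Qf β q) {W : Submodule (ZMod 2) A} (hW : Nd β W)
    (hd : 3 ≤ finrank (ZMod 2) W) {s : A} (hs : s ∈ W) : ∃ e ∈ W, β s e = 0 ∧ q e = 1 := by
  by_cases h0 : s = 0
  · obtain ⟨e, e1, e2⟩ := hq.exists_ns' hW (by omega)
    exact ⟨e, e1, by simp [h0], e2⟩
  obtain ⟨v, v1, v2⟩ := hW s hs h0
  obtain ⟨e, a, b, -, c⟩ := hq.ns_cut h hW hd hs v1 v2
  exact ⟨e, a, b, c⟩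

/-- anisotropic planes -/
theorem Qf.aniso (h : Alt β) (hq : Qf β q) {W : Submodule (ZMod 2) A} (hW : Nd β W)
    (hd : 3 ≤ finrank (ZMod 2) W) {a : A} (ha : a ∈ W) (ha1 : q a = 1) :
    ∃ b ∈ W, q b = 1 ∧ β a b = 1 := by
  obtain ⟨u, u1, u2⟩ := hW a ha (hq.ne_zero ha1)
  rcases zo (q u) with e | e
  · obtain ⟨f, f1, f2, f3, f4⟩ := hq.ns_cut h hW hd ha u1 u2
    exact ⟨u + f, add_mem u1 f1, by rw [hq, e, f4, f3]; simp, by simp [u2, f2]⟩
  · exact ⟨u, u1, e, u2⟩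

/-- singular vectors -/
theorem Qf.exists_sing (h : Alt β) (hq : Qf β q) {W : Submodule (ZMod 2) A} (hW : Nd β W)
    (hd : 3 ≤ finrank (ZMod 2) W) : ∃ s ∈ W, s ≠ 0 ∧ q s = 0 := by
  obtain ⟨a, a1, a2⟩ := hq.exists_ns' hW (by omega)
  obtain ⟨u, u1, u2⟩ := hW a a1 (hq.ne_zero a2)
  obtain ⟨f, f1, f2, f3, f4⟩ := hq.ns_cut h hW hd a1 u1 u2
  refine ⟨a + f, add_mem a1 f1, fun e => ?_, by rw [hq, a2, f4, f2]; simp [z11]⟩
  rw [add_eq_zero'] at e
  rw [← e, h.symm, u2] at f3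
  exact one_ne_zero f3

end Cfsg.Agent.C6
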