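import Cfsg.Agent.C6.Geo1

/-! Groups generated by products of two reflections over the field with two elements. -/

set_option autoImplicit false
set_option linter.unusedSimpArgs false
set_option linter.unusedSectionVars false
set_option linter.unusedVariables false

namespace Cfsg.Agent.C6

open Module Cfsg.Agent.H6

variable {A : Type*} [AddCommGroup A] [Module (ZMod 2) A] [FiniteDimensional (ZMod 2) A]
  {β : A →ₗ[ZMod 2] A →ₗ[ZMod 2] ZMod 2} {q : A → ZMod 2} {S1 S0 : A → Prop}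

/-- the two types of geometry -/
def Ty (β : A →ₗ[ZMod 2] A →ₗ[ZMod 2] ZMod 2) (S1 S0 : A → Prop) : Prop :=
  ((∀ a, S1 a) ∧ ∀ a, S0 a) ∨ ∃ q, Qf β q ∧ (∀ a, S1 a ↔ q a = 1) ∧ ∀ a, S0 a ↔ q a = 0

theorem Ty.tr (h : Alt β) (hT : Ty β S1 S0) {a b : A} (ha : S1 a) : S1 (tr h a b) ↔ S1 b := by
  rcases hT with ⟨h1, -⟩ | ⟨q, hq, h1, -⟩
  · simp [h1]
  · rw [h1, h1, hq.tr h ((h1 a).1 ha)]

theorem Ty.trans (h : Alt β) (hn : Nd β ⊤) (hT : Ty β S1 S0) (L : Subgroup (A ≃ₗ[ZMod 2] A))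
    (hL : ∀ a b, S1 a → S1 b → a ≠ 0 → b ≠ 0 → C6.tr h a * C6.tr h b ∈ L) {x x' : A} (hx : x ≠ 0)
    (hx' : x' ≠ 0) (hd : 3 ≤ finrank (ZMod 2) A)
    (hs : (S0 x ∧ S0 x') ∨ (S1 x ∧ S1 x' ∧ 5 ≤ finrank (ZMod 2) A)) : ∃ φ ∈ L, φ x = x' := by
  have ne : ∀ u v : A, β u v = 1 → u + v ≠ 0 := fun u v e e' => by
    rw [add_eq_zero'] at e'; rw [e', h.alt] at e; exact zero_ne_one e
  have hd' : 3 ≤ finrank (ZMod 2) (⊤ : Submodule (ZMod 2) A) := by simpa
  have key : ∀ u v : A, β u v = 1 → C6.tr h (u + v) u = v := fun u v e => by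
    rw [tr_of_one h (by simp [h.alt, h.symm v u, e])]; vec2
  rcases zo (β x x') with e | e
  · by_cases hxx : x = x'
    · exact ⟨1, one_mem _, hxx⟩
    obtain ⟨y, y1, y2, y3, y4⟩ : ∃ y, β x y = 1 ∧ β x' y = 1 ∧ S1 (x + y) ∧ S1 (y + x') := by
      obtain ⟨y, -, y1, y2⟩ := hn.both h trivial trivial hx hx'
      rcases hT with ⟨h1, -⟩ | ⟨q, hq, h1, h0⟩
      · exact ⟨y, y1, y2, h1 _, h1 _⟩
      have hxq : q x = q x' := by
        rcases hs with ⟨a, b⟩ | ⟨a, b, -⟩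
        · rw [(h0 _).1 a, (h0 _).1 b]
        · rw [(h1 _).1 a, (h1 _).1 b]
      suffices ∃ y, β x y = 1 ∧ β x' y = 1 ∧ q y = q x by
        obtain ⟨y, a, b, c⟩ := this
        refine ⟨y, a, b, (h1 _).2 ?_, (h1 _).2 ?_⟩
        · rw [hq, a, c]; grind
        · rw [hq, h.symm, b, c, hxq]; grind
      by_cases c : q y = q x
      · exact ⟨y, y1, y2, c⟩
      rcases hs with ⟨a, -⟩ | ⟨a, -, d⟩
      · refine ⟨y + x, by simp [y1, h.alt], by simp [y2, h.symm x' x, e], ?_⟩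
        rw [(h0 _).1 a] at c ⊢
        rw [hq, (h0 _).1 a, one_of_ne c, h.symm, y1]; grind
      · obtain ⟨f, f1, f2, f3⟩ := hq.ns_perp h (hn.cut h trivial trivial y1)
          (by have := finrank_cut (β := β) ⊤ x y; simp at this; omega) (s := x + x')
          (mem_cut.2 ⟨trivial, by simp [h.alt, e], by simp [h.symm y, y1, y2, z11]⟩)
        obtain ⟨-, g1, g2⟩ := mem_cut.1 f1
        simp only [map_add, LinearMap.add_apply, g1, zero_add] at f2
        refine ⟨y + f, by simp [y1, g1], by simp [y2, f2], ?_⟩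
        rw [(h1 _).1 a] at c ⊢
        rw [hq, zero_of_ne c, f3, g2]; simp
    refine ⟨_, hL _ _ y4 y3 (ne _ _ (by rw [h.symm, y2])) (ne _ _ y1), ?_⟩
    rw [LinearEquiv.mul_apply, key _ _ y1, key _ _ (by rw [h.symm, y2])]
  · obtain ⟨b, b1, b2, b3, b4⟩ : ∃ b, b ≠ 0 ∧ S1 b ∧ β b x' = 0 ∧ S1 (x + x') := by
      rcases hT with ⟨h1, -⟩ | ⟨q, hq, h1, h0⟩
      · exact ⟨x', hx', h1 _, h.alt _, h1 _⟩
      obtain ⟨b, -, b1, b2⟩ := hq.ns_perp h hn hd' (s := x') trivial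
      refine ⟨b, hq.ne_zero b2, (h1 _).2 b2, by rw [h.symm, b1], (h1 _).2 ?_⟩
      rcases hs with ⟨a, b⟩ | ⟨a, b, -⟩
      · rw [hq, (h0 _).1 a, (h0 _).1 b, e]; simp
      · rw [hq, (h1 _).1 a, (h1 _).1 b, e]; grind
    refine ⟨_, hL _ _ b2 b4 b1 (ne _ _ e), ?_⟩
    rw [LinearEquiv.mul_apply, key _ _ e, tr_of_zero h b3]

/-- no totally singular plane -/
def NoPl (β : A →ₗ[ZMod 2] A →ₗ[ZMod 2] ZMod 2) (S0 : A → Prop) : Prop :=
  ∀ s s', S0 s → S0 s' → β s s' = 0 → s = 0 ∨ s' = 0 ∨ s = s'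

section G1

variable (h : Alt β) (hn : Nd β ⊤) (hT : Ty β S1 S0) (K : Subgroup (A ≃ₗ[ZMod 2] A))
  (hK : ∀ a b, S1 a → S1 b → ∀ k ∈ K, tr h a * tr h b * k * (tr h a * tr h b)⁻¹ ∈ K)
include hn hT hK

theorem g1_pair {a c : A} (ha : S1 a) (hc : S1 c) (ha0 : a ≠ 0) (hac : a ≠ c)
    (hk : tr h a * tr h c ∈ K) : ∃ a c, S1 a ∧ S1 c ∧ β a c = 1 ∧ tr h a * tr h c ∈ K := by
  rcases zo (β a c) with e | e
  swap; · exact ⟨a, c, ha, hc, e, hk⟩
  obtain ⟨b, b1, b2, b3⟩ : ∃ b, S1 b ∧ β a b = 1 ∧ β c b = 0 := by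
    obtain ⟨b, -, b1, b2⟩ := hn.two h trivial trivial ha0 hac
    rcases hT with ⟨h1, -⟩ | ⟨q, hq, h1, h0⟩
    · exact ⟨b, h1 _, b1, b2⟩
    rcases zo (q b) with d | d
    · refine ⟨b + c, (h1 _).2 ?_, by simp [b1, e], by simp [b2, h.alt]⟩
      rw [hq, d, (h1 _).1 hc, h.symm, b2]; simp
    · exact ⟨b, (h1 _).2 d, b1, b2⟩
  have hi := (iso_tr h c).mul (iso_tr h b)
  have h1 := hK c b hc b1 _ hk
  rw [show ∀ g x y : A ≃ₗ[ZMod 2] A, g * (x * y) * g⁻¹ = (g * x * g⁻¹) * (g * y * g⁻¹) from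
    fun g x y => by group, hi.conj_tr, hi.conj_tr] at h1
  have e1 : (tr h c * tr h b) a = a + b := by
    rw [LinearEquiv.mul_apply, tr_of_one h (a := b) (by rw [h.symm, b2]), tr_of_zero]
    simp [h.symm c a, e, b3]
  have e2 : (tr h c * tr h b) c = c := by
    rw [LinearEquiv.mul_apply, tr_of_zero h (a := b) (by rw [h.symm, b3]), tr_of_zero h (h.alt _)]
  rw [e1, e2] at h1
  refine ⟨a + b, a, ?_, ha, by simp [h.alt, h.symm b a, b2], ?_⟩
  · rw [← tr_of_one h (a := b) (by rw [h.symm, b2]), hT.tr h b1]; exact ha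
  · simpa [mul_assoc, tr_inv, ← mul_assoc (tr h c), tr_mul_self] using mul_mem h1 (inv_mem hk)

theorem g1_fix (hd : 3 ≤ finrank (ZMod 2) A) {φ : A ≃ₗ[ZMod 2] A} (hφ : Iso2 β φ)
    (hS : ∀ a, S1 (φ a) ↔ S1 a) (h1 : φ ≠ 1)
    (hκ : ∀ a b, S1 a → S1 b → tr h b * tr h a * tr h (φ a) * tr h (φ b) ∈ K) {b : A} (hb : S1 b)
    (hb' : φ b = b) : ∃ a c, S1 a ∧ S1 c ∧ β a c = 1 ∧ tr h a * tr h c ∈ K := by
  obtain ⟨a, a1, a2⟩ : ∃ a, S1 a ∧ φ a ≠ a := by
    by_contra! c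
    refine h1 (LinearEquiv.ext fun v => ?_)
    rcases hT with ⟨h1, -⟩ | ⟨q, hq, h1, h0⟩
    · exact c v (h1 v)
    rcases zo (q v) with d | d
    · obtain ⟨f, -, f1, f2⟩ := hq.ns_perp h hn (by simpa) (s := v) trivial
      have := c (v + f) ((h1 _).2 (by rw [hq, d, f1, f2]; simp))
      rwa [map_add, c f ((h1 _).2 f2), add_left_inj] at this
    · exact c v ((h1 _).2 d)
  have h2 := hκ a b a1 hb
  rw [hb', show tr h b * tr h a * tr h (φ a) * tr h b = (tr h b * tr h a * (tr h b)⁻¹) *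
    (tr h b * tr h (φ a) * (tr h b)⁻¹) by
      simp only [mul_assoc, inv_mul_cancel_left]; rw [tr_inv],
    (iso_tr h b).conj_tr, (iso_tr h b).conj_tr] at h2
  refine g1_pair h hn hT K hK ((hT.tr h hb).2 a1) ((hT.tr h hb).2 ((hS a).2 a1)) ?_ ?_ h2
  · rw [Ne, LinearEquiv.map_eq_zero_iff]; rintro rfl; simp at a2
  · exact fun e => a2 ((tr h b).injective e).symm

theorem g1 (hd : 3 ≤ finrank (ZMod 2) A)
    (hO : (∀ a, S1 a) ∨ 5 ≤ finrank (ZMod 2) A ∨ NoPl β S0) {φ : A ≃ₗ[ZMod 2] A} (hφ : Iso2 β φ)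
    (hS : ∀ a, S1 (φ a) ↔ S1 a) (h1 : φ ≠ 1)
    (hκ : ∀ a b, S1 a → S1 b → tr h b * tr h a * tr h (φ a) * tr h (φ b) ∈ K) :
    ∃ a c, S1 a ∧ S1 c ∧ β a c = 1 ∧ tr h a * tr h c ∈ K := by
  by_cases hfix : ∃ b, S1 b ∧ φ b = b
  · obtain ⟨b, b1, b2⟩ := hfix
    exact g1_fix h hn hT K hK hd hφ hS h1 hκ b1 b2
  push Not at hfix
  by_contra hcon
  obtain ⟨q, hq, h1', h0⟩ : ∃ q, Qf β q ∧ (∀ a, S1 a ↔ q a = 1) ∧ ∀ a, S0 a ↔ q a = 0 :=
    hT.resolve_left fun e => hfix 0 (e.1 0) (map_zero _)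
  replace hO := hO.resolve_left fun e => hfix 0 (e 0) (map_zero _)
  -- no non-trivial commutator fixes a non-singular vector
  have key : ∀ a b e, S1 a → S1 b → S1 e → β a e = 0 → β b e = 0 → β (φ a) e = 0 →
      β (φ b) e = 0 → tr h b * tr h a * tr h (φ a) * tr h (φ b) = 1 := by
    intro a b e ha hb he e1 e2 e3 e4
    by_contra hne
    have hi : Iso2 β (tr h b * tr h a * tr h (φ a) * tr h (φ b)) :=
      (((iso_tr h _).mul (iso_tr h _)).mul (iso_tr h _)).mul (iso_tr h _)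
    refine hcon (g1_fix h hn hT K hK hd hi (fun v => ?_) hne (fun u v hu hv => ?_) he ?_)
    · simp only [LinearEquiv.mul_apply]
      rw [hT.tr h hb, hT.tr h ha, hT.tr h ((hS a).2 ha), hT.tr h ((hS b).2 hb)]
    · have := mul_mem (hK v u hv hu _ (hκ a b ha hb)) (inv_mem (hκ a b ha hb))
      rw [← hi.conj_tr, ← hi.conj_tr]
      convert this using 1
      rw [mul_inv_rev (tr h v), tr_inv, tr_inv]
      group
    · simp only [LinearEquiv.mul_apply]
      rw [tr_of_zero h e4, tr_of_zero h e3, tr_of_zero h e1, tr_of_zero h e2]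
  have sq : ∀ a, S1 a → φ (φ a) = a + β (φ a) a • φ a := fun a ha => by
    by_contra c
    have h2 := hκ a (φ a) ha ((hS a).2 ha)
    rw [show tr h (φ a) * tr h a * tr h (φ a) = tr h (φ a) * tr h a * (tr h (φ a))⁻¹ by
      rw [tr_inv], (iso_tr h _).conj_tr] at h2
    have h3 := (hT.tr h ((hS a).2 ha)).2 ha
    exact hcon (g1_pair h hn hT K hK h3 ((hS _).2 ((hS a).2 ha))
      (hq.ne_zero ((h1' _).1 h3)) (fun e => c e.symm) h2)
  have qφ : ∀ a, S1 a → q (φ a) = 1 := fun a ha => (h1' _).1 ((hS a).2 ha)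
  have hd' : 3 ≤ finrank (ZMod 2) (⊤ : Submodule (ZMod 2) A) := by simpa
  by_cases c1 : ∃ a, S1 a ∧ β (φ a) a = 0
  · obtain ⟨a, ha, e⟩ := c1
    have e1 : φ (φ a) = a := by simpa [e] using sq a ha
    have e' : β a (φ a) = 0 := by rw [h.symm, e]
    have qa := (h1' _).1 ha
    have hs : a + φ a ≠ 0 := by rw [Ne, add_eq_zero']; exact (hfix a ha).symm
    have qs : q (a + φ a) = 0 := by rw [hq, qa, qφ a ha, e']; grind
    rcases hO with hO | hO
    · obtain ⟨v, ⟨v1, v2⟩, v3⟩ := exists_not_mem_pair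
        (K := LinearMap.ker (β a) ⊓ LinearMap.ker (β (φ a)))
        (by have := finrank_ker₂_ge (β a) (β (φ a)); omega) a (φ a)
      replace v1 : β a v = 0 := v1
      replace v2 : β (φ a) v = 0 := v2
      obtain ⟨b, b1, b2, b3, b4⟩ : ∃ b, S1 b ∧ β a b = 0 ∧ β (φ a) b = 0 ∧
          ∀ s t : ZMod 2, b ≠ s • a + t • φ a := by
        rcases zo (q v) with d | d
        · refine ⟨v + a, (h1' _).2 (by rw [hq, d, qa, h.symm, v1]; simp), by simp [v1, h.alt],
            by simp [v2, e], fun s t c => v3 (s + 1) t ?_⟩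
          rw [← add_left_inj a, c]; vec2
        · exact ⟨v, (h1' _).2 d, v1, v2, v3⟩
      have b5 : β (φ b) a = 0 := by rw [← e1, hφ, h.symm, b3]
      have b6 : β (φ b) (φ a) = 0 := by rw [hφ, h.symm, b2]
      have h2 := key a b a ha b1 ha (h.alt _) (by rw [h.symm, b2]) e b5
      -- apply to a vector not orthogonal to `b`
      obtain ⟨u, u1, u2⟩ : ∃ u, β b u = 1 ∧ β (φ b) u = 0 := by
        obtain ⟨u, -, u1, u2⟩ := hn.two h trivial trivial (hq.ne_zero ((h1' _).1 b1))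
          (hfix b b1).symm
        exact ⟨u, u1, u2⟩
      have h3 := LinearEquiv.congr_fun h2 u
      simp only [LinearEquiv.mul_apply, tr_of_zero h u2, LinearEquiv.coe_one, id_eq] at h3
      rw [tr_of_one h (by simp [tr_apply, u1, h.symm b a, h.symm b (φ a), b2, b3]), tr_apply,
        tr_apply] at h3
      refine b4 (β a (u + β (φ a) u • φ a)) (β (φ a) u) ?_
      rw [← add_right_inj u, ← add_left_inj b]
      conv_lhs => rw [← h3]
      vec2
    · obtain ⟨v, v1, v2⟩ : ∃ v, S1 v ∧ β (a + φ a) v = 1 := by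
        obtain ⟨v, -, v1⟩ := hn _ trivial hs
        rcases zo (q v) with d | d
        · exact ⟨v + (a + φ a), (h1' _).2 (by rw [hq v, d, qs, h.symm, v1]; simp),
            by rw [map_add, v1, h.alt]; simp⟩
        · exact ⟨v, (h1' _).2 d, v1⟩
      have v3 : β (φ v) v = 0 := by
        by_contra c
        have e2 := sq v v1
        rw [one_of_ne c, one_smul] at e2
        have e3 := hφ a v
        have e4 := hφ (φ a) v
        have e5 := hφ (φ a) (φ v)
        have e6 := hφ a (φ v)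
        rw [e1] at e4 e5
        rw [e2, map_add] at e5 e6
        simp only [map_add, LinearMap.add_apply] at v2
        clear * - e3 e4 e5 e6 v2
        grind
      have e2 : φ (φ v) = v := by simpa [v3] using sq v v1
      have sing : ∀ w, φ w = w → q w = 0 := fun w hw =>
        zero_of_ne fun c => hfix w ((h1' _).2 c) hw
      have f1 : φ (a + φ a) = a + φ a := by rw [map_add, e1, add_comm]
      have f2 : φ (v + φ v) = v + φ v := by rw [map_add, e2, add_comm]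
      have f3 := sing (a + φ a + (v + φ v)) (by rw [map_add, f1, f2])
      rw [hq, sing _ f1, sing _ f2] at f3
      rcases hO _ _ ((h0 _).2 qs) ((h0 _).2 (sing _ f2)) (by simpa using f3) with c | c | c
      · exact hs c
      · rw [add_eq_zero'] at c; exact hfix v v1 c.symm
      · rw [c] at v2; simp [h.alt, v3] at v2
  · push Not at c1
    replace c1 : ∀ a, S1 a → β (φ a) a = 1 := fun a ha => one_of_ne (c1 a ha)
    replace sq : ∀ a, S1 a → φ (φ a) = a + φ a := fun a ha => by simpa [c1 a ha] using sq a ha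
    obtain ⟨a, -, qa⟩ := hq.exists_ns' hn (by omega)
    have ha := (h1' a).2 qa
    obtain ⟨b, -, b1, b2, qb⟩ := hq.ns_cut h hn hd' trivial trivial (c1 a ha)
    have hb := (h1' b).2 qb
    have b3 : β (φ a) (φ b) = 0 := by rw [hφ, b2]
    have b4 : β a (φ b) = 0 := by
      have := hφ (φ a) b
      rwa [sq a ha, map_add, LinearMap.add_apply, b3, b1, add_zero] at this
    rcases hO with hO | hO
    · obtain ⟨e, e1, e2, e3, e4⟩ := hq.ns_cut h (hn.cut h trivial trivial (c1 a ha))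
        (by have := finrank_cut (β := β) ⊤ (φ a) a; simp at this; omega)
        (mem_cut.2 ⟨trivial, b3, b4⟩) (mem_cut.2 ⟨trivial, b1, b2⟩) (c1 b hb)
      obtain ⟨-, e5, e6⟩ := mem_cut.1 e1
      have h3 := LinearEquiv.congr_fun (key a b e ha hb ((h1' _).2 e4) e6 e3 e5 e2) a
      simp only [LinearEquiv.mul_apply, LinearEquiv.coe_one, id_eq] at h3
      rw [tr_of_zero h (a := φ b) (by rw [h.symm, b4]), tr_of_one h (c1 a ha),
        tr_of_one h (a := a) (by simp [h.alt, h.symm a (φ a), c1 a ha]),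
        show a + φ a + a = φ a by vec2, tr_of_zero h (by rw [h.symm, b1])] at h3
      exact hfix a ha h3
    · rcases hO (a + b) (φ a + φ b) ((h0 _).2 (by rw [hq, qa, qb, b2]; grind))
        ((h0 _).2 (by rw [hq, qφ a ha, qφ b hb, b3]; grind))
        (by simp [h.symm a (φ a), h.symm b (φ b), h.symm b (φ a), c1 a ha, c1 b hb, b1, b4, z11])
        with c | c | c
      · have := congrArg (β (φ a)) c
        simp [c1 a ha, b1] at this
      · have := congrArg (β a) c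
        simp [h.symm a (φ a), c1 a ha, b4] at this
      · have := congrArg (β a) c
        simp [h.symm a (φ a), c1 a ha, b4, b2, h.alt] at this

end G1

end Cfsg.Agent.C6
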