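import Cfsg.Agent.C6.Geo1

/-! Involutions of a symplectic space over the field with two elements, and the non-existence of
sharply transitive sets of isometries. -/

set_option autoImplicit false
set_option linter.unusedSimpArgs false
set_option linter.unusedSectionVars false
set_option linter.unusedVariables false

namespace Cfsg.Agent.C6

open Module Cfsg.Agent.H6

variable {A : Type*} [AddCommGroup A] [Module (ZMod 2) A] [FiniteDimensional (ZMod 2) A]
  {β : A →ₗ[ZMod 2] A →ₗ[ZMod 2] ZMod 2}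

/-- fixed vectors -/
def fixS (σ : A ≃ₗ[ZMod 2] A) : Submodule (ZMod 2) A :=
  LinearMap.ker ((σ : A →ₗ[ZMod 2] A) + LinearMap.id)

theorem mem_fixS {σ : A ≃ₗ[ZMod 2] A} {a : A} : a ∈ fixS σ ↔ σ a = a := by
  simp [fixS, add_eq_zero']

theorem range_le_fixS {σ : A ≃ₗ[ZMod 2] A} (h2 : ∀ a, σ (σ a) = a) :
    LinearMap.range ((σ : A →ₗ[ZMod 2] A) + LinearMap.id) ≤ fixS σ := by
  rintro _ ⟨a, rfl⟩
  simp [mem_fixS, h2, add_comm]

theorem fix_one {σ : A ≃ₗ[ZMod 2] A} (h2 : ∀ a, σ (σ a) = a) (χ : Dual (ZMod 2) A)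
    (hd : 3 ≤ finrank (ZMod 2) A) : ∃ a, a ≠ 0 ∧ σ a = a ∧ χ a = 0 := by
  have h1 := LinearMap.finrank_range_add_finrank_ker ((σ : A →ₗ[ZMod 2] A) + LinearMap.id)
  have h3 := Submodule.finrank_mono (range_le_fixS h2)
  obtain ⟨a, ⟨a1, a2⟩, a3⟩ := exists_ne_zero_of_finrank (K := fixS σ ⊓ LinearMap.ker χ)
    (by have := finrank_inf_ker_ge (fixS σ) χ; unfold fixS at *; omega)
  exact ⟨a, a3, mem_fixS.1 a1, a2⟩

theorem fix_two (h : Alt β) {σ : A ≃ₗ[ZMod 2] A} (hσ : Iso2 β σ) (h2 : ∀ a, σ (σ a) = a)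
    (χ : Dual (ZMod 2) A) (hd : 5 ≤ finrank (ZMod 2) A) :
    ∃ a a', a ≠ 0 ∧ a' ≠ 0 ∧ a ≠ a' ∧ σ a = a ∧ σ a' = a' ∧ χ a = 0 ∧ χ a' = 0 ∧ β a a' = 0 := by
  set φ := (σ : A →ₗ[ZMod 2] A) + LinearMap.id with hφ
  have h1 := LinearMap.finrank_range_add_finrank_ker φ
  have h3 := Submodule.finrank_mono (range_le_fixS h2)
  have h4 := finrank_inf_ker_ge (fixS σ) χ
  rw [← hφ] at h3
  change _ + finrank (ZMod 2) (fixS σ) = _ at h1
  suffices ∃ a ∈ fixS σ ⊓ LinearMap.ker χ, a ≠ 0 ∧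
      2 ≤ finrank (ZMod 2) ↥(fixS σ ⊓ LinearMap.ker χ ⊓ LinearMap.ker (β a)) by
    obtain ⟨a, ⟨a1, a2⟩, a3, a4⟩ := this
    obtain ⟨b, ⟨⟨b1, b2⟩, b3⟩, b4⟩ := exists_not_mem_one a4 a
    exact ⟨a, b, a3, by simpa using b4 0, by simpa [eq_comm] using b4 1, mem_fixS.1 a1,
      mem_fixS.1 b1, a2, b2, b3⟩
  by_cases c : 2 ≤ finrank (ZMod 2) (LinearMap.range φ)
  · obtain ⟨a, ⟨a1, a2⟩, a3⟩ := exists_ne_zero_of_finrank (K := LinearMap.range φ ⊓ LinearMap.ker χ)
      (by have := finrank_inf_ker_ge (LinearMap.range φ) χ; omega)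
    refine ⟨a, ⟨range_le_fixS h2 a1, a2⟩, a3, ?_⟩
    rw [inf_eq_left.2]
    · omega
    · rintro v ⟨v1, -⟩
      obtain ⟨u, rfl⟩ := a1
      have := hσ u v
      rw [mem_fixS.1 v1] at this
      simp [hφ, this, aa]
  · obtain ⟨a, a1, a3⟩ := exists_ne_zero_of_finrank (K := fixS σ ⊓ LinearMap.ker χ)
      (by omega)
    exact ⟨a, a1, a3, by
      have := finrank_inf_ker_ge (fixS σ ⊓ LinearMap.ker χ) (β a); omega⟩

theorem Alt.exists_qf (h : Alt β) : ∃ q, Qf β q := by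
  let b := Module.finBasis (ZMod 2) A
  let γ : A →ₗ[ZMod 2] A →ₗ[ZMod 2] ZMod 2 :=
    b.constr (ZMod 2) fun i => b.constr (ZMod 2) fun j => if i < j then β (b i) (b j) else 0
  have : γ + γ.flip = β := b.ext fun i => b.ext fun j => by
    simp only [γ, LinearMap.add_apply, LinearMap.flip_apply, Basis.constr_basis]
    rcases lt_trichotomy i j with c | c | c
    · simp [c, c.not_gt]
    · simp [c, h.alt]
    · simp [c, c.not_gt, h.symm (b i)]
  refine ⟨fun a => γ a a, fun u v => ?_⟩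
  simp only [← this, map_add, LinearMap.add_apply, LinearMap.flip_apply]
  ring

/-- the sign character -/
def sg (c : ZMod 2) : ℤ := if c = 0 then 1 else -1

theorem sg_add (a b : ZMod 2) : sg (a + b) = sg a * sg b := by revert a b; decide

theorem sum_sg [Fintype A] (l : A → ZMod 2) (hl : ∀ a b, l (a + b) = l a + l b) :
    ∑ v, sg (l v) = if ∀ v, l v = 0 then (Fintype.card A : ℤ) else 0 := by
  split_ifs with c
  · simp [c, sg]
  · push Not at c
    obtain ⟨u, hu⟩ := c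
    have := Fintype.sum_equiv (Equiv.addRight u) (fun v => sg (l (v + u))) (fun v => sg (l v))
      fun _ => rfl
    simp only [hl, sg_add, one_of_ne hu, ← Finset.sum_mul] at this
    rw [show sg 1 = -1 by decide] at this
    omega

theorem no_sharp (h : Alt β) (hn : Nd β ⊤) (hd : 3 ≤ finrank (ZMod 2) A) {T : Type*}
    (σ : T → A ≃ₗ[ZMod 2] A) (hσ : ∀ t, Iso2 β (σ t))
    (hs : ∀ x y : A, x ≠ 0 → y ≠ 0 → ∃! t, σ t x = y) : False := by
  classical
  have : Finite A := Module.finite_of_finite (ZMod 2)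
  have := Fintype.ofFinite A
  obtain ⟨q, hq⟩ := h.exists_qf
  let e : ∀ x : A, x ≠ 0 → T ≃ {y : A // y ≠ 0} := fun x hx =>
    Equiv.ofBijective (fun t => ⟨σ t x, by simpa⟩) ⟨fun t t' e => (hs x (σ t x) hx (by simpa)).unique
      rfl (congrArg Subtype.val e).symm, fun y =>
        let ⟨t, ht, _⟩ := hs x y hx y.2
        ⟨t, Subtype.ext ht⟩⟩
  obtain ⟨x₀, -, hx₀⟩ := exists_ne_zero_of_finrank (K := (⊤ : Submodule (ZMod 2) A))
    (by simp; omega)
  have := Fintype.ofEquiv _ (e x₀ hx₀).symm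
  set N : ℤ := (Fintype.card A : ℤ) with hN
  set G : ℤ := ∑ v, sg (q v) with hG
  have s0 : sg (q 0) = 1 := by rw [hq.zero]; rfl
  have hG' : ∑ y : {y : A // y ≠ 0}, sg (q y) = G - 1 := by
    rw [hG, ← s0, Fintype.sum_eq_add_sum_subtype_ne _ (0 : A)]; ring
  have hT : (Fintype.card T : ℤ) = N - 1 := by
    rw [Fintype.card_congr (e x₀ hx₀), Fintype.card_subtype_compl, Fintype.card_subtype_eq,
      Nat.cast_sub Fintype.card_pos]; rfl
  have hG2 : G * G = N := by
    rw [hG, Finset.sum_mul_sum]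
    have : ∀ v : A, ∑ u, sg (q v) * sg (q u) = ∑ u, sg (q u) * sg (β u v) := fun v => by
      rw [← Fintype.sum_equiv (Equiv.addLeft v) (fun u => sg (q v) * sg (q (v + u))) _ fun _ => rfl]
      refine Finset.sum_congr rfl fun u _ => ?_
      rw [← sg_add, ← sg_add, hq, h.symm u]; congr 1; grind
    simp only [this]
    rw [Finset.sum_comm]
    simp only [← Finset.mul_sum, sum_sg _ (map_add (β _))]
    rw [Finset.sum_eq_single 0 (fun u _ hu => ?_) (by simp)]
    · simp [s0, hN]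
    · obtain ⟨v, -, hv⟩ := hn u trivial hu
      rw [if_neg fun c => by simp [c v] at hv, mul_zero]
  have h1 : N ∣ ∑ t, ∑ v, sg (q (σ t v) + q v) := Finset.dvd_sum fun t _ => by
    rw [sum_sg _ fun a b => by
      rw [map_add, hq, hq, hσ]; linear_combination β a b * z11]
    split_ifs <;> simp [hN]
  rw [Finset.sum_comm, Fintype.sum_eq_add_sum_subtype_ne _ (0 : A)] at h1
  have h2 : ∀ v : {y : A // y ≠ 0}, ∑ t, sg (q (σ t v) + q v) = (G - 1) * sg (q v) := fun v => by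
    simp only [sg_add, ← Finset.sum_mul, ← hG']
    congr 1
    exact Fintype.sum_equiv (e v v.2) _ _ fun _ => rfl
  simp only [h2, ← Finset.mul_sum, hG', map_zero, aa, show sg 0 = 1 from rfl, Finset.sum_const,
    Finset.card_univ, nsmul_eq_mul, mul_one, hT] at h1
  have h3 : N ∣ 2 * G := by
    have := dvd_sub (dvd_mul_left N 2) h1
    rwa [show 2 * N - (N - 1 + (G - 1) * (G - 1)) = 2 * G by linear_combination -hG2] at this
  have h4 : N * N ∣ N * 4 := by
    have := mul_dvd_mul h3 h3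
    rwa [show 2 * G * (2 * G) = N * 4 by linear_combination 4 * hG2] at this
  have h5 : 8 ≤ N := by
    rw [hN, Module.card_eq_pow_finrank (K := ZMod 2), ZMod.card]
    exact_mod_cast Nat.pow_le_pow_right two_pos hd
  have := Int.le_of_dvd (by omega) ((mul_dvd_mul_iff_left (by omega)).1 h4)
  omega

end Cfsg.Agent.C6
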