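import Cfsg.Agent.Orth.OO1

/-! The group-theoretic core: an elementary abelian `2`-subgroup whose normaliser contains the
centralisers of its involutions. -/

set_option autoImplicit false
set_option linter.unusedSimpArgs false
set_option linter.unusedSectionVars false
set_option linter.unusedVariables false

namespace Cfsg.Agent.C6

open Subgroup

section Dih

variable {Q : Type*} [Group Q] [Finite Q] {A : Subgroup Q}

theorem conj_mem_of_norm {G : Type*} [Group G] {A : Subgroup G} {g a : G}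
    (hg : g ∈ normalizer (A : Set G)) (ha : a ∈ A) : g * a * g⁻¹ ∈ A :=
  (mem_normalizer_iff.1 hg a).1 ha

theorem sharp (h2 : ∀ a ∈ A, a * a = 1)
    (hC : ∀ a ∈ A, a ≠ 1 → ∀ u, u * a = a * u → u ∈ normalizer (A : Set Q))
    (hF : ∀ a ∈ A, a ≠ 1 → ∀ g, g * a * g⁻¹ ∈ normalizer (A : Set Q) → g ∈ normalizer (A : Set Q))
    {g : Q} (hg : g ∉ normalizer (A : Set Q)) {x y : Q} (hx : x ∈ A) (hx1 : x ≠ 1) (hy : y ∈ A)
    (hy1 : y ≠ 1) : ∃! d : Q, (∃ u, ∃ a ∈ A, a ≠ 1 ∧ d = u * a * u⁻¹) ∧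
      g⁻¹ * d ∈ normalizer (A : Set Q) ∧ d * x * d⁻¹ = g * y * g⁻¹ := by
  have hFA : ∀ a ∈ A, a ≠ 1 → ∀ g, g * a * g⁻¹ ∈ normalizer (A : Set Q) → g * a * g⁻¹ ∈ A :=
    fun a ha h1 g hg => conj_mem_of_norm (hF a ha h1 g hg) ha
  have hAN : A ≤ normalizer (A : Set Q) := le_normalizer
  set t := g * y * g⁻¹ with ht
  have hs := h2 x hx
  have ht2 : t * t = 1 := by
    rw [ht, show g * y * g⁻¹ * (g * y * g⁻¹) = g * (y * y) * g⁻¹ by group, h2 y hy]; simp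
  have hs' : x⁻¹ = x := inv_eq_of_mul_eq_one_right hs
  have ht' : t⁻¹ = t := inv_eq_of_mul_eq_one_right ht2
  obtain ⟨k, hk⟩ : Odd (orderOf (x * t)) := by
    rw [← Nat.not_even_iff_odd]
    intro he
    obtain ⟨m, j, c1, c2, c3, c4⟩ := Orth.OO.dih_even' hs ht2 he
    generalize (x * t) ^ m = c at *
    generalize (x * t) ^ j = w at *
    generalize (x * t) ^ (j + 1) = w' at *
    have n1 := mul_mem (hC x hx hx1 c c2) (hAN hx)
    have n2 := mul_mem (hC y hy hy1 (g⁻¹ * c * g) (by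
      rw [← mul_left_inj g⁻¹, ← mul_right_inj g]
      simpa [ht, mul_assoc] using c3)) (hAN hy)
    have e : g⁻¹ * c * g * y = g⁻¹ * (c * t) * g := by rw [ht]; group
    have a1 : c * x ∈ A := by
      rcases c4 with ⟨c4, -⟩ | ⟨c4, -⟩ <;> rw [c4] at n1 ⊢
      · exact hFA x hx hx1 _ n1
      · rw [show w' * t * w'⁻¹ = (w' * g) * y * (w' * g)⁻¹ by rw [ht]; group] at n1 ⊢
        exact hFA y hy hy1 _ n1
    have a2 : g⁻¹ * c * g * y ∈ A := by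
      rw [e] at n2 ⊢
      rcases c4 with ⟨-, c4⟩ | ⟨-, c4⟩ <;> rw [c4] at n2 ⊢
      · rw [show g⁻¹ * (w * t * w⁻¹) * g = (g⁻¹ * w * g) * y * (g⁻¹ * w * g)⁻¹ by
          rw [ht]; group] at n2 ⊢
        exact hFA y hy hy1 _ n2
      · rw [show g⁻¹ * (w * x * w⁻¹) * g = (g⁻¹ * w) * x * (g⁻¹ * w)⁻¹ by group] at n2 ⊢
        exact hFA x hx hx1 _ n2
    rw [mul_mem_cancel_right hx] at a1
    rw [mul_mem_cancel_right hy] at a2
    exact hg (inv_mem_iff.1 (hF c a1 c1 g⁻¹ (hAN (by simpa using a2))))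
  set c := x * t with hc
  have hc1 : c ^ (2 * k + 1) = 1 := hk ▸ pow_orderOf_eq_one c
  have e1 : ∀ j : ℕ, x * (c ^ j)⁻¹ = c ^ j * x := fun j => by
    have : x * c⁻¹ * x⁻¹ = c := by
      rw [hc, mul_inv_rev, hs', ht', mul_assoc, mul_assoc, hs, mul_one]
    rw [← inv_pow, ← this, conj_pow, this, hs', mul_assoc, hs, mul_one]
  have e2 : c ^ k * x = c ^ (k * (k + 1)) * x * (c ^ (k * (k + 1)))⁻¹ := by
    rw [mul_assoc, e1, ← mul_assoc, ← pow_add,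
      show k * (k + 1) + k * (k + 1) = (2 * k + 1) * k + k by ring, pow_add, pow_mul, hc1]
    simp
  have e5 : c ^ k * (c ^ k * x) = t := by
    rw [← mul_assoc, ← pow_add, ← mul_right_inj c, ← mul_assoc, ← pow_succ', ← two_mul, hc1, hc,
      mul_assoc x, ht2]
    simp
  have e3 : c ^ k * x * x * (c ^ k * x)⁻¹ = t := by
    rw [mul_assoc (c ^ k) x x, hs, mul_one, mul_inv_rev, hs', e1, e5]
  have e4 : ∀ d, d * x * d⁻¹ = t → g⁻¹ * d ∈ normalizer (A : Set Q) := fun d hd =>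
    hF x hx hx1 _ (hAN (by
      rw [show g⁻¹ * d * x * (g⁻¹ * d)⁻¹ = g⁻¹ * (d * x * d⁻¹) * g by group, hd, ht]
      simpa [mul_assoc] using hy))
  refine ⟨c ^ k * x, ⟨⟨_, x, hx, hx1, e2⟩, e4 _ e3, e3⟩, ?_⟩
  rintro d ⟨⟨v, a, ha, ha1, hd⟩, hd1, hd2⟩
  have d2 : d * d = 1 := by
    rw [hd, show v * a * v⁻¹ * (v * a * v⁻¹) = v * (a * a) * v⁻¹ by group, h2 a ha]; simp
  have d' : d⁻¹ = d := inv_eq_of_mul_eq_one_right d2
  have d3 : d * c * d⁻¹ = c⁻¹ := by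
    rw [hc, mul_inv_rev, hs', ht', show d * (x * t) * d⁻¹ = (d * x * d⁻¹) * (d * t * d⁻¹) by group,
      hd2, ← hd2, d']
    simp only [← mul_assoc, d2, one_mul]
    simp only [mul_assoc, d2, mul_one]
  have d4 : d * (c ^ k * x) * d⁻¹ = c ^ k * x := by
    rw [show d * (c ^ k * x) * d⁻¹ = (d * c ^ k * d⁻¹) * (d * x * d⁻¹) by group, ← conj_pow, d3,
      hd2, inv_pow, inv_mul_eq_iff_eq_mul, e5]
  set u := c ^ (k * (k + 1))
  set e := c ^ k * x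
  have n1 : u⁻¹ * d * u ∈ normalizer (A : Set Q) := hC x hx hx1 _ (by
    rw [mul_inv_eq_iff_eq_mul, e2] at d4
    rw [← mul_left_inj u⁻¹, ← mul_right_inj u]
    simpa [mul_assoc] using d4)
  have n2 : u⁻¹ * d * u ∈ A := by
    rw [show u⁻¹ * d * u = (u⁻¹ * v) * a * (u⁻¹ * v)⁻¹ by rw [hd]; group] at n1 ⊢
    exact hFA a ha ha1 _ n1
  have n3 : u * (x⁻¹ * (u⁻¹ * d * u)) * u⁻¹ = e⁻¹ * d := by rw [e2]; group
  by_contra hne
  have n4 := hF _ (mul_mem (inv_mem hx) n2) (fun h1 => hne (by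
    rw [h1] at n3; exact (inv_mul_eq_one.1 (by simpa using n3.symm)).symm)) u (by
      rw [n3]; simpa using mul_mem (inv_mem (e4 e e3)) hd1)
  have n5 : e ∈ A := e2 ▸ conj_mem_of_norm n4 hx
  exact hg (inv_mem_iff.1 ((mul_mem_cancel_right (hAN n5)).1 (e4 e e3)))

end Dih

/-- the hypotheses of the core theorem -/
structure BH {G : Type*} [Group G] (M R Z : Subgroup G) (ε : G) : Prop where
  RM : R ≤ M
  ZR : Z ≤ R
  Zc : ∀ z ∈ Z, ∀ g ∈ M, g * z = z * g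
  εZ : ε ∈ Z
  ε2 : ε * ε = 1
  Z2 : ∀ c ∈ Z, c * c = 1 → c = 1 ∨ c = ε
  sq : ∀ r ∈ R, r * r = 1 ∨ r * r = ε
  C : ∀ x ∈ R, x ∉ Z → ∀ u ∈ M, u * x * u⁻¹ * x⁻¹ ∈ Z → u ∈ normalizer (R : Set G)
  Tw : ∀ g ∈ M, ∀ x ∈ R, x ∉ Z → g * x * g⁻¹ ∈ normalizer (R : Set G) →
    ∃ r ∈ R, r * (g * x * g⁻¹) = ε * (g * x * g⁻¹ * r)
  Tr : ∀ g ∈ M, ∀ x ∈ R, x ∉ Z → g * x * g⁻¹ ∈ R →
    ∃ h ∈ M, h ∈ normalizer (R : Set G) ∧ h * x * h⁻¹ * (g * x * g⁻¹)⁻¹ ∈ Z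
  E : ∀ z ∈ M, z ∈ normalizer (R : Set G) → (z * z = 1 ∨ z * z = ε) →
    ∃ a ∈ R, ∃ a' ∈ R, a ∉ Z ∧ a * z = z * a ∧ a' * z = z * a' ∧ ∃ h ∈ M, h * z = z * h ∧
      ∀ z' ∈ M, a * z' = ε * (z' * a) → (a' * z' = z' * a' ∨ a' * z' = ε * (z' * a')) →
        h * z' * h⁻¹ * z'⁻¹ ∈ R ∧ h * z' * h⁻¹ * z'⁻¹ ∉ Z

namespace BH

variable {G : Type*} [Group G] [Finite G] {M R Z : Subgroup G} {ε : G} (h : BH M R Z ε)
include h

theorem TI {g x : G} (hg : g ∈ M) (hx : x ∈ R) (hx' : x ∉ Z) (e : g * x * g⁻¹ ∈ R) :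
    g ∈ normalizer (R : Set G) := by
  obtain ⟨k, k1, k2, k3⟩ := h.Tr g hg x hx hx' e
  have := h.C x hx hx' (g⁻¹ * k) (mul_mem (inv_mem hg) k1) (by
    convert k3 using 1
    rw [← mul_right_inj g, h.Zc _ k3 g hg]; group)
  exact inv_mem_iff.1 ((mul_mem_cancel_right k2).1 this)

theorem F {g x : G} (hg : g ∈ M) (hx : x ∈ R) (hx' : x ∉ Z)
    (e : g * x * g⁻¹ ∈ normalizer (R : Set G)) : g ∈ normalizer (R : Set G) := by
  by_contra hne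
  have hxM := h.RM hx
  have hεM := h.RM (h.ZR h.εZ)
  obtain ⟨a, a1, a', a2, a3, a4, a5, k, k1, k2, k3⟩ := h.E _ (mul_mem (mul_mem hg hxM) (inv_mem hg)) e
    ((h.sq x hx).imp (fun c => by
      rw [show g * x * g⁻¹ * (g * x * g⁻¹) = g * (x * x) * g⁻¹ by group, c]; simp) fun c => by
      rw [show g * x * g⁻¹ * (g * x * g⁻¹) = g * (x * x) * g⁻¹ by group, c, h.Zc _ h.εZ g hg]; simp)
  have c : ∀ u ∈ M, u * (g * x * g⁻¹) = g * x * g⁻¹ * u → g⁻¹ * u * g⁻¹⁻¹ ∈ normalizer (R : Set G) :=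
    fun u hu e => h.C x hx hx' _ (mul_mem (mul_mem (inv_mem hg) hu) (inv_mem (inv_mem hg))) (by
      rw [show g⁻¹ * u * g⁻¹⁻¹ * x * (g⁻¹ * u * g⁻¹⁻¹)⁻¹ * x⁻¹ =
        g⁻¹ * (u * (g * x * g⁻¹)) * u⁻¹ * g * x⁻¹ by group, e]
      simpa [mul_assoc] using one_mem Z)
  obtain ⟨r, r1, r2⟩ := h.Tw g⁻¹ (inv_mem hg) a a1 a3 (c a (h.RM a1) a4)
  set z := g * r * g⁻¹ with hz
  have zM : z ∈ M := mul_mem (mul_mem hg (h.RM r1)) (inv_mem hg)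
  have r3 : z * a = ε * (a * z) := by
    rw [← mul_right_inj g⁻¹, ← mul_left_inj g, ← mul_assoc g⁻¹ ε, h.Zc _ h.εZ _ (inv_mem hg)]
    simpa [hz, mul_assoc] using r2
  have zN : z ∈ normalizer (R : Set G) := h.C a a1 a3 z zM (by rw [r3]; simpa [mul_assoc] using h.εZ)
  have key : ∀ u ∈ M, u * (g * x * g⁻¹) = g * x * g⁻¹ * u → u * z * u⁻¹ * z⁻¹ ∈ R →
      u * z * u⁻¹ * z⁻¹ ∈ Z := fun u hu e1 e2 => by
    by_contra e3
    refine hne (inv_mem_iff.1 (h.TI (inv_mem hg) e2 e3 ?_))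
    convert mul_mem (conj_mem_of_norm (c u hu e1) r1) (inv_mem r1) using 1
    rw [hz]; group
  have b1 := key a' (h.RM a2) a5 (by
    convert mul_mem a2 (conj_mem_of_norm zN (inv_mem a2)) using 1; group)
  set b := a' * z * a'⁻¹ * z⁻¹ with hb
  have b2 : a' * z = b * (z * a') := by rw [hb]; group
  have b3 : b * b = 1 := by
    have : a' * a' * z = z * (a' * a') := by
      rcases h.sq a' a2 with c | c <;> rw [c]
      · simp
      · exact (h.Zc _ h.εZ _ zM).symm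
    rw [mul_assoc, b2, ← mul_assoc, h.Zc _ b1 _ (h.RM a2), mul_assoc, ← mul_assoc a', b2] at this
    have e : b * b * (z * (a' * a')) = 1 * (z * (a' * a')) := by
      simpa only [mul_assoc, one_mul] using this
    exact mul_right_cancel e
  obtain ⟨k4, k5⟩ := k3 z zM (by rw [r3, ← mul_assoc ε, h.ε2, one_mul]) ((h.Z2 b b1 b3).imp
    (fun c => by rw [b2, c, one_mul]) fun c => by rw [b2, c])
  exact k5 (key k k1 k2 k4)

theorem sharp {g : G} (hg : g ∈ M) (hg' : g ∉ normalizer (R : Set G)) :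
    ∃ (T : Set (M ⧸ Z.subgroupOf M)) (δ : T → G), (∀ t, δ t ∈ normalizer (R : Set G)) ∧
      ∀ x ∈ R, x ∉ Z → ∀ y ∈ R, y ∉ Z → ∃! t, δ t * x * (δ t)⁻¹ * y⁻¹ ∈ Z := by
  haveI : (Z.subgroupOf M).Normal := ⟨fun z hz u => by
    rw [mem_subgroupOf] at hz ⊢
    simpa [h.Zc _ hz _ u.2] using hz⟩
  let φ := QuotientGroup.mk' (Z.subgroupOf M)
  have φ1 : ∀ u : M, φ u = 1 ↔ u.1 ∈ Z := fun u => QuotientGroup.eq_one_iff u
  have φ2 : ∀ u v : M, φ u = φ v ↔ u.1 * v.1⁻¹ ∈ Z := fun u v => by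
    rw [← mul_inv_eq_one, ← map_inv, ← map_mul, φ1]; rfl
  have φs : Function.Surjective φ := QuotientGroup.mk'_surjective _
  let A := (R.subgroupOf M).map φ
  have A1 : ∀ u : M, φ u ∈ A ↔ u.1 ∈ R := fun u => ⟨fun ⟨v, hv, e⟩ =>
    inv_mem_iff.1 ((mul_mem_cancel_left (show v.1 ∈ R from hv)).1 (h.ZR ((φ2 _ _).1 e))),
    fun c => ⟨u, c, rfl⟩⟩
  have A2 : ∀ u : M, φ u ∈ normalizer (A : Set _) ↔ u.1 ∈ normalizer (R : Set G) := fun u => by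
    constructor
    · intro c
      refine mem_normalizer_fintype fun r hr => (A1 (u * ⟨r, h.RM hr⟩ * u⁻¹)).1 ?_
      simpa using conj_mem_of_norm c ((A1 ⟨r, h.RM hr⟩).2 hr)
    · intro c
      refine mem_normalizer_fintype fun r hr => ?_
      obtain ⟨r, rfl⟩ := φs r
      simpa using (A1 (u * r * u⁻¹)).2 (conj_mem_of_norm c ((A1 r).1 hr))
  let g' : M := ⟨g, hg⟩
  have main := fun {x y} => C6.sharp (A := A) (g := φ g') (x := x) (y := y) (fun a ha => by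
      obtain ⟨a, rfl⟩ := φs a
      rw [← map_mul, φ1]
      rcases h.sq a.1 ((A1 a).1 ha) with c | c <;> simp [c, h.εZ])
    (fun a ha h1 u e => by
      obtain ⟨a, rfl⟩ := φs a
      obtain ⟨u, rfl⟩ := φs u
      rw [← map_mul, ← map_mul, φ2] at e
      exact (A2 u).2 (h.C _ ((A1 a).1 ha) (mt (φ1 a).2 h1) _ u.2 (by simpa [mul_assoc] using e)))
    (fun a ha h1 u e => by
      obtain ⟨a, rfl⟩ := φs a
      obtain ⟨u, rfl⟩ := φs u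
      rw [← map_inv, ← map_mul, ← map_mul, A2] at e
      exact (A2 u).2 (h.F u.2 ((A1 a).1 ha) (mt (φ1 a).2 h1) e)) (mt (A2 g').1 hg')
  choose s hs using φs
  refine ⟨{d | (∃ u, ∃ a ∈ A, a ≠ 1 ∧ d = u * a * u⁻¹) ∧ (φ g')⁻¹ * d ∈ normalizer (A : Set _)},
    fun t => (g'⁻¹ * s t.1 : M), fun t => (A2 _).1 (by simpa [hs] using t.2.2),
    fun x hx hx' y hy hy' => ?_⟩
  have e : ∀ d, d * φ ⟨x, h.RM hx⟩ * d⁻¹ = φ g' * φ ⟨y, h.RM hy⟩ * (φ g')⁻¹ ↔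
      (g'⁻¹ * s d : M).1 * x * ((g'⁻¹ * s d : M).1)⁻¹ * y⁻¹ ∈ Z := fun d => by
    refine Iff.trans ?_ (φ2 (g'⁻¹ * s d * ⟨x, h.RM hx⟩ * (g'⁻¹ * s d)⁻¹) ⟨y, h.RM hy⟩)
    simp only [map_mul, map_inv, hs]
    constructor <;> intro c
    · rw [← mul_right_inj (φ g'), ← mul_left_inj (φ g')⁻¹, ← c]; group
    · rw [← c]; group
  obtain ⟨d, ⟨d1, d2, d3⟩, d4⟩ := main ((A1 ⟨x, h.RM hx⟩).2 hx) (mt (φ1 _).1 hx')
    ((A1 ⟨y, h.RM hy⟩).2 hy) (mt (φ1 _).1 hy')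
  exact ⟨⟨d, d1, d2⟩, (e d).1 d3, fun t ht => Subtype.ext (d4 _ ⟨t.2.1, t.2.2, (e _).2 ht⟩)⟩

end BH

end Cfsg.Agent.C6
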