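import Cfsg.Agent.C6.Defs
import Cfsg.Agent.H6.Y2

/-! Restriction of a `2`-group of symplectic type to an eigenspace of an involution. -/

set_option autoImplicit false
set_option linter.unusedSimpArgs false
set_option linter.unusedSectionVars false
set_option linter.unusedVariables false

namespace Cfsg.Agent.C6

open Module Subgroup Cfsg.Agent.H6

attribute [-simp] LinearEquiv.coe_inv

section

variable {F V : Type*} [Field F] [AddCommGroup V] [Module F V] {R M : Subgroup (V ≃ₗ[F] V)}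
  {x y a b r s g : V ≃ₗ[F] V}

theorem ng_sq : ng F V * ng F V = 1 := by ext; simp

theorem ng_cm6 (g : V ≃ₗ[F] V) : g * ng F V = ng F V * g := by ext; simp

theorem half (h2 : (2 : F) ≠ 0) {u v : V} (h : u + u = v + v) : u = v :=
  smul_right_injective V h2 (by simpa only [two_smul])

theorem sc_one : Sc (1 : V ≃ₗ[F] V) := ⟨1, by simp⟩

theorem sc_neg : Sc (ng F V) := ⟨-1, by simp⟩

theorem Sc.mul (h : Sc a) (h' : Sc b) : Sc (a * b) :=
  let ⟨c, hc⟩ := h; let ⟨d, hd⟩ := h'; ⟨c * d, fun v => by simp [hc, hd, smul_smul]⟩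

theorem Sc.cm6 (h : Sc a) (g : V ≃ₗ[F] V) : g * a = a * g :=
  let ⟨c, hc⟩ := h; by ext; simp [hc]

theorem Sc.inv (h : Sc a) : Sc a⁻¹ := by
  obtain ⟨c, hc⟩ := h
  by_cases h0 : c = 0
  · exact ⟨0, fun v => a.injective (by simp [← a.map_eq_zero_iff, hc, h0])⟩
  · exact ⟨c⁻¹, fun v => a.injective (by rw [apply_inv_apply, hc, smul_inv_smul₀ h0])⟩

theorem Sc.of_mul (h : Sc (a * b)) (h' : Sc a) : Sc b := by simpa using h'.inv.mul h

theorem ES.sq' (h : ES R) (hr : r ∈ R) : (∀ v, r (r v) = v) ∨ ∀ v, r (r v) = -v :=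
  (h.sq r hr).imp (fun e v => LinearEquiv.congr_fun e v) fun e v => LinearEquiv.congr_fun e v

theorem ES.anti (h : ES R) (hr : r ∈ R) (hs : s ∈ R) :
    (∀ v, r (s v) = s (r v)) ∨ ∀ v, r (s v) = -s (r v) := by
  rcases h.sq' (mul_mem hr hs) with c | c <;> have k := fun v => congrArg r (c (s v)) <;>
    rcases h.sq' hr with a | a <;> rcases h.sq' hs with b | b <;>
    simp only [LinearEquiv.mul_apply, a, b, map_neg, neg_neg, neg_inj, neg_eq_iff_eq_neg] at k <;>
    simp [k]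

theorem ES.exists_anti (h : ES R) (hx : x ∈ R) (h1 : ¬Sc x) : ∃ y ∈ R, ∀ v, x (y v) = -y (x v) := by
  by_contra! k
  exact h1 (h.cent x fun r hr => (h.anti hx hr).resolve_right (by simpa using k r hr))

theorem mem_normalizer_of_le {G : Type*} [Group G] {R : Subgroup G} {g : G}
    (h1 : R ≤ R.comap (MulAut.conj g).toMonoidHom) (h2 : R ≤ R.comap (MulAut.conj g⁻¹).toMonoidHom) :
    g ∈ normalizer (R : Set G) :=
  mem_normalizer_iff.2 fun r => ⟨fun e => h1 e, fun e => by simpa [mul_assoc] using h2 e⟩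

/-- two anticommuting involutions -/
structure Pr (x y : V ≃ₗ[F] V) : Prop where
  two : (2 : F) ≠ 0
  xx : ∀ v, x (x v) = v
  yy : ∀ v, y (y v) = v
  xy : ∀ v, x (y v) = -y (x v)

theorem ES.exists_pr (h : ES R) (hx : x ∈ R) (h1 : x * x = 1) (h2 : ¬Sc x) : ∃ y ∈ R, Pr x y := by
  obtain ⟨y, hy, e⟩ := h.exists_anti hx h2
  have h3 : ∀ v, x (x v) = v := fun v => LinearEquiv.congr_fun h1 v
  rcases h.sq' hy with a | a
  · exact ⟨y, hy, h.two, h3, a, e⟩
  · exact ⟨x * y, mul_mem hx hy, h.two, h3, by simp [e, h3, a], by simp [e]⟩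

@[simp] theorem Vp_apply (u : Vp x) : x u = u := u.2

namespace Pr

variable (h : Pr x y)
include h

/-- `V = V₊ ⊕ y V₊` -/
noncomputable def e : (Vp x × Vp x) ≃ₗ[F] V where
  toFun p := p.1 + y p.2
  invFun v := (⟨(2 : F)⁻¹ • (v + x v), by simp [h.xx, add_comm]⟩,
    ⟨(2 : F)⁻¹ • (y v + x (y v)), by simp [h.xx, add_comm]⟩)
  map_add' p q := by simp; abel
  map_smul' c p := by simp
  left_inv p := by
    ext <;> refine smul_right_injective V h.two ?_ <;>
      simp only [smul_inv_smul₀ h.two, map_add, h.xy, h.yy, Vp_apply, two_smul] <;> abel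
  right_inv v := smul_right_injective V h.two (by
    simp only [smul_add, map_smul, smul_inv_smul₀ h.two, map_add, h.xy, map_neg, h.yy, two_smul F v]
    abel)

theorem ind (v : V) : ∃ u u' : Vp x, v = u + y u' :=
  ⟨_, _, (h.e.apply_symm_apply v).symm⟩

theorem ext {f g : V ≃ₗ[F] V} (h1 : ∀ u : Vp x, f u = g u) (h2 : ∀ u : Vp x, f (y u) = g (y u)) :
    f = g := LinearEquiv.ext fun v => by
  obtain ⟨u, u', rfl⟩ := h.ind v
  rw [map_add, map_add, h1, h2]

theorem dim [FiniteDimensional F V] : finrank F V = 2 * finrank F (Vp x) := by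
  rw [← h.e.finrank_eq, finrank_prod, two_mul]

theorem neg : Pr (ng F V * x) y := ⟨h.two, by simp [h.xx], h.yy, by simp [h.xy]⟩

theorem symm : Pr y x := ⟨h.two, h.yy, h.xx, by simp [h.xy]⟩

/-- block diagonal maps -/
noncomputable def bd (k k' : Vp x ≃ₗ[F] Vp x) : V ≃ₗ[F] V :=
  (h.e.symm.trans (k.prodCongr k')).trans h.e

variable (k k' l l' : Vp x ≃ₗ[F] Vp x)

theorem bd_add (u u' : Vp x) : h.bd k k' (u + y u') = k u + y (k' u') :=
  congrArg (fun p => h.e (k.prodCongr k' p)) (h.e.symm_apply_apply (u, u'))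

@[simp] theorem bd_left (u : Vp x) : h.bd k k' u = k u := by simpa using h.bd_add k k' u 0

@[simp] theorem bd_right (u : Vp x) : h.bd k k' (y u) = y (k' u) := by
  simpa using h.bd_add k k' 0 u

theorem bd_mul : h.bd k k' * h.bd l l' = h.bd (k * l) (k' * l') := h.ext (by simp) (by simp)

theorem bd_one : h.bd 1 1 = 1 := h.ext (by simp) (by simp)

theorem bd_inv : (h.bd k k')⁻¹ = h.bd k⁻¹ k'⁻¹ :=
  inv_eq_of_mul_eq_one_right (by simp [bd_mul, bd_one])

theorem bd_x : h.bd 1 (ng F _) = x := h.ext (by simp) (by simp [h.xy])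

theorem bd_ng : h.bd (ng F _) (ng F _) = ng F V := h.ext (by simp) (by simp)

theorem bd_comm : h.bd k k' * x = x * h.bd k k' := h.ext (by simp) (by simp [h.xy])

theorem bd_y : h.bd k k' * y = y * h.bd k' k := h.ext (by simp) (by simp [h.yy])

theorem det_bd [FiniteDimensional F V] : LinearMap.det (h.bd k k' : End F V) =
    LinearMap.det (k : End F (Vp x)) * LinearMap.det (k' : End F (Vp x)) := by
  rw [← LinearMap.det_prodMap, ← LinearMap.det_conj _ h.e]; rfl

theorem exists_bd (hg : g * x = x * g) : ∃ k k', g = h.bd k k' := by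
  have e : ∀ v, g (x v) = x (g v) := fun v => LinearEquiv.congr_fun hg v
  refine ⟨res x ⟨g, mem_centralizer_singleton_iff.2 hg⟩, res x ⟨y * g * y,
    mem_centralizer_singleton_iff.2 (LinearEquiv.ext fun v => ?_)⟩, h.ext (by simp) (by simp [h.yy])⟩
  simp [h.symm.xy, e]

theorem bd_mem_resG (hk : h.bd k k' ∈ M) : k ∈ resG x M :=
  mem_resG.2 ⟨_, hk, h.bd_comm k k', by simp⟩

variable {k} in
theorem exists_of_resG (hk : k ∈ resG x M) : ∃ k', h.bd k k' ∈ M := by
  obtain ⟨g, hg, h1, h2⟩ := mem_resG.1 hk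
  obtain ⟨l, l', rfl⟩ := h.exists_bd h1
  exact ⟨l', (LinearEquiv.ext fun v => Subtype.ext (by simp [h2]) : k = l) ▸ hg⟩

variable {k k' l l'}

theorem x_bd : x * h.bd k k' = h.bd k (ng F _ * k') := by
  conv_lhs => enter [1]; rw [← h.bd_x]
  rw [bd_mul, one_mul]

theorem bd_cases (hR : ES R) (hy : y ∈ R) (hk : h.bd k k' ∈ R) : k' = k ∨ k' = ng F _ * k :=
  (hR.anti hk hy).imp (fun e => LinearEquiv.ext fun v => Subtype.ext (y.injective (by simpa using e v)))
    fun e => LinearEquiv.ext fun v => Subtype.ext (y.injective (by simpa using e v))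

theorem mem_resG_iff (hR : ES R) (hx : x ∈ R) (hy : y ∈ R) : k ∈ resG x R ↔ h.bd k k ∈ R := by
  refine ⟨fun e => ?_, h.bd_mem_resG k k⟩
  obtain ⟨k', e⟩ := h.exists_of_resG e
  rcases h.bd_cases hR hy e with rfl | rfl
  · exact e
  · simpa [h.x_bd, ← mul_assoc, ng_sq] using mul_mem hx e

theorem R_le (hR : ES R) (hx : x ∈ R) (hy : y ∈ R) {K : Subgroup (V ≃ₗ[F] V)} (h1 : x ∈ K)
    (h2 : y ∈ K) (h3 : ∀ k ∈ resG x R, h.bd k k ∈ K) : R ≤ K := by
  have : ∀ r ∈ R, r * x = x * r → r ∈ K := fun r hr e => by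
    obtain ⟨k, k', rfl⟩ := h.exists_bd e
    have := h3 k (h.bd_mem_resG _ _ hr)
    rcases h.bd_cases hR hy hr with rfl | rfl
    · exact this
    · exact h.x_bd ▸ mul_mem h1 this
  intro r hr
  rcases hR.anti hr hx with e | e
  · exact this r hr (LinearEquiv.ext e)
  · exact (K.mul_mem_cancel_left h2).1 (this _ (mul_mem hy hr) (by ext; simp [e, h.xy]))

theorem es (hR : ES R) (hx : x ∈ R) (hy : y ∈ R) : ES (resG x R) := by
  refine ⟨h.two, h.bd_mem_resG _ _ (h.bd_ng ▸ hR.ng_mem), fun k hk => ?_, fun X hX => ?_⟩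
  · exact (hR.sq' ((h.mem_resG_iff hR hx hy).1 hk)).imp
      (fun e => LinearEquiv.ext fun v => Subtype.ext (by simpa using e v))
      fun e => LinearEquiv.ext fun v => Subtype.ext (by simpa using e v)
  let Y : End F V := h.e.conj (X.prodMap X)
  have e : ∀ u u' : Vp x, Y (u + y u') = X u + y (X u') := fun u u' =>
    congrArg (fun p => h.e (X.prodMap X p)) (h.e.symm_apply_apply (u, u'))
  let K : Subgroup (V ≃ₗ[F] V) :=
    { carrier := {r | ∀ v, Y (r v) = r (Y v)}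
      one_mem' := fun _ => rfl
      mul_mem' := fun {a b} ha hb v => (ha _).trans (congrArg a (hb v))
      inv_mem' := fun {a} ha v => a.injective (by simp [← ha _]) }
  refine (hR.cent Y (h.R_le hR hx hy (K := K) (fun v => ?_) (fun v => ?_) fun k hk v => ?_)).imp
    fun c hc v => Subtype.ext (by simpa [hc] using (e v 0).symm)
  all_goals obtain ⟨u, u', rfl⟩ := h.ind v
  · simpa [e, h.xy] using e u (-u')
  · simp [e, h.yy, add_comm]
  · simp only [h.bd_add, e, hX k hk]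

/-- the tilde trick -/
theorem bd_norm (hR : ES R) (hx : x ∈ R) (hy : y ∈ R)
    (hk : k ∈ normalizer (resG x R : Set (Vp x ≃ₗ[F] Vp x))) :
    h.bd k k ∈ normalizer (R : Set (V ≃ₗ[F] V)) := by
  have : ∀ k ∈ normalizer (resG x R : Set (Vp x ≃ₗ[F] Vp x)),
      R ≤ R.comap (MulAut.conj (h.bd k k)).toMonoidHom := fun k hk =>
    h.R_le hR hx hy (by simpa [h.bd_comm]) (by simpa [h.bd_y]) fun j hj => by
      simpa [h.bd_inv, h.bd_mul, ← h.mem_resG_iff hR hx hy] using (mem_normalizer_iff.1 hk j).1 hj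
  exact mem_normalizer_of_le (this k hk) (h.bd_inv k k ▸ this _ (inv_mem hk))

theorem bd_norm' (hR : ES R) (hx : x ∈ R) (hy : y ∈ R) (hk : k ∈ resG x R) :
    h.bd k 1 ∈ normalizer (R : Set (V ≃ₗ[F] V)) := by
  have h1 : ∀ j ∈ resG x R, h.bd (ng F _ * j) j ∈ R := fun j hj => by
    simpa [h.x_bd, ← mul_assoc, ng_sq] using
      mul_mem hx ((h.mem_resG_iff hR hx hy).1 (mul_mem (h.es hR hx hy).ng_mem hj))
  have : ∀ k ∈ resG x R, R ≤ R.comap (MulAut.conj (h.bd k 1)).toMonoidHom := fun k hk =>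
    h.R_le hR hx hy (by simpa [h.bd_comm]) ?_ fun j hj => ?_
  · exact mem_normalizer_of_le (this k hk) (by simpa [h.bd_inv] using this _ (inv_mem hk))
  · simp only [mem_comap, MulEquiv.coe_toMonoidHom, MulAut.conj_apply, h.bd_y, h.bd_inv, mul_assoc,
      h.bd_mul, R.mul_mem_cancel_left hy, one_mul, inv_one, mul_one]
    rcases (h.es hR hx hy).sq k hk with e | e
    · rwa [inv_eq_of_mul_eq_one_right e, ← h.mem_resG_iff hR hx hy]
    · rw [show k⁻¹ = ng F _ * k by rw [← e, inv_eq_iff_mul_eq_one, ← mul_assoc, ← mul_assoc, e,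
        mul_assoc, e, ng_sq]]
      exact h1 k hk
  · simp only [mem_comap, MulEquiv.coe_toMonoidHom, MulAut.conj_apply, h.bd_inv, h.bd_mul, one_mul,
      inv_one, mul_one]
    rcases (h.es hR hx hy).anti hk hj with e | e
    · rwa [show k * j = j * k from LinearEquiv.ext e, mul_inv_cancel_right, ← h.mem_resG_iff hR hx hy]
    · rw [show k * j = ng F _ * j * k from LinearEquiv.ext e, mul_inv_cancel_right]
      exact h1 j hj

theorem sc_bd (hk : Sc k) : Sc (h.bd k k) :=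
  let ⟨c, hc⟩ := hk; ⟨c, fun v => by obtain ⟨u, u', rfl⟩ := h.ind v; simp [h.bd_add, hc]⟩

theorem sc_of_bd (hk : Sc (h.bd k k')) : Sc k :=
  let ⟨c, hc⟩ := hk; ⟨c, fun v => Subtype.ext (by simpa using hc v)⟩

/-- the elements acting trivially on the `-1`-eigenspace -/
def Kg (M : Subgroup (V ≃ₗ[F] V)) : Subgroup (Vp x ≃ₗ[F] Vp x) where
  carrier := {k | h.bd k 1 ∈ M}
  one_mem' := (h.bd_one ▸ one_mem M : h.bd 1 1 ∈ M)
  mul_mem' := fun ha hb => by simpa [h.bd_mul] using M.mul_mem ha hb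
  inv_mem' := fun ha => by simpa [h.bd_inv] using M.inv_mem ha

theorem mem_Kg : k ∈ h.Kg M ↔ h.bd k 1 ∈ M := Iff.rfl

theorem Kg_le : h.Kg M ≤ resG x M := fun _ e => h.bd_mem_resG _ _ e

theorem Kg_conj (hl : l ∈ resG x M) (hk : k ∈ h.Kg M) : l * k * l⁻¹ ∈ h.Kg M := by
  obtain ⟨l', e⟩ := h.exists_of_resG hl
  simpa [h.bd_inv, h.bd_mul, mem_Kg] using mul_mem (mul_mem e hk) (inv_mem e)

theorem bd_mem (hy : y ∈ M) (hk : k ∈ h.Kg M) (hk' : k' ∈ h.Kg M) : h.bd k k' ∈ M := by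
  have := M.mul_mem (M.mul_mem (inv_mem hy) hk') hy
  rw [mul_assoc, h.bd_y, inv_mul_cancel_left] at this
  simpa [h.bd_mul] using M.mul_mem hk this

end Pr

theorem hasN_of (h : ∀ x ∈ R, x * x = 1 → ¬Sc x →
    resG x M ≤ normalizer (resG x R : Set (Vp x ≃ₗ[F] Vp x))) : HasN R M := by
  intro x hx h1 h2 g hg h3 r hr h4
  have a := mem_centralizer_singleton_iff.2 h3
  obtain ⟨s, hs, c, d⟩ := mem_resG.1 ((mem_normalizer_iff.1 (h x hx h1 h2 ⟨⟨g, a⟩, hg, rfl⟩) _).1
    ⟨⟨r, mem_centralizer_singleton_iff.2 h4⟩, hr, rfl⟩)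
  exact ⟨s, hs, c, fun v hv => d ⟨v, hv⟩⟩

/-- biadditive forms -/
structure Bi (f : V → V → F) : Prop where
  left : ∀ a b c, f (a + b) c = f a c + f b c
  right : ∀ a b c, f a (b + c) = f a b + f a c

/-- isometries -/
def Ism (f : V → V → F) (g : V ≃ₗ[F] V) : Prop := ∀ u v, f (g u) (g v) = f u v

variable {f : V → V → F}

theorem Bi.neg_left (hf : Bi f) (a b : V) : f (-a) b = -f a b :=
  map_neg (AddMonoidHom.mk' (f · b) fun _ _ => hf.left _ _ _) a

theorem Bi.neg_right (hf : Bi f) (a b : V) : f a (-b) = -f a b :=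
  map_neg (AddMonoidHom.mk' (f a) (hf.right a)) b

theorem Bi.res (hf : Bi f) (W : Submodule F V) : Bi fun u v : W => f u v :=
  ⟨fun _ _ _ => hf.left _ _ _, fun _ _ _ => hf.right _ _ _⟩

theorem Pr.orth (h : Pr x y) (hf : Bi f) (hx : Ism f x) (u u' : Vp x) :
    f u (y u') = 0 ∧ f (y u') u = 0 := by
  have h1 := hx u (y u')
  have h2 := hx (y u') u
  simp only [h.xy, Vp_apply, hf.neg_left, hf.neg_right] at h1 h2
  constructor <;> apply mul_left_cancel₀ h.two
  · linear_combination -h1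
  · linear_combination -h2

theorem Pr.iso_bd (h : Pr x y) (hf : Bi f) (hx : Ism f x) (hy : Ism f y) {k k' : Vp x ≃ₗ[F] Vp x}
    (hk : Ism (fun u v : Vp x => f u v) k) (hk' : Ism (fun u v : Vp x => f u v) k') :
    Ism f (h.bd k k') := fun u v => by
  obtain ⟨a, b, rfl⟩ := h.ind u
  obtain ⟨c, d, rfl⟩ := h.ind v
  simp only [h.bd_add, hf.left, hf.right, h.orth hf hx, hy _ _, hk a c, hk' b d]

theorem Pr.iso_of_bd (h : Pr x y) (hy : Ism f y) {k k' : Vp x ≃ₗ[F] Vp x} (hk : Ism f (h.bd k k')) :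
    Ism (fun u v : Vp x => f u v) k ∧ Ism (fun u v : Vp x => f u v) k' :=
  ⟨fun u v => by simpa using hk u v, fun u v => by simpa [hy _ _] using hk (y u) (y v)⟩

theorem iso_resG (hM : ∀ g ∈ M, Ism f g) {k : Vp x ≃ₗ[F] Vp x} (hk : k ∈ resG x M) :
    Ism (fun u v : Vp x => f u v) k := fun u v => by
  obtain ⟨g, hg, -, e⟩ := mem_resG.1 hk
  simp only [e, hM g hg _ _]

theorem Pr.nd (h : Pr x y) (hf : Bi f) (hx : Ism f x) (h0 : ∀ z, (∀ w, f w z = 0) → z = 0) (z : Vp x)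
    (hz : ∀ w : Vp x, f w z = 0) : z = 0 := Subtype.ext (h0 _ fun w => by
  obtain ⟨a, b, rfl⟩ := h.ind w
  simp [hf.left, hz, h.orth hf hx])

theorem IsD.iso (h : IsD a b g) (h2 : (2 : F) ≠ 0) (hf : Bi f) (ha : Ism f a) (hb : Ism f b)
    (ha' : a * a = ng F V) (hb' : b * b = ng F V) : Ism f g := by
  have k : ∀ a, Ism f a → a * a = ng F V → ∀ u v, f (u + a u) (v + a v) = 2 * f u v :=
    fun a ha ha' u v => by
      have := ha (a u) v
      rw [show a (a u) = -u from LinearEquiv.congr_fun ha' u, hf.neg_left] at this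
      simp only [hf.left, hf.right, ha _ _]
      linear_combination -this
  intro u v
  have := k a ha ha' (u + b u) (v + b v)
  rw [k b hb hb', ← h, ← h] at this
  simp only [two_smul, hf.left, hf.right] at this
  apply mul_left_cancel₀ (mul_ne_zero h2 h2)
  linear_combination this

/-- `IsD a b g` conjugates like `(1 + a) (1 + b)` -/
theorem IsD.cnj6 (h : IsD a b g) (h2 : (2 : F) ≠ 0) (ha : a * a = ng F V)
    (h3 : ∀ v, a (x v) = -x (a v)) (h4 : ∀ v, b (x v) = x (b v)) (v : V) : g (x v) = a (x (g v)) := by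
  have h5 : ∀ v, a (a v) = -v := fun v => LinearEquiv.congr_fun ha v
  have h6 : ∀ v, x (a v) = -a (x v) := fun v => by rw [h3, neg_neg]
  apply smul_right_injective V h2
  simp only [← map_smul a, ← map_smul x, h _, map_add, h4, h6, map_neg, h5]
  abel


theorem hasZ_of_sq (hR : ES R) (h : ∀ g ∈ M, ∀ c : F, (∀ v, g v = c • v) → c * c = 1) : HasZ R M :=
  fun g hg c hc _ => by
    rcases mul_self_eq_one_iff.1 (h g hg c hc) with rfl | rfl
    · exact (LinearEquiv.ext (by simp [hc]) : 1 = g) ▸ one_mem R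
    · exact (LinearEquiv.ext (by simp [hc]) : ng F V = g) ▸ hR.ng_mem

variable {i : V ≃ₗ[F] V}

theorem sc_sq [Nontrivial V] (h1 : Sc i) (h2 : i * i = ng F V) :
    ∃ ι : F, (∀ v, i v = ι • v) ∧ ι * ι = -1 := h1.imp fun ι h => ⟨h, by
  obtain ⟨v, hv⟩ := exists_ne (0 : V)
  exact smul_left_injective F hv (by simpa [h, smul_smul] using LinearEquiv.congr_fun h2 v)⟩

theorem hasZ_of_i (hR : ES R) (hi : i ∈ R) (h1 : Sc i) (h2 : i * i = ng F V) : HasZ R M := by
  intro g hg c hc h4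
  rcases subsingleton_or_nontrivial V with _ | _
  · exact (LinearEquiv.ext fun _ => Subsingleton.elim _ _ : 1 = g) ▸ one_mem R
  obtain ⟨ι, h5, h6⟩ := sc_sq h1 h2
  have : (c - 1) * (c + 1) * (c - ι) * (c + ι) = 0 := by linear_combination h4 - (c ^ 2 - 1) * h6
  simp only [mul_eq_zero, sub_eq_zero, add_eq_zero_iff_eq_neg] at this
  rcases this with ((rfl | rfl) | rfl) | rfl
  · exact (LinearEquiv.ext (by simp [hc]) : 1 = g) ▸ one_mem R
  · exact (LinearEquiv.ext (by simp [hc]) : ng F V = g) ▸ hR.ng_mem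
  · exact (LinearEquiv.ext (by simp [hc, h5]) : i = g) ▸ hi
  · exact (LinearEquiv.ext (by simp [hc, h5]) : ng F V * i = g) ▸ mul_mem hR.ng_mem hi

variable [FiniteDimensional F V]

theorem det_of_smul {c : F} {g : End F V} (h : ∀ v, g v = c • v) :
    LinearMap.det g = c ^ finrank F V := by
  rw [show g = c • 1 from LinearMap.ext h, LinearMap.det_smul, map_one, mul_one]

theorem Pr.det_add (h : Pr x y) {c d : F} {g : End F V} (h1 : ∀ v, g v = c • v + d • x v) :
    LinearMap.det g = ((c + d) * (c - d)) ^ finrank F (Vp x) := by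
  rw [mul_pow, ← det_of_smul (g := (c + d) • 1) fun _ => rfl,
    ← det_of_smul (g := (c - d) • 1) fun _ => rfl, ← LinearMap.det_prodMap, ← LinearMap.det_conj _ h.e]
  congr 1
  ext v
  obtain ⟨p, rfl⟩ := h.e.surjective v
  simp only [LinearMap.comp_apply, LinearEquiv.coe_coe, h.e.symm_apply_apply, h1]
  simp [Pr.e, h.xy, add_smul, sub_smul]
  abel

/-- determinant of `c + d r` -/
theorem ES.det_add (hR : ES R) (hx : x ∈ R) (h1 : x * x = 1) {m : ℕ} (hn : finrank F V = 2 * m)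
    {c d : F} {g : End F V} (h : ∀ v, g v = c • v + d • x v) : LinearMap.det g = (c + d) ^ (2 * m) ∨
      LinearMap.det g = (c - d) ^ (2 * m) ∨ LinearMap.det g = ((c + d) * (c - d)) ^ m := by
  by_cases h2 : Sc x
  · obtain ⟨e, he⟩ := h2
    rcases subsingleton_or_nontrivial V with _ | _
    · rw [finrank_zero_of_subsingleton] at hn
      simp [← hn, LinearMap.det_eq_one_of_subsingleton]
    obtain ⟨v, hv⟩ := exists_ne (0 : V)
    rw [det_of_smul (c := c + d * e) (by simp [h, he, add_smul, smul_smul]), hn]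
    rcases mul_self_eq_one_iff.1 (smul_left_injective F hv (by
      simpa [he, smul_smul] using LinearEquiv.congr_fun h1 v) : e * e = 1) with rfl | rfl <;>
      simp [sub_eq_add_neg]
  obtain ⟨y, -, hy⟩ := hR.exists_pr hx h1 h2
  rw [hy.det_add h, show finrank F (Vp x) = m by have := hy.dim; omega]
  simp

theorem ES.le_SLV (hR : ES R) (hi : i ∈ R) (h1 : Sc i) (h2 : i * i = ng F V) (hn : 4 ∣ finrank F V) :
    R ≤ SLV F V := by
  obtain ⟨m, hm⟩ := hn
  have k : ∀ x ∈ R, x * x = 1 → x ∈ SLV F V := fun x hx e => mem_SLV'.2 (by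
    rcases hR.det_add hx e (m := 2 * m) (by omega) (c := 0) (d := 1) (g := x) (by simp) with
      a | a | a <;> simp [a])
  intro r hr
  rcases hR.sq r hr with e | e
  · exact k r hr e
  rcases subsingleton_or_nontrivial V with _ | _
  · exact mem_SLV'.2 (LinearMap.det_eq_one_of_subsingleton _)
  obtain ⟨ι, h5, h6⟩ := sc_sq h1 h2
  refine ((SLV F V).mul_mem_cancel_left ((mem_SLV' (g := i)).2 ?_)).1 (k _ (mul_mem hi hr) ?_)
  · rw [det_of_smul h5, hm, pow_mul, show ι ^ 4 = 1 by linear_combination (ι ^ 2 - 1) * h6, one_pow]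
  · rw [mul_assoc, ← mul_assoc r, h1.cm6 r, mul_assoc, e, ← mul_assoc, h2, ng_sq]

theorem IsD.det_one (h : IsD a b g) (hR : ES R) (hi : i ∈ R) (h1 : Sc i) (h2 : i * i = ng F V)
    (hn : 8 ∣ finrank F V) (ha : a ∈ R) (hb : b ∈ R) (ha' : a * a = ng F V) (hb' : b * b = ng F V) :
    g ∈ SLV F V := by
  obtain ⟨m, hm⟩ := hn
  rcases subsingleton_or_nontrivial V with _ | _
  · exact mem_SLV'.2 (LinearMap.det_eq_one_of_subsingleton _)
  obtain ⟨ι, h5, h6⟩ := sc_sq h1 h2
  have k : ∀ a ∈ R, a * a = ng F V → LinearMap.det (1 + a : End F V) = 2 ^ (4 * m) := fun a ha e => by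
    rcases hR.det_add (mul_mem hi ha) (by rw [mul_assoc, ← mul_assoc a, h1.cm6 a, mul_assoc, e,
      ← mul_assoc, h2, ng_sq]) (m := 4 * m) (by omega) (c := 1) (d := -ι) (g := 1 + a)
      (by simp [h5, smul_smul, h6]) with a | a | a <;> rw [a]
    · rw [pow_mul, pow_mul, pow_mul]; congr 1
      linear_combination (ι ^ 6 - 8 * ι ^ 5 + 27 * ι ^ 4 - 48 * ι ^ 3 + 43 * ι ^ 2 - 8 * ι - 15) * h6
    · rw [pow_mul, pow_mul, pow_mul]; congr 1
      linear_combination (ι ^ 6 + 8 * ι ^ 5 + 27 * ι ^ 4 + 48 * ι ^ 3 + 43 * ι ^ 2 + 8 * ι - 15) * h6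
    · congr 1; linear_combination -h6
  have := congrArg LinearMap.det (LinearMap.ext h : (2 : F) • (g : End F V) = (1 + a) * (1 + b))
  rw [map_mul, k a ha ha', k b hb hb', LinearMap.det_smul, ← pow_add, hm] at this
  exact mem_SLV'.2 (mul_left_cancel₀ (pow_ne_zero (8 * m) hR.two) (by rw [this]; ring))

/-- an element of the normaliser fixing a hyperplane is scalar -/
theorem ES.sc_of_fix (hR : ES R) (hn : 5 ≤ finrank F V) (hg : g ∈ normalizer (R : Set (V ≃ₗ[F] V)))
    (φ : Dual F V) (h : ∀ v, φ v = 0 → g v = v) : Sc g := by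
  refine hR.cent g fun r hr => ?_
  have h1 := mul_mem ((mem_normalizer_iff.1 hg r).1 hr) (inv_mem hr)
  have h2 : LinearMap.ker φ ⊓ LinearMap.ker (φ ∘ₗ (r⁻¹ : V ≃ₗ[F] V)) ≤ Vp (g * r * g⁻¹ * r⁻¹) := by
    rintro v ⟨a, b⟩
    have : g⁻¹ (r⁻¹ v) = r⁻¹ v := g.injective (by simpa using (h _ b).symm)
    simp [this, h v a]
  have h3 := (finrank_ker₂_ge _ _).trans (Nat.add_le_add_right (Submodule.finrank_mono h2) 2)
  obtain ⟨w, a, b⟩ := exists_ne_zero_of_finrank (K := Vp (g * r * g⁻¹ * r⁻¹)) (by omega)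
  have h4 : g * r * g⁻¹ * r⁻¹ = 1 := by
    generalize g * r * g⁻¹ * r⁻¹ = s at *
    rw [mem_Vp] at a
    by_cases c : Sc s
    · obtain ⟨c, hc⟩ := c
      ext v
      simp [hc, (smul_left_injective F b (by simpa [hc] using a) : c = 1)]
    rcases hR.sq s h1 with e | e
    · obtain ⟨y, -, hy⟩ := hR.exists_pr h1 e c
      have := hy.dim
      omega
    · exact (b (half hR.two (by simpa [a, ← eq_neg_iff_add_eq_zero] using LinearEquiv.congr_fun e w))).elim
  rw [mul_inv_eq_one, mul_inv_eq_iff_eq_mul] at h4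
  exact fun v => LinearEquiv.congr_fun h4 v

end

universe u

variable {F V : Type u} [Field F] [AddCommGroup V] [Module F V] {R M : Subgroup (V ≃ₗ[F] V)}
  {x y a b r s g i : V ≃ₗ[F] V} [Finite F] [FiniteDimensional F V]

/-- the tautological representation -/
abbrev rh (F V : Type u) [Field F] [AddCommGroup V] [Module F V] : (V ≃ₗ[F] V) →* End F V :=
  LinearEquiv.automorphismGroup.toLinearMapMonoidHom

theorem ES.xs (h : ES R) : El.XS (rh F V) R 2 where
  inj := LinearEquiv.toLinearMap_injective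
  surj f hf := ⟨LinearEquiv.ofInjectiveEndo f hf, rfl⟩
  fin := have := Module.finite_of_finite F (M := V); have := DFunLike.finite (V ≃ₗ[F] V); inferInstance
  exp x hx := by
    rw [pow_mul, pow_two, pow_two]
    rcases h.sq x hx with e | e <;> simp [e, ng_sq]
  comm x hx y hy := (h.anti hx hy).elim (fun e => ⟨1, by simp, LinearMap.ext (by simpa using e)⟩)
    fun e => ⟨-1, by simp, LinearMap.ext (by simpa using e)⟩
  irr T hT := (h.cent T fun r hr => LinearMap.congr_fun (hT r hr)).imp fun _ => LinearMap.ext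

theorem isD_iff (h2 : (2 : F) ≠ 0) :
    IsD a b g ↔ rh F V g = (2 : F)⁻¹ • ((1 + rh F V a) * (1 + rh F V b)) := by
  rw [eq_inv_smul_iff₀ h2, LinearMap.ext_iff]; rfl

theorem rh_sq : a * a = ng F V ↔ rh F V a * rh F V a = -1 := by
  rw [LinearMap.ext_iff, LinearEquiv.ext_iff]; rfl

theorem ES.exists_isD (h : ES R) (ha : a ∈ R) (hb : b ∈ R) (ha' : a * a = ng F V)
    (hb' : b * b = ng F V) : ∃ g ∈ normalizer (R : Set (V ≃ₗ[F] V)), IsD a b g := by
  simpa only [isD_iff h.two] using h.xs.exists_d h.two ha hb (rh_sq.1 ha') (rh_sq.1 hb')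

theorem IsD.det_one' (h : IsD a b g) (h2 : (2 : F) ≠ 0) (ha : a * a = ng F V) (hb : b * b = ng F V)
    (hab : ∀ v, a (b v) = -b (a v)) : g ∈ SLV F V :=
  mem_SLV'.2 ((congrArg LinearMap.det ((isD_iff h2).1 h)).trans
    (El.det_one_add h2 (rh_sq.1 ha) (rh_sq.1 hb) (LinearMap.ext hab)))

theorem ES.eq_zero (h : ES R) {f : End F V} (H : ∀ t ∈ R, LinearMap.trace F V (f * t) = 0) : f = 0 :=
  h.xs.eq_zero_of_trace (h.xs.card_ne h.two) H

/-- the normaliser of `N(R) ⊓ S` normalises `R` -/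
theorem ES.mem_normalizer [Nontrivial V] (h : ES R) (hi : i ∈ R) (h1 : Sc i) (h2 : i * i = ng F V)
    {S : Subgroup (V ≃ₗ[F] V)} (h3 : R ≤ S) (h4 : ∀ a ∈ R, ∀ b ∈ R, a * a = ng F V → b * b = ng F V →
      ∀ k ∈ SLV F V, IsD a b k → k ∈ S)
    (hy : y ∈ normalizer ((normalizer (R : Set (V ≃ₗ[F] V)) ⊓ S : Subgroup _) : Set (V ≃ₗ[F] V))) :
    y ∈ normalizer (R : Set (V ≃ₗ[F] V)) := by
  obtain ⟨ι, h5, h6⟩ := sc_sq h1 h2
  refine h.xs.mem_normalizer h.two hi (LinearMap.ext h5) h6 (le_inf le_normalizer h3) inf_le_left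
    (fun a ha b hb c d e k hk => ?_) hy
  obtain ⟨k', a1, a2⟩ := h.xs.exists_d h.two ha hb c d
  obtain rfl := h.xs.inj (hk.trans a2.symm)
  rw [← isD_iff h.two] at hk
  rw [← rh_sq] at c d
  exact ⟨a1, h4 a ha b hb c d k (hk.det_one' h.two c d (LinearMap.congr_fun e)) hk⟩

theorem ES.exists_inv (h : ES R) (hn : 3 ≤ finrank F V) : ∃ t ∈ R, t * t = 1 ∧ ¬Sc t := by
  by_contra! k
  obtain ⟨a, b, e⟩ : ∃ a b, ∀ r ∈ R, Sc r ∨ Sc (a * r) ∨ Sc (b * r) ∨ Sc (a * b * r) := by
    by_cases c : ∀ r ∈ R, Sc r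
    · exact ⟨1, 1, fun r hr => Or.inl (c r hr)⟩
    push Not at c
    obtain ⟨a, ha, c⟩ := c
    obtain ⟨b, hb, e⟩ := h.exists_anti ha c
    have h1 : ∀ r ∈ R, (∀ v, r (a v) = a (r v)) → (∀ v, r (b v) = b (r v)) → Sc r :=
      fun r hr c1 c2 => by
        by_contra c3
        have a1 := (h.sq' ha).resolve_left fun e => c (k a ha (LinearEquiv.ext e))
        have a2 := (h.sq' hr).resolve_left fun e => c3 (k r hr (LinearEquiv.ext e))
        have := (k _ (mul_mem ha hr) (by ext; simp [c1, a1, a2])).cm6 b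
        refine c ⟨0, fun v => ?_⟩
        obtain ⟨v, rfl⟩ := r.surjective v
        simpa [c2, e, ← add_eq_zero_iff_eq_neg, ← two_smul F, h.two] using LinearEquiv.congr_fun this v
    refine ⟨a, b, fun r hr => ?_⟩
    have e' : ∀ v, b (a v) = -a (b v) := by simp [e]
    rcases h.anti hr ha with c1 | c1 <;> rcases h.anti hr hb with c2 | c2
    · exact Or.inl (h1 r hr c1 c2)
    · exact Or.inr (Or.inl (h1 _ (mul_mem ha hr) (by simp [c1]) (by simp [c2, e])))
    · exact Or.inr (Or.inr (Or.inl (h1 _ (mul_mem hb hr) (by simp [c1, e]) (by simp [c2]))))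
    · exact Or.inr (Or.inr (Or.inr (h1 _ (mul_mem (mul_mem ha hb) hr) (by simp [c1, e'])
        (by simp [c2, e']))))
  let T : End F V →ₗ[F] (Fin 4 → F) := LinearMap.pi fun j =>
    LinearMap.trace F V ∘ₗ LinearMap.mulRight F (rh F V (![1, a, b, a * b] j)⁻¹)
  have := LinearMap.finrank_le_finrank_of_injective (f := T) ((injective_iff_map_eq_zero _).2
    fun f hf => h.eq_zero fun t ht => ?_)
  · rw [finrank_linearMap, finrank_fin_fun] at this
    nlinarith
  obtain ⟨j, c, hc⟩ : ∃ j, Sc (![1, a, b, a * b] j * t) := by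
    rcases e t ht with e | e | e | e
    exacts [⟨0, by simpa⟩, ⟨1, e⟩, ⟨2, e⟩, ⟨3, e⟩]
  rw [show (t : End F V) = c • rh F V (![1, a, b, a * b] j)⁻¹ from LinearMap.ext fun v =>
    (![1, a, b, a * b] j).injective (by simpa using hc v), mul_smul_comm, map_smul]
  exact smul_eq_zero_of_right _ (congrFun hf j)

end Cfsg.Agent.C6
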