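import Cfsg.Agent.H4.Higman2
import Cfsg.Agent.C6.Res

/-! P. Hall: `2`-groups of symplectic type and exponent four. -/

set_option autoImplicit false

namespace Cfsg.Agent.C6

open Subgroup H4

theorem cyc_inv {G : Type*} [Group G] [Finite G] [IsCyclic G] {a b : G} (ha : a * a = 1)
    (hb : b * b = 1) (ha1 : a ≠ 1) (hb1 : b ≠ 1) : a = b := by
  classical
  have := Fintype.ofFinite G
  by_contra h
  have h1 := (Finset.card_le_card (show ({1, a, b} : Finset G) ⊆ _ from by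
    simp [Finset.subset_iff, sq, ha, hb])).trans (IsCyclic.card_pow_eq_one_le (α := G) two_pos)
  rw [Finset.card_eq_three.2 ⟨_, _, _, ha1.symm, hb1.symm, h, rfl⟩] at h1
  omega

/-- P. Hall: in a `2`-group of symplectic type and exponent four all squares are central -/
theorem hall_sq {G : Type*} [Group G] [Finite G] (hp : IsPGroup 2 G)
    (h : ∀ A : Subgroup G, A.Characteristic → IsMulCommutative A → IsCyclic A)
    (h4 : ∀ x : G, x * x * (x * x) = 1) (x : G) : x * x ∈ center G := by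
  let D := closure (Set.range fun x : G => x * x)
  have hD : D.Characteristic := characteristic_iff_map_le.2 fun φ => by
    rw [MonoidHom.map_closure]
    refine closure_mono ?_
    rintro _ ⟨_, ⟨a, rfl⟩, rfl⟩
    exact ⟨φ a, by simp⟩
  have h1 : ∀ {d g}, cm d g ∈ center G → ∀ u, u⁻¹ * cm d g * u = cm d g := fun e u => by
    rw [mem_center_iff.1 e, inv_mul_cancel_right]
  let T : Subgroup G :=
    { carrier := {d | d ∈ D ∧ ∀ g, cm d g ∈ center G ∧ cm d g * cm d g = 1}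
      mul_mem' := fun {a b} ha hb => ⟨mul_mem ha.1 hb.1, fun g => by
        rw [cm_mul_left, h1 (ha.2 g).1]
        exact ⟨mul_mem (ha.2 g).1 (hb.2 g).1, by
          rw [mul_assoc, ← mul_assoc (cm b g), mem_center_iff.1 (ha.2 g).1, mul_assoc, (hb.2 g).2,
            mul_one, (ha.2 g).2]⟩⟩
      one_mem' := ⟨one_mem _, fun g => by simp [cm, one_mem]⟩
      inv_mem' := fun {a} ha => ⟨inv_mem ha.1, fun g => by
        have := cm_mul_left a a⁻¹ g
        rw [h1 (ha.2 g).1, mul_inv_cancel, show cm 1 g = 1 by simp [cm], eq_comm,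
          mul_eq_one_iff_inv_eq, inv_eq_of_mul_eq_one_right (ha.2 g).2] at this
        exact this ▸ ha.2 g⟩ }
  have hT : T.Characteristic := characteristic_iff_map_le.2 fun φ => by
    rintro _ ⟨d, hd, rfl⟩
    refine ⟨characteristic_iff_map_le.1 hD φ ⟨d, hd.1, rfl⟩, fun g => ?_⟩
    obtain ⟨g, rfl⟩ := φ.surjective g
    rw [show cm (φ.toMonoidHom d) (φ g) = φ (cm d g) by simp [cm], ← map_mul, (hd.2 g).2, map_one]
    exact ⟨characteristic_iff_map_le.1 inferInstance φ ⟨_, (hd.2 g).1, rfl⟩, rfl⟩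
  have h2 : ∀ t ∈ T, ∀ d ∈ D, t * d = d * t := fun t ht =>
    (closure_le (centralizer {t})).2 (by
      rintro _ ⟨a, rfl⟩
      refine mem_centralizer_singleton_iff.2 (cm_eq_one.1 ?_).symm
      rw [cm_mul_right, (ht.2 a).2, one_mul, cm_eq_one, mem_center_iff.1 (ht.2 a).1]) |>.trans' le_rfl
      |> fun e d hd => (mem_centralizer_singleton_iff.1 (e hd)).symm
  have := h T hT ⟨⟨fun a b => Subtype.ext (h2 a a.2 b b.2.1)⟩⟩
  have h3 : ∀ a ∈ T, ∀ b ∈ T, a * a = 1 → b * b = 1 → a ≠ 1 → b ≠ 1 → a = b :=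
    fun a ha b hb e1 e2 e3 e4 => congrArg Subtype.val (cyc_inv (a := (⟨a, ha⟩ : T)) (b := ⟨b, hb⟩)
      (Subtype.ext e1) (Subtype.ext e2) (by simpa) (by simpa))
  have h5 : ∀ s ∈ T, s * s = 1 → s ∈ center G := fun s hs e => by
    by_contra k
    obtain ⟨g, hg⟩ : ∃ g, cm s g ≠ 1 := by
      simpa [mem_center_iff, cm_eq_one, eq_comm (b := s * _)] using k
    exact k (h3 s hs _ (cm_mem inferInstance hs g) e (hs.2 g).2 (by rintro rfl; simp at k) hg ▸
      (hs.2 g).1)
  refine h5 _ ?_ (h4 x)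
  by_contra k
  obtain ⟨e, k1, k2, k3, k4⟩ := exists_central_mod hp (A := T) (N := D) inferInstance inferInstance
    fun e => k (e (subset_closure ⟨x, rfl⟩))
  by_cases k5 : ∀ t ∈ T, t * t = 1
  · exact k2 ⟨k1, fun g => ⟨h5 _ (k4 g) (k5 _ (k4 g)), k5 _ (k4 g)⟩⟩
  push Not at k5
  obtain ⟨t, ht, k5⟩ := k5
  obtain ⟨s, hs, k6⟩ : ∃ s ∈ T, e * s * (e * s) = 1 := by
    by_cases k6 : e * e = 1
    · exact ⟨1, one_mem _, by simpa⟩
    refine ⟨t, ht, ?_⟩
    rw [mul_assoc, ← mul_assoc t, h2 t ht e k1, mul_assoc, ← mul_assoc,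
      h3 _ k3 _ (mul_mem ht ht) (h4 e) (h4 t) k6 k5, h4]
  have k7 := mul_mem k1 hs.1
  refine k2 ((T.mul_mem_cancel_right hs).1 ⟨k7, fun g => ?_⟩)
  have k8 : cm (e * s) g ∈ T := by
    rw [cm_mul_left]
    exact mul_mem (mul_mem (mul_mem (inv_mem hs) (k4 g)) hs) (cm_mem inferInstance hs g)
  generalize e * s = u at k6 k7 k8
  have k9 := cm_mul_left u u g
  rw [k6, show cm 1 g = 1 by simp [cm], mul_assoc u⁻¹, h2 _ k8 u k7, inv_mul_cancel_left] at k9
  exact ⟨h5 _ k8 k9.symm, k9.symm⟩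

theorem Sc.cases {F V : Type*} [Field F] [AddCommGroup V] [Module F V] {g : V ≃ₗ[F] V} (h : Sc g)
    (e : g * g = 1) : g = 1 ∨ g = ng F V := by
  obtain ⟨c, hc⟩ := h
  rcases subsingleton_or_nontrivial V with _ | _
  · exact Or.inl (LinearEquiv.ext fun _ => Subsingleton.elim _ _)
  obtain ⟨v, hv⟩ := exists_ne (0 : V)
  rcases mul_self_eq_one_iff.1 (smul_left_injective F hv (by
    simpa [hc, smul_smul] using LinearEquiv.congr_fun e v) : c * c = 1) with rfl | rfl
  · exact Or.inl (LinearEquiv.ext (by simp [hc]))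
  · exact Or.inr (LinearEquiv.ext (by simp [hc]))

open H6

variable {ι : Type} [Fintype ι] [DecidableEq ι] {F : Type*} [Field F] {R : Subgroup (GL ι F)}

/-- the subgroup of linear automorphisms -/
noncomputable abbrev im (R : Subgroup (GL ι F)) : Subgroup ((ι → F) ≃ₗ[F] (ι → F)) :=
  R.map gl0.toMonoidHom

theorem mem_im {g : GL ι F} : gl0 g ∈ im R ↔ g ∈ R := mem_map_iff_mem gl0.injective

theorem mem_normalizer_im {g : GL ι F} :
    g ∈ Geo.subgroupNormalizer R ↔ gl0 g ∈ normalizer (im R : Set ((ι → F) ≃ₗ[F] (ι → F))) := by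
  simp only [Geo.subgroupNormalizer, mem_normalizer_iff, gl0.surjective.forall, ← map_mul,
    ← map_inv, mem_im]

theorem cent_im (h : Geo.ActsAbsolutelyIrreducibly (Geo.matrixSet R)) (X : Module.End F (ι → F))
    (hX : ∀ r ∈ im R, ∀ v, X (r v) = r (X v)) : ∃ c : F, ∀ v, X v = c • v := by
  obtain ⟨X, rfl⟩ := Matrix.toLin'.surjective X
  obtain ⟨c, rfl⟩ := h.2 X (by
    rintro _ ⟨g, hg, rfl⟩
    refine Matrix.toLin'.injective (LinearMap.ext fun v => ?_)
    simpa [gl0_apply] using hX _ (mem_im.2 hg) v)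
  exact ⟨c, by simp⟩

theorem sc_of_center (h : Geo.ActsAbsolutelyIrreducibly (Geo.matrixSet R)) {z : R}
    (hz : z ∈ center R) : Sc (gl0 z.1) := cent_im h _ (by
  rintro _ ⟨g, hg, rfl⟩ v
  exact LinearEquiv.congr_fun ((map_mul gl0 _ _).symm.trans ((congrArg (fun r : R => gl0 r.1)
    (mem_center_iff.1 hz ⟨g, hg⟩).symm).trans (map_mul gl0 _ _))) v)

theorem es_of_symplecticType [Finite F] (h1 : Geo.IsSymplecticTypeGroup 2 R)
    (h2 : Geo.ActsAbsolutelyIrreducibly (Geo.matrixSet R)) (h3 : (2 : F) ≠ 0) : ES (im R) := by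
  have h4 : ∀ x : R, x * x * (x * x) = 1 := fun x => by
    simpa [h1.exponent_eq, pow_succ, mul_assoc] using Monoid.pow_exponent_eq_one x
  have h5 : ∀ x : R, gl0 x.1 * gl0 x.1 = 1 ∨ gl0 x.1 * gl0 x.1 = ng F _ := fun x => by
    simpa only [Subgroup.coe_mul, map_mul] using
      (sc_of_center h2 (hall_sq h1.pGroup h1.cyclic_of_characteristic h4 x)).cases
        (by simpa using congrArg (fun r : R => gl0 r.1) (h4 x))
  refine ⟨h3, ?_, by rintro _ ⟨g, hg, rfl⟩; exact h5 ⟨g, hg⟩, cent_im h2⟩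
  by_contra k
  have := Monoid.exponent_dvd_of_forall_pow_eq_one (n := 2) fun x : R => Subtype.ext (gl0.injective (by
    simpa [sq] using (h5 x).resolve_right fun e => k (e ▸ mul_mem (mem_im.2 x.2) (mem_im.2 x.2))))
  simp [h1.exponent_eq] at this

/-- a scalar of order four -/
theorem exists_i [Finite F] (h2 : Geo.ActsAbsolutelyIrreducibly (Geo.matrixSet R)) (h : ES (im R))
    (hZ : Nat.card (center R) = 4) : ∃ i ∈ im R, Sc i ∧ i * i = ng F _ := by
  by_contra! k
  have := Nat.card_le_card_of_injective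
    (β := ({1, ng F _} : Set ((ι → F) ≃ₗ[F] (ι → F)))) (fun z : center R => ⟨gl0 z.1.1, by
      have a := mem_im.2 z.1.2
      exact (sc_of_center h2 z.2).cases ((h.sq _ a).resolve_right (k _ a (sc_of_center h2 z.2)))⟩)
    fun a b e => Subtype.ext (Subtype.ext (gl0.injective (congrArg Subtype.val e)))
  have := this.trans (Set.ncard_insert_le _ _)
  simp [hZ] at this

end Cfsg.Agent.C6
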