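import Cfsg.Agent.C6.XS

/-! Group-theoretic forms of the geometric lemmas. -/

set_option autoImplicit false
set_option linter.unusedSimpArgs false
set_option linter.unusedSectionVars false
set_option linter.unusedVariables false

namespace Cfsg.Agent.C6

open Subgroup Module

namespace XS

variable {G : Type*} [Group G] [Finite G] {R Z : Subgroup G} {ε : G} {A : Type*} [AddCommGroup A]
  [Module (ZMod 2) A] [FiniteDimensional (ZMod 2) A]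
  {π : G → A} {β : A →ₗ[ZMod 2] A →ₗ[ZMod 2] ZMod 2} (h : XS R Z ε π β)
include h

theorem mem_Z {r : G} (hr : r ∈ R) : r ∈ Z ↔ ∀ s ∈ R, r * s = s * r := by
  refine ⟨fun c s hs => (h.Zc c hs).symm, fun c => by_contra fun e => ?_⟩
  obtain ⟨s, hs, e⟩ := h.exists_anti hr e
  rw [c s hs] at e
  exact h.ε1 (by simpa using e)

theorem conj_Z {u z : G} (hu : u ∈ normalizer (R : Set G)) (hz : z ∈ Z) : u * z * u⁻¹ ∈ Z :=
  (h.mem_Z (conj_mem_of_norm hu (h.ZR hz))).2 fun s hs => by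
    have := h.Zc hz (conj_mem_of_norm (inv_mem hu) hs)
    rw [← mul_left_inj u, ← mul_right_inj u⁻¹]
    simpa [mul_assoc] using this.symm

theorem iso_of {σ : A ≃ₗ[ZMod 2] A} (ρ : G → G → Prop) (h1 : ∀ r ∈ R, ∃ s ∈ R, ρ r s)
    (hσ : ∀ r ∈ R, ∀ s ∈ R, ρ r s → σ (π r) = π s)
    (h4 : ∀ r ∈ R, ∀ s ∈ R, ∀ r' ∈ R, ∀ s' ∈ R, ρ r s → ρ r' s' →
      (r * r' = r' * r ↔ s * s' = s' * s)) : Iso2 β σ := fun a b => by
  obtain ⟨r, hr, rfl⟩ := h.surj a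
  obtain ⟨r', hr', rfl⟩ := h.surj b
  obtain ⟨s, hs, e⟩ := h1 r hr
  obtain ⟨s', hs', e'⟩ := h1 r' hr'
  rw [hσ r hr s hs e, hσ r' hr' s' hs' e']
  have := h4 r hr s hs r' hr' s' hs' e e'
  rw [← h.comm r hr r' hr', ← h.comm s hs s' hs'] at this
  rcases zo (β (π r) (π r')) with c | c
  · rw [c, this.1 c]
  · rw [c, one_of_ne (mt this.2 (by simp [c]))]

theorem exists_act {u : G} (hu : u ∈ normalizer (R : Set G)) :
    ∃ σ : A ≃ₗ[ZMod 2] A, Iso2 β σ ∧ ∀ r ∈ R, σ (π r) = π (u * r * u⁻¹) := by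
  have h1 : ∀ r ∈ R, ∃ s ∈ R, s = u * r * u⁻¹ := fun r hr => ⟨_, conj_mem_of_norm hu hr, rfl⟩
  obtain ⟨σ, hσ⟩ := h.exists_lin (fun r s => s = u * r * u⁻¹) h1
    (by rintro r _ r' _ rfl rfl; group) (by
      rintro r hr _ hs rfl
      exact ⟨h.conj_Z hu, fun c => by simpa [mul_assoc] using h.conj_Z (inv_mem hu) c⟩)
  refine ⟨σ, h.iso_of _ h1 hσ ?_, fun r hr => hσ r hr _ (conj_mem_of_norm hu hr) rfl⟩
  rintro r - _ - r' - _ - rfl rfl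
  simp only [conj_mul, mul_left_inj, mul_right_inj]

theorem trans (hd : 3 ≤ finrank (ZMod 2) A) (M : Subgroup G)
    (hD : ∀ a ∈ R, ∀ b ∈ R, a * a = ε → b * b = ε → a ∉ Z → b ∉ Z →
      ∃ k ∈ M, ∀ r ∈ R, k * r * k⁻¹ = cj a (cj b r)) {x x' : G} (hx : x ∈ R) (hx' : x' ∈ R)
    (hx0 : x ∉ Z) (hx0' : x' ∉ Z) (hs : (SQ R π 1 (π x) ∧ SQ R π 1 (π x')) ∨
      (SQ R π ε (π x) ∧ SQ R π ε (π x') ∧ 5 ≤ finrank (ZMod 2) A)) :
    ∃ k ∈ M, k ∈ normalizer (R : Set G) ∧ k * x * k⁻¹ * x'⁻¹ ∈ Z := by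
  let L : Subgroup (A ≃ₗ[ZMod 2] A) :=
    { carrier := {σ | ∃ k ∈ M, k ∈ normalizer (R : Set G) ∧ ∀ r ∈ R, σ (π r) = π (k * r * k⁻¹)}
      one_mem' := ⟨1, one_mem _, one_mem _, by simp⟩
      mul_mem' := by
        rintro σ τ ⟨k, k1, k2, k3⟩ ⟨l, l1, l2, l3⟩
        refine ⟨k * l, mul_mem k1 l1, mul_mem k2 l2, fun r hr => ?_⟩
        rw [LinearEquiv.mul_apply, l3 r hr, k3 _ (conj_mem_of_norm l2 hr)]; congr 1; group
      inv_mem' := by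
        rintro σ ⟨k, k1, k2, k3⟩
        refine ⟨k⁻¹, inv_mem k1, inv_mem k2, fun r hr => σ.injective ?_⟩
        rw [k3 _ (conj_mem_of_norm (inv_mem k2) hr)]; simp [mul_assoc] }
  obtain ⟨σ, ⟨k, k1, k2, k3⟩, e⟩ := h.ty.trans h.alt h.nd L (by
    rintro _ _ ⟨a, ha, rfl, a1⟩ ⟨b, hb, rfl, b1⟩ a2 b2
    obtain ⟨k, k1, k2⟩ := hD a ha b hb a1 b1 (mt (h.ker a ha).2 a2) (mt (h.ker b hb).2 b2)
    refine ⟨k, k1, mem_normalizer_fintype fun r hr => k2 r hr ▸ cj_mem ha (cj_mem hb hr),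
      fun r hr => ?_⟩
    rw [k2 r hr, h.π_cj ha (cj_mem hb hr), h.π_cj hb hr]; rfl)
    (mt (h.ker x hx).1 hx0) (mt (h.ker x' hx').1 hx0') hd hs
  exact ⟨k, k1, k2, (h.eq_iff (conj_mem_of_norm k2 hx) hx').1 (by rw [← k3 x hx, e])⟩

theorem exists_chi (Z2 : ∀ c ∈ Z, c * c = 1 → c = 1 ∨ c = ε) {z : G}
    (hz : z ∈ normalizer (R : Set G)) (hz2 : ∀ r ∈ R, z * z * r = r * (z * z))
    (hZ : ∀ c ∈ Z, z * c = c * z) : ∃ (σ : A ≃ₗ[ZMod 2] A) (χ : Dual (ZMod 2) A), Iso2 β σ ∧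
      (∀ a, σ (σ a) = a) ∧ ∀ r ∈ R, σ (π r) = π r → χ (π r) = 0 → r * z = z * r := by
  classical
  obtain ⟨σ, h1, h2⟩ := h.exists_act hz
  have k : ∀ r ∈ R, σ (π r) = π r → z * r = r * z ∨ z * r = ε * (r * z) := fun r hr e => by
    have c := (h.eq_iff (conj_mem_of_norm hz hr) hr).1 (by rw [← h2 r hr, e])
    set b := z * r * z⁻¹ * r⁻¹ with hb
    have b2 : z * r = b * (r * z) := by rw [hb]; group
    have := hz2 r hr
    rw [mul_assoc, b2, ← mul_assoc, hZ b c, mul_assoc, ← mul_assoc z, b2] at this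
    have e : b * b * (r * (z * z)) = 1 * (r * (z * z)) := by
      simpa only [mul_assoc, one_mul] using this
    exact (Z2 b c (mul_right_cancel e)).imp (fun c => by rw [b2, c, one_mul]) fun c => by rw [b2, c]
  choose l hl hl' using h.surj
  let f : G → ZMod 2 := fun r => if z * r = r * z then 0 else 1
  have fm : ∀ r ∈ R, ∀ s ∈ R, σ (π r) = π r → σ (π s) = π s → f (r * s) = f r + f s :=
    fun r hr s hs e e' => by
      have n : ∀ x : G, ¬ ε * x = x := by simpa using h.ε1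
      rcases k r hr e with e | e <;> rcases k s hs e' with e' | e' <;>
        simp only [f, ← mul_assoc z, e, mul_assoc, e', ← mul_assoc r ε, h.Zc h.εZ hr,
          ← mul_assoc ε ε, h.ε2, one_mul, n, if_true, if_false] <;> decide
  have fz : ∀ r ∈ R, ∀ s ∈ R, σ (π r) = π r → π r = π s → f r = f s := fun r hr s hs e e' => by
    rw [← add_eq_zero', ← fm r hr s hs e (e' ▸ e)]
    exact if_pos (hZ _ ((h.ker _ (mul_mem hr hs)).1 (by rw [h.mul r hr s hs, e', aa])))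
  let φ : fixS σ →+ ZMod 2 := AddMonoidHom.mk' (fun a => f (l a)) fun a b => by
    have e1 := mem_fixS.1 a.2
    have e2 := mem_fixS.1 b.2
    rw [← fm _ (hl _) _ (hl _) (by rw [hl', e1]) (by rw [hl', e2])]
    exact fz _ (hl _) _ (mul_mem (hl _) (hl _)) (by rw [hl']; exact mem_fixS.1 (a + b).2)
      (by rw [h.mul _ (hl _) _ (hl _), hl', hl', hl']; rfl)
  obtain ⟨χ, hχ⟩ := (φ.toZModLinearMap 2).exists_extend
  refine ⟨σ, χ, h1, fun a => ?_, fun r hr e e' => ?_⟩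
  · rw [← hl' a, h2 _ (hl a), h2 _ (conj_mem_of_norm hz (hl a))]; congr 1
    rw [show z * (z * l a * z⁻¹) * z⁻¹ = z * z * l a * (z * z)⁻¹ by group, hz2 _ (hl a),
      mul_inv_cancel_right]
  · have := LinearMap.congr_fun hχ ⟨π r, mem_fixS.2 e⟩
    replace this : f (l (π r)) = 0 := this.symm.trans e'
    rw [← fz r hr _ (hl _) e (hl' _).symm] at this
    by_contra c
    simp [f, Ne.symm c] at this

theorem fix_one (hd : 3 ≤ finrank (ZMod 2) A) (Z2 : ∀ c ∈ Z, c * c = 1 → c = 1 ∨ c = ε) {z : G}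
    (hz : z ∈ normalizer (R : Set G)) (hz2 : ∀ r ∈ R, z * z * r = r * (z * z))
    (hZ : ∀ c ∈ Z, z * c = c * z) : ∃ a ∈ R, a ∉ Z ∧ a * z = z * a := by
  obtain ⟨σ, χ, h1, h2, h3⟩ := h.exists_chi Z2 hz hz2 hZ
  obtain ⟨a, a1, a2, a3⟩ := C6.fix_one h2 χ hd
  obtain ⟨r, hr, rfl⟩ := h.surj a
  exact ⟨r, hr, mt (h.ker r hr).2 a1, h3 r hr a2 a3⟩

theorem fix_two (hd : 5 ≤ finrank (ZMod 2) A) (Z2 : ∀ c ∈ Z, c * c = 1 → c = 1 ∨ c = ε) {z : G}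
    (hz : z ∈ normalizer (R : Set G)) (hz2 : ∀ r ∈ R, z * z * r = r * (z * z))
    (hZ : ∀ c ∈ Z, z * c = c * z) : ∃ a ∈ R, ∃ b ∈ R, a ∉ Z ∧ b ∉ Z ∧ a * b ∉ Z ∧ a * z = z * a ∧
      b * z = z * b ∧ a * b = b * a := by
  obtain ⟨σ, χ, h1, h2, h3⟩ := h.exists_chi Z2 hz hz2 hZ
  obtain ⟨a, b, a1, b1, c, a2, b2, a3, b3, e⟩ := C6.fix_two h.alt h1 h2 χ hd
  obtain ⟨r, hr, rfl⟩ := h.surj a
  obtain ⟨s, hs, rfl⟩ := h.surj b
  exact ⟨r, hr, s, hs, mt (h.ker r hr).2 a1, mt (h.ker s hs).2 b1, fun e => c (by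
    rw [← add_eq_zero', ← h.mul r hr s hs, h.πZ e]), h3 r hr a2 a3, h3 s hs b2 b3,
    (h.comm r hr s hs).1 e⟩

theorem no_sharp (hd : 3 ≤ finrank (ZMod 2) A) {T : Type*} (δ : T → G)
    (h1 : ∀ t, δ t ∈ normalizer (R : Set G))
    (h2 : ∀ x ∈ R, x ∉ Z → ∀ y ∈ R, y ∉ Z → ∃! t, δ t * x * (δ t)⁻¹ * y⁻¹ ∈ Z) : False := by
  choose σ hσ hσ' using fun t => h.exists_act (h1 t)
  refine C6.no_sharp h.alt h.nd hd σ hσ fun x y hx hy => ?_
  obtain ⟨x, x1, rfl⟩ := h.surj x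
  obtain ⟨y, y1, rfl⟩ := h.surj y
  simpa only [hσ' _ x x1, h.eq_iff (conj_mem_of_norm (h1 _) x1) y1] using
    h2 x x1 (mt (h.ker x x1).2 hx) y y1 (mt (h.ker y y1).2 hy)

/-- an element of square `ε` commuting with a given one -/
theorem exists_ns (hd : 3 ≤ finrank (ZMod 2) A) {s : G} (hs : s ∈ R) :
    ∃ e ∈ R, e * e = ε ∧ s * e = e * s := by
  suffices ∃ a, SQ R π ε a ∧ β (π s) a = 0 by
    obtain ⟨_, ⟨e, he, rfl, e1⟩, e2⟩ := this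
    exact ⟨e, he, e1, (h.comm s hs e he).1 e2⟩
  rcases h.ty with ⟨h1, -⟩ | ⟨q, hq, h1, -⟩
  · exact ⟨0, h1 0, by simp⟩
  · obtain ⟨a, -, a1, a2⟩ := hq.ns_perp h.alt h.nd (by simpa) (s := π s) trivial
    exact ⟨a, (h1 a).2 a2, a1⟩

/-- a non-central involution commuting with an anticommuting pair of square `ε` -/
theorem exists_inv (hd : 3 ≤ finrank (ZMod 2) A) {a c : G} (ha : a ∈ R) (hc : c ∈ R)
    (ha' : a * a = ε) (hc' : c * c = ε) (hac : a * c = ε * (c * a))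
    (hO : (∀ a, SQ R π ε a) ∨ 5 ≤ finrank (ZMod 2) A ∨ NoPl β (SQ R π 1)) :
    ∃ x ∈ R, x ∉ Z ∧ x * x = 1 ∧ a * x = x * a ∧ c * x = x * c := by
  suffices ∃ x, x ≠ 0 ∧ SQ R π 1 x ∧ β (π a) x = 0 ∧ β (π c) x = 0 by
    obtain ⟨_, x0, ⟨x, hx, rfl, e1⟩, e2, e3⟩ := this
    exact ⟨x, hx, mt (h.ker x hx).2 x0, e1, (h.comm a ha x hx).1 e2, (h.comm c hc x hx).1 e3⟩
  have hac' := (h.one_iff ha hc).2 hac
  have hd' := finrank_cut (β := β) ⊤ (π a) (π c)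
  rw [finrank_top] at hd'
  obtain ⟨u, u1, u0⟩ := H6.exists_ne_zero_of_finrank (K := cut β ⊤ (π a) (π c)) (by omega)
  rcases h.ty with ⟨-, h0⟩ | ⟨q, hq, h1, h0⟩
  · exact ⟨u, u0, h0 u, (mem_cut.1 u1).2⟩
  have hn := h.nd.cut h.alt trivial trivial hac'
  by_contra! hcon
  have k : ∀ u ∈ cut β ⊤ (π a) (π c), u ≠ 0 → q u = 1 := fun u u1 u0 => one_of_ne fun e =>
    hcon u u0 ((h0 u).2 e) (mem_cut.1 u1).2.1 (mem_cut.1 u1).2.2
  obtain ⟨v, v1, v2⟩ := hn u u1 u0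
  have v0 : v ≠ 0 := by rintro rfl; simp at v2
  have qa := (h1 _).1 ⟨a, ha, rfl, ha'⟩
  have qc := (h1 _).1 ⟨c, hc, rfl, hc'⟩
  rcases hO with hO | hO | hO
  · simpa [hq.zero] using (h1 0).1 (hO 0)
  · obtain ⟨s, s1, s2, s3⟩ := hq.exists_sing h.alt hn (by omega)
    simp [k s s1 s2] at s3
  · obtain ⟨-, a1, a2⟩ := mem_cut.1 u1
    obtain ⟨-, b1, b2⟩ := mem_cut.1 v1
    have := h.alt
    rcases hO (π a + u) (π c + v) ((h0 _).2 (by rw [hq, qa, k u u1 u0, a1]; grind))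
      ((h0 _).2 (by rw [hq, qc, k v v1 v0, b2]; grind))
      (by simp [hac', b1, v2, this.symm u (π c), a2, z11]) with e | e | e
    · simpa [this.symm (π c) (π a), hac', a2] using congrArg (β (π c)) e
    · simpa [hac', b1] using congrArg (β (π a)) e
    · simpa [hac', b1, a1, this.alt] using congrArg (β (π a)) e

end XS

end Cfsg.Agent.C6
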