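import Cfsg.Agent.C6.Defs
import Cfsg.Agent.C6.XS2

/-! Linear algebra of absolutely irreducible `2`-groups of symplectic type. -/

set_option autoImplicit false
set_option linter.unusedSimpArgs false
set_option linter.unusedSectionVars false
set_option linter.unusedVariables false

namespace Cfsg.Agent.C6

open Subgroup Module

universe u

variable {F : Type*} {V : Type u} [Field F] [AddCommGroup V] [Module F V]

@[simp] theorem ng_apply (v : V) : ng F V v = -v := rfl

theorem ap_inv (g : V ≃ₗ[F] V) (v : V) : g (g⁻¹ v) = v := g.apply_symm_apply v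

theorem inv_ap (g : V ≃ₗ[F] V) (v : V) : g⁻¹ (g v) = v := g.symm_apply_apply v

theorem ng_ng : ng F V * ng F V = 1 := LinearEquiv.ext fun v => neg_neg v

theorem Sc.cm {c : V ≃ₗ[F] V} (h : Sc c) (g : V ≃ₗ[F] V) : g * c = c * g := by
  obtain ⟨a, h⟩ := h
  exact LinearEquiv.ext fun v => by simp [h]

theorem sc_ng1 : Sc (ng F V) := ⟨-1, fun v => by simp⟩

theorem ng_cm (g : V ≃ₗ[F] V) : g * ng F V = ng F V * g := sc_ng1.cm g

theorem Sc.ne_zero {g : V ≃ₗ[F] V} {c : F} (h : ∀ v, g v = c • v) {v : V} (hv : v ≠ 0) : c ≠ 0 := by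
  rintro rfl
  exact hv (g.injective (by simp [h]))

/-- the group of scalar maps -/
def ScG (F V : Type*) [Field F] [AddCommGroup V] [Module F V] : Subgroup (V ≃ₗ[F] V) where
  carrier := {g | Sc g}
  one_mem' := ⟨1, fun v => by simp⟩
  mul_mem' := by
    rintro a b ⟨c, hc⟩ ⟨d, hd⟩
    exact ⟨c * d, fun v => by simp [hc, hd, mul_smul]⟩
  inv_mem' := by
    rintro a ⟨c, hc⟩
    refine ⟨c⁻¹, fun v => a.injective ?_⟩
    by_cases hv : v = 0
    · simp [hv]
    · rw [ap_inv]; simp [hc, smul_smul, Sc.ne_zero hc hv]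

theorem mem_ScG {g : V ≃ₗ[F] V} : g ∈ ScG F V ↔ Sc g := Iff.rfl

theorem Sc.two {c : V ≃ₗ[F] V} (h : Sc c) (h2 : c * c = 1) : c = 1 ∨ c = ng F V := by
  obtain ⟨a, h⟩ := h
  by_cases h1 : a = 1
  · exact Or.inl (LinearEquiv.ext fun v => by simp [h, h1])
  refine Or.inr (LinearEquiv.ext fun v => ?_)
  have := LinearEquiv.congr_fun h2 v
  simp only [LinearEquiv.mul_apply, h, LinearEquiv.coe_one, id] at this
  have e : (a - 1) • (a • v + v) = 0 := by
    rw [sub_smul, smul_add, this]; abel_nf; simp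
  rw [smul_eq_zero_iff_right (sub_ne_zero.2 h1)] at e
  simpa [h] using eq_neg_of_add_eq_zero_left e

theorem eq_zero_of_neg (h2 : (2 : F) ≠ 0) {v : V} (h : v = -v) : v = 0 := by
  have : (2 : F) • v = 0 := by rw [two_smul]; exact add_eq_zero_iff_eq_neg.2 h
  simpa [h2] using this

theorem ng_ne (h2 : (2 : F) ≠ 0) [Nontrivial V] : ng F V ≠ 1 := fun e => by
  obtain ⟨v, hv⟩ := exists_ne (0 : V)
  exact hv (eq_zero_of_neg h2 (LinearEquiv.congr_fun e v).symm)

theorem trace_of_anti [FiniteDimensional F V] (h2 : (2 : F) ≠ 0) {r s : V ≃ₗ[F] V}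
    (h : r * s = ng F V * (s * r)) : LinearMap.trace F V r = 0 := by
  have e : s.conj (r : End F V) = -(r : End F V) := LinearMap.ext fun v => by
    obtain ⟨v, rfl⟩ := s.surjective v
    simpa [LinearEquiv.conj_apply_apply, neg_eq_iff_eq_neg] using (LinearEquiv.congr_fun h v).symm
  have := LinearMap.trace_conj' (r : End F V) s
  rw [e, map_neg] at this
  exact eq_zero_of_neg (V := F) h2 this.symm

theorem trace_cj [FiniteDimensional F V] (g x : V ≃ₗ[F] V) :
    LinearMap.trace F V (g * x * g⁻¹ : V ≃ₗ[F] V) = LinearMap.trace F V x :=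
  LinearMap.trace_conj' (x : End F V) g

namespace ES

variable {R : Subgroup (V ≃ₗ[F] V)} (h : ES R)
include h

theorem mem_Z {z : V ≃ₗ[F] V} : z ∈ R ⊓ ScG F V ↔ z ∈ R ∧ ∀ r ∈ R, r * z = z * r :=
  and_congr_right fun hz => ⟨fun c r _ => Sc.cm c r, fun c =>
    h.cent z fun r hr v => (LinearEquiv.congr_fun (c r hr) v).symm⟩

theorem card_ne [Finite R] (P : Subgroup (V ≃ₗ[F] V)) (hP : P ≤ R) : (Nat.card P : F) ≠ 0 := by
  have : Finite P := Finite.of_injective _ (inclusion_injective hP)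
  have : Fact (Nat.Prime 2) := ⟨Nat.prime_two⟩
  obtain ⟨k, hk⟩ := (IsPGroup.iff_card (p := 2) (G := P)).1 fun r => ⟨2, Subtype.ext (by
    have : r.1 ^ 2 ^ 2 = r.1 * r.1 * (r.1 * r.1) := by simp [pow_succ, mul_assoc]
    rw [SubgroupClass.coe_pow, this]
    rcases h.sq r.1 (hP r.2) with c | c <;> simp [c, ng_ng])⟩
  simp [hk, h.two]

variable [FiniteDimensional F V]

theorem avg [Fintype R] (X : End F V) : ∃ c : F, (∀ v, ∑ r : R, r.1 (X (r.1⁻¹ v)) = c • v) ∧
    c * finrank F V = Nat.card R * LinearMap.trace F V X := by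
  obtain ⟨c, hc⟩ := h.cent (∑ r : R, r.1.conj X) fun s hs v => by
    simp only [LinearMap.sum_apply, map_sum, LinearEquiv.conj_apply_apply]
    exact Fintype.sum_equiv (Equiv.mulLeft (⟨s, hs⟩ : R)⁻¹) _ _ fun r => (ap_inv s _).symm
  refine ⟨c, fun v => by simpa using hc v, ?_⟩
  have := congrArg (LinearMap.trace F V) (LinearMap.ext (g := c • LinearMap.id) hc)
  simpa [LinearMap.trace_conj'] using this.symm

theorem dim_ne [Finite R] [Nontrivial V] : (finrank F V : F) ≠ 0 := by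
  have := Fintype.ofFinite R
  obtain ⟨v, hv⟩ := exists_ne (0 : V)
  obtain ⟨φ, hφ⟩ := Projective.exists_dual_eq_one F hv
  obtain ⟨c, -, hc⟩ := h.avg (φ.smulRight v)
  intro e
  simp [e, hφ, eq_comm (a := (0 : F)), h.card_ne R le_rfl, -Nat.card_eq_fintype_card] at hc

theorem span_eq [Finite R] [Nontrivial V] (S : Submodule F (End F V))
    (hS : ∀ r ∈ R, (r : End F V) ∈ S) : S = ⊤ := by
  have := Fintype.ofFinite R
  refine eq_top_iff.2 fun X _ => ?_
  obtain ⟨X, rfl⟩ := (dualTensorHomEquiv F V V).surjective X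
  induction X with
  | zero => simp
  | add a b ha hb => simpa using add_mem (ha trivial) (hb trivial)
  | tmul φ v =>
    have e : (Nat.card R : F) • dualTensorHomEquiv F V V (φ ⊗ₜ v) =
        (finrank F V : F) • ∑ r : R, φ (r.1⁻¹ v) • (r.1 : End F V) := LinearMap.ext fun u => by
      obtain ⟨c, c1, c2⟩ := h.avg (φ.smulRight u)
      have := c1 v
      simp only [LinearMap.smulRight_apply, map_smul, LinearMap.trace_smulRight] at this c2
      simp [LinearMap.sum_apply, -LinearEquiv.coe_inv, this, smul_smul, ← c2, mul_comm,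
        -Nat.card_eq_fintype_card]
    rw [← S.smul_mem_iff (h.card_ne R le_rfl), e]
    exact S.smul_mem _ (S.sum_mem fun r _ => S.smul_mem _ (hS _ r.2))

theorem exists_XS [Finite F] (hn : 8 ≤ finrank F V) :
    ∃ (A : Type u) (_ : AddCommGroup A) (_ : Module (ZMod 2) A) (_ : FiniteDimensional (ZMod 2) A)
      (π : (V ≃ₗ[F] V) → A) (β : A →ₗ[ZMod 2] A →ₗ[ZMod 2] ZMod 2),
      XS R (R ⊓ ScG F V) (ng F V) π β ∧ 6 ≤ finrank (ZMod 2) A ∧
        (16 ≤ finrank F V → 8 ≤ finrank (ZMod 2) A) := by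
  have : Nontrivial V := nontrivial_of_finrank_pos (R := F) (by omega)
  have : Finite V := finite_of_finite F
  have : Finite (V ≃ₗ[F] V) := Finite.of_injective _ DFunLike.coe_injective
  obtain ⟨A, _, _, _, π, β, hX⟩ := C6.exists_XS (Z := R ⊓ ScG F V) (ng_ne h.two) ⟨h.ng_mem, sc_ng1⟩
    (fun z => h.mem_Z) h.sq
  refine ⟨A, _, _, ‹_›, π, β, hX, ?_⟩
  have : Finite A := finite_of_finite (ZMod 2)
  have := Fintype.ofFinite A
  choose l hl hl' using hX.surj
  have h1 := finrank_le_of_span_eq_top (v := fun a => (l a : End F V)) (h.span_eq _ fun r hr => by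
    obtain ⟨c, hc⟩ := ((hX.eq_iff hr (hl (π r))).1 (hl' _).symm).2
    rw [show (r : End F V) = c • (l (π r) : End F V) from LinearMap.ext fun v => by
      simpa [-LinearEquiv.coe_inv, inv_ap] using hc (l (π r) v)]
    exact Submodule.smul_mem _ _ (Submodule.subset_span ⟨_, rfl⟩))
  rw [finrank_linearMap, card_eq_pow_finrank (K := ZMod 2), ZMod.card] at h1
  have k : ∀ m d, 2 ^ d < m * m → m ≤ finrank F V → d < finrank (ZMod 2) A := fun m d e e' =>
    (Nat.pow_lt_pow_iff_right one_lt_two).1 (e.trans_le ((Nat.mul_le_mul e' e').trans h1))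
  exact ⟨k 8 5 (by norm_num) hn, k 16 7 (by norm_num)⟩

theorem trace_eq {r : V ≃ₗ[F] V} [Finite R] (hr : r ∈ R) (hr' : ¬ Sc r) :
    LinearMap.trace F V r = 0 := by
  by_contra c
  exact hr' (h.mem_Z.2 ⟨hr, fun s hs => (anti_of_sq ng_ng (fun r _ => ng_cm r) h.sq hr hs).elim
    Eq.symm fun e => absurd (trace_of_anti h.two e) c⟩).2

theorem tw [Finite R] [Nontrivial V] {w z : V ≃ₗ[F] V} (hw : w ∈ R)
    (h1 : LinearMap.trace F V z = 0) (h2 : LinearMap.trace F V (w * z : V ≃ₗ[F] V) = 0)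
    (h3 : ∀ r ∈ R, r * w = w * r → r * z * r⁻¹ * z⁻¹ ∈ R) :
    ∃ r ∈ R, r * w = w * r ∧ r * z = ng F V * (z * r) := by
  classical
  have := Fintype.ofFinite R
  by_contra! hcon
  obtain ⟨c, c1, c2⟩ := h.avg z
  obtain ⟨d, d1, d2⟩ := h.avg (w * z : V ≃ₗ[F] V)
  obtain rfl : c = 0 := by simpa [h1, h.dim_ne] using c2
  obtain rfl : d = 0 := by rw [h2] at d2; simpa [h.dim_ne] using d2
  have anti := fun {r s} => anti_of_sq (r := r) (s := s) ng_ng (fun r _ => ng_cm r) h.sq
  have e1 : ∑ r : R, (if r.1 * w = w * r.1 then ((r.1 * z * r.1⁻¹ * z⁻¹ : V ≃ₗ[F] V) : End F V)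
      else 0) = 0 := LinearMap.ext fun v => w.injective <| smul_right_injective V h.two <| by
    have e2 := congrArg w (c1 (z⁻¹ v))
    have e3 := d1 (z⁻¹ v)
    simp only [zero_smul, map_zero, map_sum, LinearMap.sum_apply, Finset.smul_sum,
      LinearMap.zero_apply, smul_zero] at e2 e3 ⊢
    refine Eq.trans ?_ ((congrArg₂ (· + ·) e2 e3).trans (add_zero _))
    rw [← Finset.sum_add_distrib]
    refine Finset.sum_congr rfl fun r _ => ?_
    split_ifs with c
    · rw [two_smul]; congr 1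
      exact (LinearEquiv.congr_fun c _).symm
    · have := LinearEquiv.congr_fun ((anti r.2 hw).resolve_left c) (z (r.1⁻¹ (z⁻¹ v)))
      simp only [LinearEquiv.mul_apply, ng_apply] at this
      simp [-LinearEquiv.coe_inv, this]
  have e2 : ∀ r : R, LinearMap.trace F V (if r.1 * w = w * r.1 then
      ((r.1 * z * r.1⁻¹ * z⁻¹ : V ≃ₗ[F] V) : End F V) else 0) =
      if r.1 ∈ R ⊓ centralizer {w, z} then (finrank F V : F) else 0 := fun r => by
    have hm : r.1 ∈ R ⊓ centralizer {w, z} ↔ r.1 * w = w * r.1 ∧ r.1 * z = z * r.1 := by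
      simp [mem_centralizer_iff, eq_comm, or_imp, forall_and]
    simp only [hm]
    by_cases a : r.1 * w = w * r.1
    swap; · simp [a]
    by_cases b : r.1 * z = z * r.1
    · simp [a, b]
    rw [if_pos a, if_neg fun e => b e.2]
    refine h.trace_eq (h3 _ r.2 a) fun e => ?_
    set b := r.1 * z * r.1⁻¹ * z⁻¹ with hb
    have b2 : r.1 * z = b * (z * r.1) := by rw [hb]; group
    have : r.1 * r.1 * z = z * (r.1 * r.1) := by
      rcases h.sq r.1 r.2 with c | c <;> simp [c, ng_cm]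
    rw [mul_assoc, b2, ← mul_assoc, e.cm, mul_assoc, ← mul_assoc r.1, b2] at this
    rcases e.two (mul_right_cancel (b := z * (r.1 * r.1)) (by
      simpa only [mul_assoc, one_mul] using this)) with c | c
    · exact ‹¬ r.1 * z = z * r.1› (by rw [b2, c, one_mul])
    · exact hcon _ r.2 a (by rw [b2, c])
  have e3 := congrArg (LinearMap.trace F V) e1
  rw [map_sum, Finset.sum_congr rfl fun r _ => e2 r] at e3
  simp only [map_zero, Finset.sum_ite, Finset.sum_const_zero, add_zero,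
    Finset.sum_const, nsmul_eq_mul, mul_eq_zero, h.dim_ne, or_false] at e3
  refine h.card_ne (R ⊓ centralizer {w, z}) inf_le_left ?_
  rw [← e3, ← Fintype.card_subtype, ← Nat.card_eq_fintype_card]
  exact congrArg _ (Nat.card_congr (subgroupOfEquivOfLe inf_le_left).symm.toEquiv)

end ES

end Cfsg.Agent.C6
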