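import Cfsg.Agent.C6.Lin
import Cfsg.Agent.C6.Core

/-! Eigenspaces of involutions and the elements `(1 + a) (1 + b) / 2`. -/

set_option autoImplicit false
set_option linter.unusedSimpArgs false
set_option linter.unusedSectionVars false
set_option linter.unusedVariables false

namespace Cfsg.Agent.C6

open Subgroup Module

variable {F V : Type*} [Field F] [AddCommGroup V] [Module F V]

theorem ap_of_comm {g x : V ≃ₗ[F] V} (e : g * x = x * g) (v : V) : g (x v) = x (g v) :=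
  LinearEquiv.congr_fun e v

theorem ap_of_anti {g x : V ≃ₗ[F] V} (e : g * x = ng F V * (x * g)) (v : V) :
    g (x v) = -x (g v) := LinearEquiv.congr_fun e v

theorem ap_sq {g : V ≃ₗ[F] V} (e : g * g = 1) (v : V) : g (g v) = v := LinearEquiv.congr_fun e v

theorem ap_sq' {g : V ≃ₗ[F] V} (e : g * g = ng F V) (v : V) : g (g v) = -v :=
  LinearEquiv.congr_fun e v

theorem fix_of_comm {g x : V ≃ₗ[F] V} (e : g * x = x * g) {v : V} (hv : x v = v) :
    x (g v) = g v := by rw [← ap_of_comm e, hv]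

theorem comm_ng {g x : V ≃ₗ[F] V} (e : g * x = x * g) : g * (ng F V * x) = ng F V * x * g := by
  rw [← mul_assoc, ng_cm, mul_assoc, e, mul_assoc]

theorem sq_ng {x : V ≃ₗ[F] V} : ng F V * x * (ng F V * x) = x * x :=
  LinearEquiv.ext fun v => by simp

theorem sc_ng_mul {x : V ≃ₗ[F] V} : Sc (ng F V * x) ↔ Sc x :=
  mul_mem_cancel_left (H := ScG F V) sc_ng1

theorem ng_fix {x : V ≃ₗ[F] V} {v : V} : (ng F V * x) v = v ↔ x v = -v := neg_eq_iff_eq_neg

theorem exists_fix {x : V ≃ₗ[F] V} (h1 : x * x = 1) (h0 : ¬ Sc x) : ∃ v, v ≠ 0 ∧ x v = v := by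
  by_contra! c
  refine h0 ⟨-1, fun v => ?_⟩
  by_contra e
  refine c (v + x v) (fun a => e ?_) (by rw [map_add, ap_sq h1, add_comm])
  simpa using eq_neg_of_add_eq_zero_right a

/-- agreement on the `1`-eigenspace of `x` -/
def Ag (x f f' : V ≃ₗ[F] V) : Prop := ∀ v, x v = v → f v = f' v

namespace Ag

variable {x f f' k k' g : V ≃ₗ[F] V}

theorem rfl' : Ag x f f := fun _ _ => rfl

theorem symm (h : Ag x f f') : Ag x f' f := fun v hv => (h v hv).symm

theorem trans (h : Ag x f f') (h' : Ag x f' k) : Ag x f k := fun v hv => (h v hv).trans (h' v hv)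

theorem mul (h : Ag x f f') (h' : Ag x k k') (e : k' * x = x * k') : Ag x (f * k) (f' * k') :=
  fun v hv => by
    rw [LinearEquiv.mul_apply, h' v hv, h _ (fix_of_comm e hv)]; rfl

theorem conj (h : Ag x f f') (e : g * x = x * g) : Ag x (g * f * g⁻¹) (g * f' * g⁻¹) :=
  fun v hv => congrArg g (h _ (fix_of_comm (Commute.inv_left e).eq hv))

theorem inv (h : Ag x f f') (e : f' * x = x * f') : Ag x f⁻¹ f'⁻¹ := fun v hv =>
  f.injective (by rw [ap_inv, h _ (fix_of_comm (Commute.inv_left e).eq hv), ap_inv])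

theorem ext (h2 : (2 : F) ≠ 0) (h1 : x * x = 1) (h : Ag x f f') (h' : Ag (ng F V * x) f f') :
    f = f' := LinearEquiv.ext fun v => smul_right_injective V h2 <| by
  have e : (2 : F) • v = (v + x v) + (v - x v) := by module
  have a := h (v + x v) (by rw [map_add, ap_sq h1, add_comm])
  have b := h' (v - x v) (ng_fix.2 (by rw [map_sub, ap_sq h1, neg_sub]))
  simp only [← map_smul, e]
  rw [map_add f, map_add f', a, b]

theorem ne (h2 : (2 : F) ≠ 0) (h1 : x * x = 1) (h0 : ¬ Sc x) (h : Ag x f (ng F V * f)) : False := by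
  obtain ⟨v, v0, v1⟩ := exists_fix h1 h0
  exact v0 (f.map_eq_zero_iff.1 (eq_zero_of_neg h2 (h v v1)))

end Ag

theorem tau_cj (h0 : ng F V ≠ 1) {a z : V ≃ₗ[F] V} (ha : a * a = ng F V) (h : PM (ng F V) a z)
    (v : V) : z v + a (z v) = cj a z (v + a v) := by
  rcases h with h | h
  · rw [cj_of_comm h, map_add, ap_of_comm h]
  · rw [cj_of_anti h0 h, LinearEquiv.mul_apply, map_add, map_add, ap_of_anti h (a v), ap_sq' ha]
    simp [add_comm]

namespace IsD

variable {a b g a' b' g' x u : V ≃ₗ[F] V}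

theorem cj_eq (h2 : (2 : F) ≠ 0) (h0 : ng F V ≠ 1) (h : IsD a b g) (ha : a * a = ng F V)
    (hb : b * b = ng F V) {z : V ≃ₗ[F] V} (h1 : PM (ng F V) b z) (h3 : PM (ng F V) a (cj b z)) :
    g * z * g⁻¹ = cj a (cj b z) := by
  rw [mul_inv_eq_iff_eq_mul]
  refine LinearEquiv.ext fun v => smul_right_injective V h2 ?_
  simp only [LinearEquiv.mul_apply, ← map_smul (cj a _), h _]
  rw [tau_cj h0 hb h1, tau_cj h0 ha h3]

theorem cnj (h : IsD a b g) (u : V ≃ₗ[F] V) :
    IsD (u * a * u⁻¹) (u * b * u⁻¹) (u * g * u⁻¹) := fun v => by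
  simp only [LinearEquiv.mul_apply, ← map_smul u, h _, map_add, inv_ap, ap_inv]

theorem ag (h2 : (2 : F) ≠ 0) (h : IsD a b g) (h' : IsD a' b' g') (ha : Ag x a a') (hb : Ag x b b')
    (e : b' * x = x * b') : Ag x g g' := fun v hv => smul_right_injective V h2 <| by
  simp only [h _, h' _, hb v hv]
  rw [ha _ (by rw [map_add, hv, fix_of_comm e hv])]

theorem isC (h2 : (2 : F) ≠ 0) (h : IsD a (ng F V * (x * a)) g) (ha : a * a = ng F V)
    (e : a * x = x * a) : Ag x g 1 ∧ Ag (ng F V * x) g a := by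
  refine ⟨fun v hv => smul_right_injective V h2 ?_, fun v hv => smul_right_injective V h2 ?_⟩
  · simp [h _, ← ap_of_comm e, hv, ap_sq' ha, two_smul]
  · simp [h _, ← ap_of_comm e, ng_fix.1 hv, ap_sq' ha, two_smul]; abel

end IsD

theorem isC_cj (h2 : (2 : F) ≠ 0) {x s k : V ≃ₗ[F] V} (h1 : x * x = 1) (hs : s * s = 1)
    (e : x * s = s * x) (k1 : Ag x k 1) (k2 : Ag (ng F V * x) k s) :
    (∀ z, x * z = z * x → s * z = z * s → k * z = z * k) ∧ ∀ z, x * z = ng F V * (z * x) →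
      (s * z = z * s → k * z * k⁻¹ = s * z) ∧
      (s * z = ng F V * (z * s) → k * z * k⁻¹ = ng F V * x * s * z) := by
  have k3 : ∀ v, x v = v → k v = v := k1
  have k4 : ∀ v, x v = -v → k v = s v := fun v hv => k2 v (ng_fix.2 hv)
  refine ⟨fun z a b => Ag.ext h2 h1 (fun v hv => ?_) fun v hv => ?_, fun z a =>
    ⟨fun b => mul_inv_eq_iff_eq_mul.2 (Ag.ext h2 h1 (fun v hv => ?_) fun v hv => ?_),
    fun b => mul_inv_eq_iff_eq_mul.2 (Ag.ext h2 h1 (fun v hv => ?_) fun v hv => ?_)⟩⟩ <;>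
    simp only [LinearEquiv.mul_apply, ng_apply, neg_eq_iff_eq_neg] at hv ⊢
  · rw [k3 v hv, k3 _ (by rw [ap_of_comm a, hv])]
  · rw [k4 v hv, k4 _ (by rw [ap_of_comm a, hv, map_neg]), ap_of_comm b]
  · rw [k3 v hv, k4 _ (by rw [ap_of_anti a, hv])]
  · rw [k4 v hv, k3 _ (by rw [ap_of_anti a, hv, map_neg, neg_neg]), ap_of_comm b, ap_sq hs]
  · rw [k3 v hv, k4 _ (by rw [ap_of_anti a, hv]), ap_of_comm e, ap_of_anti a, hv, map_neg, neg_neg]
  · rw [k4 v hv, k3 _ (by rw [ap_of_anti a, hv, map_neg, neg_neg]), ap_of_anti b, ap_sq hs, map_neg,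
      ap_of_anti a, hv, map_neg, neg_neg, neg_neg]

/-- `g r g⁻¹` agrees with `s` on the `1`-eigenspace of `y` -/
def Rho (y g r s : V ≃ₗ[F] V) : Prop := s * y = y * s ∧ Ag y (g * r * g⁻¹) s

namespace Rho

variable {y g k r s r' s' : V ≃ₗ[F] V}

theorem mul (h : Rho y g r s) (h' : Rho y g r' s') : Rho y g (r * r') (s * s') :=
  ⟨(Commute.mul_left h.1 h'.1).eq, by simpa only [conj_mul] using h.2.mul h'.2 h'.1⟩

theorem symm (h : Rho y g r s) (e : g * y = y * g) (e' : r * y = y * r) : Rho y g⁻¹ s r :=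
  ⟨e', by simpa [mul_assoc] using (h.2.conj (Commute.inv_left e).eq).symm⟩

theorem comp (h : Rho y (g * k) r s) (h' : Rho y k r r') (e : g * y = y * g) : Rho y g r' s :=
  ⟨h.1, (h'.2.conj e).symm.trans (by simpa only [mul_assoc, mul_inv_rev] using h.2)⟩

theorem congr (h : Rho y g r s) (h' : Ag y k g) (e : g * y = y * g) (e' : r * y = y * r) :
    Rho y k r s :=
  ⟨h.1, ((h'.mul Ag.rfl' e').mul (h'.inv e) (Commute.inv_left e).eq).trans h.2⟩

variable {R Z : Subgroup (V ≃ₗ[F] V)} {A : Type*} [AddCommGroup A] [Module (ZMod 2) A]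
  {π : (V ≃ₗ[F] V) → A} {β : A →ₗ[ZMod 2] A →ₗ[ZMod 2] ZMod 2} (h : XS R Z (ng F V) π β)
  (h2 : (2 : F) ≠ 0) (y1 : y * y = 1) (y2 : ¬ Sc y)
include h h2 y1 y2

theorem comm (a : Rho y g r s) (a' : Rho y g r' s') (hs : s ∈ R) (hs' : s' ∈ R)
    (e : r * r' = r' * r) : s * s' = s' * s :=
  (h.anti hs hs').resolve_right fun c =>
    Ag.ne h2 y1 y2 (c ▸ (a'.mul a).2.symm.trans (e ▸ (a.mul a').2))

theorem sq (a : Rho y g r s) (hr : r ∈ R) (hs : s ∈ R) : s * s = r * r := by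
  have := (a.mul a).2
  rcases h.sq r hr with c | c <;> rcases h.sq s hs with d | d <;> rw [c, d] at this ⊢
  · exact (Ag.ne h2 y1 y2 (f := 1) (by simpa using this)).elim
  · exact (Ag.ne h2 y1 y2 (f := 1) (by simpa [ng_cm] using this.symm)).elim

theorem memZ (yc : ∀ r ∈ R, r * y = y * r) (a : Rho y g r s) (e : g * y = y * g) (hs : s ∈ R)
    {c : F} (hc : ∀ v, y v = v → r v = c • v) : s ∈ Z := by
  by_contra s0
  obtain ⟨t, ht, e'⟩ := h.exists_anti hs s0
  have k : ∀ v, y v = v → s v = c • v := fun v hv => by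
    rw [← a.2 v hv]
    simp only [LinearEquiv.mul_apply, hc _ (fix_of_comm (Commute.inv_left e).eq hv), map_smul,
      ap_inv]
  refine Ag.ne h2 y1 y2 (f := t * s) fun v hv => ?_
  rw [← e']
  simp only [LinearEquiv.mul_apply, k v hv, k _ (fix_of_comm (yc t ht) hv), map_smul]

end Rho

end Cfsg.Agent.C6
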