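import Cfsg.Agent.C6.Lin2

/-! The main theorem on overgroups of `2`-groups of symplectic type. -/

set_option autoImplicit false
set_option linter.unusedSimpArgs false
set_option linter.unusedSectionVars false
set_option linter.unusedVariables false

namespace Cfsg.Agent.C6

open Subgroup Module

variable {F V : Type*} [Field F] [AddCommGroup V] [Module F V]

theorem stepA [Finite (V ≃ₗ[F] V)] {R M : Subgroup (V ≃ₗ[F] V)} {A : Type*} [AddCommGroup A]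
    [Module (ZMod 2) A] [FiniteDimensional (ZMod 2) A] {π : (V ≃ₗ[F] V) → A}
    {β : A →ₗ[ZMod 2] A →ₗ[ZMod 2] ZMod 2} (h : XS R (R ⊓ ScG F V) (ng F V) π β) (h2 : (2 : F) ≠ 0)
    (hd : 5 ≤ finrank (ZMod 2) A)
    (hO : (∃ i ∈ R, Sc i ∧ i * i = ng F V) ∨ 7 ≤ finrank (ZMod 2) A ∨ NoThree R)
    (hD : HasD R M) (hN : HasN R M) {x : V ≃ₗ[F] V} (hx : x ∈ R) (x2 : ¬ Sc x) (x1 : x * x = 1)
    {g : V ≃ₗ[F] V} (hg : g ∈ M) (gx : g * x = x * g) {r : V ≃ₗ[F] V} (hr : r ∈ R)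
    (rx : r * x = x * r) : g * r * g⁻¹ ∈ R := by
  obtain ⟨W, π', β', h', hd'⟩ := h.sub hx fun e => x2 e.2
  have hR : ∀ r, r ∈ R ⊓ centralizer {x} ↔ r ∈ R ∧ r * x = x * r := fun u =>
    and_congr_right fun _ => mem_centralizer_singleton_iff
  have hZ : ∀ r, r ∈ h.Zx x ↔ r ∈ R ⊓ ScG F V ∨ r * x ∈ R ⊓ ScG F V := fun r => h.mem_Zx hx
  generalize R ⊓ centralizer {x} = R' at *
  generalize h.Zx x = Z' at *
  have y1 : ng F V * x * (ng F V * x) = 1 := sq_ng.trans x1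
  have y2 : ¬ Sc (ng F V * x) := mt sc_ng_mul.1 x2
  have xc : ∀ r ∈ R', r * x = x * r := fun r hr => ((hR r).1 hr).2
  have yc : ∀ r ∈ R', r * (ng F V * x) = ng F V * x * r := fun r hr => comm_ng (xc r hr)
  have xz : ∀ z ∈ Z', ∃ c : F, ∀ v, x v = v → z v = c • v := fun z hz =>
    ((hZ z).1 hz).elim (fun ⟨_, c, hc⟩ => ⟨c, fun v _ => hc v⟩)
      fun ⟨_, c, hc⟩ => ⟨c, fun v hv => by rw [← hc v, LinearEquiv.mul_apply, hv]⟩
  have yz : ∀ z ∈ Z', ∃ c : F, ∀ v, (ng F V * x) v = v → z v = c • v := fun z hz =>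
    ((hZ z).1 hz).elim (fun ⟨_, c, hc⟩ => ⟨c, fun v _ => hc v⟩)
      fun ⟨_, c, hc⟩ => ⟨-c, fun v hv => by
        rw [neg_smul, ← hc v, LinearEquiv.mul_apply, ng_fix.1 hv, map_neg, neg_neg]⟩
  have Nx : ∀ k ∈ M, k * x = x * k → ∀ r ∈ R', ∃ s ∈ R', Rho x k r s := fun k hk e r hr =>
    let ⟨s, s1, s2, s3⟩ := hN x hx x1 x2 k hk e r ((hR r).1 hr).1 (xc r hr)
    ⟨s, (hR s).2 ⟨s1, s2⟩, s2, s3⟩
  have Ny : ∀ k ∈ M, k * x = x * k → ∀ r ∈ R', ∃ s ∈ R', Rho (ng F V * x) k r s :=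
    fun k hk e r hr =>
      let ⟨s, s1, s2, s3⟩ := hN _ (mul_mem h.εR hx) y1 y2 k hk (comm_ng e) r ((hR r).1 hr).1 (yc r hr)
      ⟨s, (hR s).2 ⟨s1, by simpa only [← mul_assoc, ng_ng, one_mul] using comm_ng s2⟩, s2, s3⟩
  have iff1 : ∀ k, k * x = x * k → ∀ r ∈ R', ∀ s ∈ R', Rho x k r s → (r ∈ Z' ↔ s ∈ Z') :=
    fun k e r hr s hs a => ⟨fun b => a.memZ h' h2 x1 x2 xc e hs (xz r b).choose_spec, fun b =>
      (a.symm e (xc r hr)).memZ h' h2 x1 x2 xc (Commute.inv_left e).eq hr (xz s b).choose_spec⟩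
  have iff2 : ∀ k, k * x = x * k → ∀ r ∈ R', ∀ s ∈ R', Rho (ng F V * x) k r s →
      (r ∈ Z' ↔ s ∈ Z') := fun k e r hr s hs a =>
    ⟨fun b => a.memZ h' h2 y1 y2 yc (comm_ng e) hs (yz r b).choose_spec, fun b =>
      (a.symm (comm_ng e) (yc r hr)).memZ h' h2 y1 y2 yc (Commute.inv_left (comm_ng e)).eq hr
        (yz s b).choose_spec⟩
  have fx : ∀ k, ∀ r ∈ R', ∀ s ∈ R', ∀ t ∈ R', Rho x k r s → Rho (ng F V * x) k r t → π' t = π' s →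
      k * r * k⁻¹ = s ∨ k * r * k⁻¹ = x * s := fun k r hr s hs t ht a b e => by
    have e1 := (h'.eq_iff ht hs).1 e
    have e2 := h'.sq_mul e1 hs
    rw [inv_mul_cancel_right, b.sq h' h2 y1 y2 hr ht, a.sq h' h2 x1 x2 hr hs, eq_comm,
      mul_eq_right] at e2
    obtain ⟨c, hc⟩ := yz _ e1
    obtain ⟨v, v0, v1⟩ := exists_fix y1 y2
    have e3 := ap_sq e2 v
    rw [hc v v1, map_smul, hc v v1, smul_smul] at e3
    have e4 : ∀ v, (ng F V * x) v = v → t v = c • s v := fun v hv => by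
      rw [← hc _ (fix_of_comm (yc s hs) hv), LinearEquiv.mul_apply, inv_ap]
    rcases mul_self_eq_one_iff.1 (smul_left_injective F v0 (e3.trans (one_smul _ _).symm)) with
      rfl | rfl
    · exact Or.inl (a.2.ext h2 x1 (b.2.trans fun v hv => by simp [e4 v hv]))
    · exact Or.inr (Ag.ext h2 x1 (a.2.trans fun v hv => (fix_of_comm (xc s hs) hv).symm)
        (b.2.trans fun v hv => by simp [e4 v hv, ← ap_of_comm (xc s hs), ng_fix.1 hv]))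
  let ρ : (V ≃ₗ[F] V) → (V ≃ₗ[F] V) → Prop := fun r s =>
    ∃ t ∈ R', Rho x g t r ∧ Rho (ng F V * x) g t s
  have gx' : g⁻¹ * x = x * g⁻¹ := (Commute.inv_left gx).eq
  have ρ1 : ∀ r ∈ R', ∃ s ∈ R', ρ r s := fun r hr => by
    obtain ⟨t, ht, a⟩ := Nx _ (inv_mem hg) gx' r hr
    obtain ⟨s, hs, b⟩ := Ny g hg gx t ht
    exact ⟨s, hs, t, ht, by simpa using a.symm gx' (xc r hr), b⟩
  have ρ2 : ∀ s ∈ R', ∃ r ∈ R', ρ r s := fun s hs => by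
    obtain ⟨t, ht, a⟩ := Ny _ (inv_mem hg) gx' s hs
    obtain ⟨r, hr, b⟩ := Nx g hg gx t ht
    exact ⟨r, hr, t, ht, b, by simpa using a.symm (comm_ng gx') (yc s hs)⟩
  have ρ3 : ∀ r ∈ R', ∀ s ∈ R', ρ r s → s * s = r * r := fun r hr s hs ⟨t, ht, a, b⟩ =>
    (b.sq h' h2 y1 y2 ht hs).trans (a.sq h' h2 x1 x2 ht hr).symm
  obtain ⟨φ, hφ⟩ := h'.exists_lin ρ ρ1
    (fun r s r' s' ⟨t, ht, a, b⟩ ⟨t', ht', a', b'⟩ => ⟨_, mul_mem ht ht', a.mul a', b.mul b'⟩)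
    fun r hr s hs ⟨t, ht, a, b⟩ => (iff1 g gx t ht r hr a).symm.trans (iff2 g gx t ht s hs b)
  by_cases h1 : φ = 1
  · have hr' := (hR r).2 ⟨hr, rx⟩
    obtain ⟨s, hs, a⟩ := Nx g hg gx r hr'
    obtain ⟨t, ht, b⟩ := Ny g hg gx r hr'
    rcases fx g r hr' s hs t ht a b (by rw [← hφ s hs t ht ⟨r, hr', a, b⟩, h1]; rfl) with e | e <;>
      rw [e]
    exacts [((hR s).1 hs).1, mul_mem hx ((hR s).1 hs).1]
  exfalso
  let L : Subgroup ((V ≃ₗ[F] V) × (W ≃ₗ[ZMod 2] W)) :=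
    { carrier := {p | p.1 ∈ M ∧ p.1 * x = x * p.1 ∧
        ∀ r ∈ R', ∀ s ∈ R', Rho (ng F V * x) p.1 r s → p.2 (π' r) = π' s}
      one_mem' := ⟨one_mem _, by simp, fun r hr s hs a => ((h'.eq_iff hs hr).2
        ((iff2 1 (by simp) _ (mul_mem hr (inv_mem hr)) _ (mul_mem hs (inv_mem hr))
          (a.mul ⟨yc _ (inv_mem hr), by simpa using Ag.rfl'⟩)).1 (by simp))).symm⟩
      mul_mem' := by
        rintro ⟨k, σ⟩ ⟨l, τ⟩ ⟨k1, k2, k3⟩ ⟨l1, l2, l3⟩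
        refine ⟨mul_mem k1 l1, (Commute.mul_left k2 l2).eq, fun r hr s hs a => ?_⟩
        obtain ⟨t, ht, b⟩ := Ny l l1 l2 r hr
        exact (congrArg σ (l3 r hr t ht b)).trans (k3 t ht s hs (a.comp b (comm_ng k2)))
      inv_mem' := by
        rintro ⟨k, σ⟩ ⟨k1, k2, k3⟩
        refine ⟨inv_mem k1, (Commute.inv_left k2).eq, fun r hr s hs a => σ.injective ?_⟩
        exact (ap_inv σ _).trans (k3 s hs r hr (by
          simpa using a.symm (comm_ng (Commute.inv_left k2).eq) (yc r hr))).symm }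
  have LD : ∀ a ∈ R', ∀ b ∈ R', a * a = ng F V → b * b = ng F V → ∃ d, IsD a b d ∧
      (d, tr h'.alt (π' a) * tr h'.alt (π' b)) ∈ L := fun a ha b hb a1 b1 => by
    obtain ⟨d, d1, d2⟩ := hD a ((hR a).1 ha).1 b ((hR b).1 hb).1 a1 b1
    have d3 : ∀ r ∈ R', d * r * d⁻¹ = cj a (cj b r) := fun r hr =>
      d2.cj_eq h2 h.ε1 a1 b1 (h'.anti hb hr) (h'.anti ha (cj_mem hb hr))
    refine ⟨d, d2, d1, ?_, fun r hr s hs e => ?_⟩
    · rw [← mul_inv_eq_iff_eq_mul, d3 x ((hR x).2 ⟨hx, rfl⟩), cj_of_comm (xc b hb),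
        cj_of_comm (xc a ha)]
    · have hm := cj_mem ha (cj_mem hb hr)
      refine Eq.trans ?_ (L.one_mem.2.2 _ hm s hs ⟨e.1, by simpa [← d3 r hr] using e.2⟩)
      rw [Prod.snd_one, LinearEquiv.coe_one, id, h'.π_cj ha (cj_mem hb hr), h'.π_cj hb hr]; rfl
  let K : Subgroup (W ≃ₗ[ZMod 2] W) :=
    { carrier := {σ | ∃ k, (k, σ) ∈ L ∧ Ag x k 1}
      one_mem' := ⟨1, one_mem L, Ag.rfl'⟩
      mul_mem' := by
        rintro σ τ ⟨k, k1, k2⟩ ⟨l, l1, l2⟩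
        exact ⟨_, mul_mem k1 l1, by simpa using k2.mul l2 (by simp)⟩
      inv_mem' := by
        rintro σ ⟨k, k1, k2⟩
        exact ⟨_, inv_mem k1, by simpa using k2.inv (by simp)⟩ }
  have hO' : (∀ a, SQ R' π' (ng F V) a) ∨ 5 ≤ finrank (ZMod 2) W ∨ NoPl β' (SQ R' π' 1) := by
    refine hO.imp (fun ⟨i, i1, i2, i3⟩ a => (h'.tyP ((hZ i).2 (Or.inl ⟨i1, i2⟩)) i3 a).1)
      (Or.imp (fun e => by omega) ?_)
    rintro e _ _ ⟨s, hs, rfl, s1⟩ ⟨t, ht, rfl, t1⟩ st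
    obtain ⟨s2, s3⟩ := (hR s).1 hs
    obtain ⟨t2, t3⟩ := (hR t).1 ht
    rw [← add_eq_zero' (a := π' s) (b := π' t), ← h'.mul s hs t ht, h'.ker s hs, h'.ker t ht,
      h'.ker _ (mul_mem hs ht), hZ, hZ, hZ, s3, t3, xc _ (mul_mem hs ht), ← mul_assoc]
    have := e x hx s s2 t t2 x1 s1 t1 s3.symm t3.symm ((h'.comm s hs t ht).1 st)
    simp only [mem_inf, mem_ScG, s2, t2, hx, mul_mem, true_and]
    tauto
  obtain ⟨_, _, ⟨a, ha, rfl, a1⟩, ⟨c, hc, rfl, c1⟩, ac, k, ⟨k1, k2, k3⟩, k4⟩ :=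
    g1 h'.alt h'.nd h'.ty K (by
      rintro _ _ ⟨a, ha, rfl, a1⟩ ⟨b, hb, rfl, b1⟩ σ ⟨k, k1, k2⟩
      obtain ⟨d, -, d1⟩ := LD a ha b hb a1 b1
      have d2 := L.mul_mem (L.mul_mem d1 k1) (L.inv_mem d1)
      simp only [Prod.mk_mul_mk, Prod.inv_mk] at d2
      exact ⟨d * k * d⁻¹, d2, by simpa using k2.conj d1.2.1⟩)
    (by omega) hO' (h'.iso_of ρ ρ1 hφ fun r hr s hs r' hr' s' hs' ⟨t, ht, a, b⟩ ⟨t', ht', a', b'⟩ =>
      ⟨fun e => b.comm h' h2 y1 y2 b' hs hs' ((a.symm gx (xc t ht)).comm h' h2 x1 x2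
        (a'.symm gx (xc t' ht')) ht ht' e), fun e => a.comm h' h2 x1 x2 a' hr hr'
        ((b.symm (comm_ng gx) (yc t ht)).comm h' h2 y1 y2 (b'.symm (comm_ng gx) (yc t' ht')) ht ht' e)⟩)
    (fun a => ⟨fun ⟨s, hs, e, s1⟩ => by
      obtain ⟨r, hr, b⟩ := ρ2 s hs
      exact ⟨r, hr, φ.injective ((hφ r hr s hs b).trans e), (ρ3 r hr s hs b).symm.trans s1⟩,
      fun ⟨r, hr, e, r1⟩ => by
      obtain ⟨s, hs, b⟩ := ρ1 r hr
      exact ⟨s, hs, e ▸ (hφ r hr s hs b).symm, (ρ3 r hr s hs b).trans r1⟩⟩) h1 (by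
      rintro _ _ ⟨a, ha, rfl, a1⟩ ⟨b, hb, rfl, b1⟩
      obtain ⟨a', ha', ρa⟩ := ρ1 a ha
      obtain ⟨b', hb', ρb⟩ := ρ1 b hb
      obtain ⟨d1, e1, l1⟩ := LD a ha b hb a1 b1
      obtain ⟨d2, e2, l2⟩ := LD a' ha' b' hb' ((ρ3 a ha a' ha' ρa).trans a1)
        ((ρ3 b hb b' hb' ρb).trans b1)
      rw [hφ a ha a' ha' ρa, hφ b hb b' hb' ρb]
      obtain ⟨s, hs, s1, s2⟩ := ρa
      obtain ⟨t, ht, t1, t2⟩ := ρb
      obtain ⟨d0, e0, l0⟩ := LD s hs t ht ((s1.sq h' h2 x1 x2 hs ha).symm.trans a1)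
        ((t1.sq h' h2 x1 x2 ht hb).symm.trans b1)
      have l3 : (g * d0 * g⁻¹, tr h'.alt (π' a') * tr h'.alt (π' b')) ∈ L :=
        ⟨mul_mem (mul_mem hg l0.1) (inv_mem hg), ((Commute.mul_left gx l0.2.1).mul_left gx').eq,
          fun r hr u hu e => l2.2.2 r hr u hu (e.congr (((e0.cnj g).ag h2 e2 s2.2 t2.2 t2.1).symm)
            (comm_ng ((Commute.mul_left gx l0.2.1).mul_left gx').eq) (yc r hr))⟩
      refine ⟨_, by simpa [tr_inv, mul_assoc] using mul_mem (inv_mem l1) l3, ?_⟩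
      simpa [mul_assoc] using (Ag.rfl' (f := d1⁻¹)).mul ((e0.cnj g).ag h2 e1 s1.2 t1.2 t1.1) l1.2.1)
  obtain ⟨u, hu, u0, u1, au, cu⟩ := h'.exists_inv (by omega) ha hc a1 c1 ((h'.one_iff ha hc).1 ac) hO'
  rw [hZ, not_or] at u0
  obtain ⟨u2, u3⟩ := (hR u).1 hu
  have ku : k * k * u = u * (k * k) := by
    obtain ⟨t, ht, b⟩ := Ny k k1 k2 u hu
    have := fx k u hu u hu t ht ⟨u3, by simpa using (k4.mul Ag.rfl' u3).mul (k4.inv (by simp)) (by simp)⟩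
      b (by rw [← k3 u hu t ht b, LinearEquiv.mul_apply, tr_of_zero _ ((h'.comm c hc u hu).2 cu),
        tr_of_zero _ ((h'.comm a ha u hu).2 au)])
    simp only [mul_inv_eq_iff_eq_mul] at this
    rcases this with e | e
    · exact (Commute.mul_left e e).eq
    · rw [mul_assoc, e, ← mul_assoc, ← mul_assoc, k2, mul_assoc x, e]
      simp only [← mul_assoc, x1, one_mul]
  obtain ⟨l1, l2, l3⟩ := L.mul_mem (show (k, _) ∈ L from ⟨k1, k2, k3⟩) ⟨k1, k2, k3⟩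
  have l4 : Ag x (k * k) 1 := by simpa using k4.mul k4 (by simp)
  simp only [Prod.mk_mul_mk] at l1 l2 l3
  generalize k * k = l at *
  obtain ⟨y, hy, xy, uy⟩ := h.exists_two hx u2 (fun e => x2 e.2) (u3 ▸ u0.2)
  have u4 : ¬ Sc u := fun e => u0.1 ⟨u2, e⟩
  obtain ⟨s, hs, -, s2⟩ := hN u u2 u1 u4 l l1 ku y hy uy.symm
  have e1 : ∀ v, u v = v → x v = -v → l v = (s * y⁻¹) v := fun v a b => by
    have e : x (y⁻¹ v) = y⁻¹ v := y.injective (by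
      rw [← neg_inj, ← ap_of_anti xy, ap_inv, b])
    rw [LinearEquiv.mul_apply, ← s2 _ (fix_of_comm (Commute.inv_right uy).eq.symm a),
      (l4.inv (by simp)) _ e]
    simp [-LinearEquiv.coe_inv, ap_inv]
  obtain ⟨t, ht, b⟩ := Ny l l1 l2 a ha
  have e2 : a * t = ng F V * (t * a) := (h'.one_iff ha ht).1 (by
    rw [← l3 a ha t ht b]
    simp [tr_apply, ac, h'.alt.alt, h'.alt.symm (π' c) (π' a), z11])
  obtain ⟨η, e3⟩ : ∃ η : F, ∀ v, (s * y⁻¹) (a v) = η • a ((s * y⁻¹) v) :=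
    (h.anti (mul_mem hs (inv_mem hy)) ((hR a).1 ha).1).elim (fun e => ⟨1, fun v => by
      rw [ap_of_comm e, one_smul]⟩) fun e => ⟨-1, fun v => by rw [ap_of_anti e, neg_one_smul]⟩
  have e4 : ∀ v, u v = v → x v = -v → t v = η • a v := fun v v1 v2 => by
    have v3 := fix_of_comm (Commute.inv_left ku).eq v1
    have v4 := ng_fix.1 (fix_of_comm (comm_ng (Commute.inv_left l2).eq) (ng_fix.2 v2))
    rw [← b.2 v (ng_fix.2 v2), LinearEquiv.mul_apply, LinearEquiv.mul_apply,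
      e1 _ (fix_of_comm au v3) (by rw [← ap_of_comm (xc a ha), v4, map_neg]), e3, ← e1 _ v3 v4, ap_inv]
  obtain ⟨v, v0, v1, v2⟩ : ∃ v, v ≠ 0 ∧ u v = v ∧ x v = -v := by
    obtain ⟨v, v0, v1⟩ := exists_fix u1 u4
    by_cases e : x v = v
    · exact ⟨y v, by simpa, fix_of_comm uy.symm v1, by rw [ap_of_anti xy, e]⟩
    · exact ⟨v - x v, sub_ne_zero.2 (Ne.symm e), by rw [map_sub, ap_of_comm u3, v1],
        by rw [map_sub, ap_sq x1, neg_sub]⟩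
  have e5 := ap_of_anti e2 v
  rw [e4 _ (fix_of_comm au v1) (by rw [← ap_of_comm (xc a ha), v2, map_neg]), ← map_smul a,
    ← e4 v v1 v2] at e5
  exact v0 (t.map_eq_zero_iff.1 (a.map_eq_zero_iff.1 (eq_zero_of_neg h2 e5)))

theorem main [Finite F] [FiniteDimensional F V] : MainStmt F V := by
  intro R M hE hn hO RM hD _ hN
  have : Nontrivial V := nontrivial_of_finrank_pos (R := F) (by omega)
  have : Finite V := finite_of_finite F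
  have : Finite (V ≃ₗ[F] V) := Finite.of_injective _ DFunLike.coe_injective
  obtain ⟨A, _, _, _, π, β, h, hd, hd'⟩ := hE.exists_XS hn
  have h2 := hE.two
  refine CH.main (Z := R ⊓ ScG F V) ⟨RM, fun z hz g => Sc.cm hz.2 g, fun c hc => Sc.two hc.2, fun a ha b hb a1 b1 =>
    let ⟨k, k1, k2⟩ := hD a ha b hb a1 b1
    ⟨k, k1, fun z => k2.cj_eq h2 h.ε1 a1 b1⟩, fun x hx s hs x0 x1 s1 e => ?_,
    fun x hx x0 x1 g hg gx r hr rx => stepA h h2 (by omega)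
      (hO.imp_right (Or.imp_left fun e => by have := hd' e; omega)) hD hN hx (fun e => x0 ⟨hx, e⟩)
      x1 hg gx hr rx,
    fun w hw g hg e x hx x0 x1 => hE.tw hw
      (by rw [trace_cj, hE.trace_eq hx fun e => x0 ⟨hx, e⟩])
      (by rw [← mul_assoc, ← mul_assoc, ← e, mul_assoc g, trace_cj,
        hE.trace_eq (mul_mem hw hx) fun e => x1 ⟨mul_mem hw hx, e⟩])⟩ h (by omega)
  obtain ⟨W, π', β', h', hd'⟩ := h.sub hx x0
  have key : ∀ a ∈ R, a * a = ng F V → a * x = x * a → ∃ k ∈ M, Ag x k 1 ∧ Ag (ng F V * x) k a :=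
    fun a ha a1 a2 => by
      obtain ⟨k, k1, k2⟩ := hD a ha _ (mul_mem hE.ng_mem (mul_mem hx ha)) a1 (by
        rw [sq_ng, mul_assoc, ← mul_assoc a, a2, mul_assoc, a1, ← mul_assoc, x1, one_mul])
      exact ⟨k, k1, k2.isC h2 a1 a2⟩
  obtain ⟨t, ⟨t1, t2⟩, t3, t4⟩ := h'.exists_ns (by omega)
    (show s ∈ R ⊓ centralizer {x} from ⟨hs, mem_centralizer_singleton_iff.2 e.symm⟩)
  replace t2 : t * x = x * t := mem_centralizer_singleton_iff.1 t2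
  have st : s * t⁻¹ * x = x * (s * t⁻¹) := (Commute.mul_left e.symm (Commute.inv_left t2)).eq
  obtain ⟨k, k1, k2, k3⟩ := key t t1 t3 t2
  obtain ⟨l, l1, l2, l3⟩ := key (s * t⁻¹) (mul_mem hs (inv_mem t1)) (by
    rw [mul_assoc, ← mul_assoc t⁻¹, ← (Commute.inv_right t4).eq, mul_assoc, ← mul_inv_rev, t3,
      ← mul_assoc, s1, one_mul, inv_eq_of_mul_eq_one_right ng_ng]) st
  exact ⟨l * k, mul_mem l1 k1, isC_cj h2 x1 s1 e (by simpa using l2.mul k2 (by simp))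
    (by simpa using l3.mul k3 (comm_ng t2))⟩

end Cfsg.Agent.C6
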