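import Cfsg.Agent.C6.Core

/-! Overgroups of an extraspecial `2`-group in which quaternion subgroups have small centralisers. -/

set_option autoImplicit false
set_option linter.unusedSimpArgs false
set_option linter.unusedSectionVars false
set_option linter.unusedVariables false

namespace Cfsg.Agent.C6

open Subgroup Module

section

variable {Q : Type*} [Group Q] [Finite Q]

theorem fpf_inv {Y : Subgroup Q} {u : Q} (hu : u * u = 1) (h1 : ∀ y ∈ Y, u * y * u⁻¹ ∈ Y)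
    (h2 : ∀ y ∈ Y, u * y = y * u → y = 1) {y : Q} (hy : y ∈ Y) : u * y * u⁻¹ = y⁻¹ := by
  let f : Y → Y := fun y => ⟨y.1⁻¹ * (u * y * u⁻¹), mul_mem (inv_mem y.2) (h1 _ y.2)⟩
  obtain ⟨z, hz⟩ := Finite.surjective_of_injective (f := f) (fun a b e => by
    have e := congrArg Subtype.val e
    have := h2 _ (mul_mem b.2 (inv_mem a.2)) (by
      rw [← mul_inv_eq_iff_eq_mul, show u * (b.1 * a.1⁻¹) * u⁻¹ =
        b * (b.1⁻¹ * (u * b * u⁻¹)) * (u * a * u⁻¹)⁻¹ by group]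
      exact (congrArg (b.1 * · * (u * a * u⁻¹)⁻¹) e.symm).trans (by simp [f, mul_assoc]))
    exact Subtype.ext (mul_inv_eq_one.1 this).symm) ⟨y, hy⟩
  obtain rfl : z.1⁻¹ * (u * z * u⁻¹) = y := congrArg Subtype.val hz
  rw [show u * (z.1⁻¹ * (u * z * u⁻¹)) * u⁻¹ = u * z.1⁻¹ * (u * u) * u⁻¹ * z * (u * u)⁻¹ by group, hu]
  group

theorem fpf_three {O : Subgroup Q} [hO : O.Normal] (S : Set Q) {u v : Q} (hu : u * u = 1)
    (hv : v * v = 1) (h0 : ∀ s ∈ S, s * u = u * s ∧ s * v = v * s)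
    (h1 : ∀ w, w = u ∨ w = v ∨ w = u * v → ∀ y ∈ O, (∀ s ∈ S, s * y = y * s) → w * y = y * w → y = 1)
    {y : Q} (hy : y ∈ O) (hy' : ∀ s ∈ S, s * y = y * s) : y = 1 := by
  have k : ∀ w, (∀ s ∈ S, s * w = w * s) → ∀ y ∈ O ⊓ centralizer S, w * y * w⁻¹ ∈ O ⊓ centralizer S :=
    fun w hw y hy => ⟨hO.conj_mem _ hy.1 w, mul_mem (mul_mem hw hy.2) ((centralizer S).inv_mem hw)⟩
  have a := fpf_inv hu (k u fun s hs => (h0 s hs).1) (fun y hy => h1 u (Or.inl rfl) y hy.1 hy.2)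
    (inv_mem (show y ∈ O ⊓ centralizer S from ⟨hy, hy'⟩))
  have b := fpf_inv hv (k v fun s hs => (h0 s hs).2)
    (fun y hy => h1 v (Or.inr (Or.inl rfl)) y hy.1 hy.2) (show y ∈ O ⊓ centralizer S from ⟨hy, hy'⟩)
  refine h1 _ (Or.inr (Or.inr rfl)) y hy hy' (mul_inv_eq_iff_eq_mul.1 ?_)
  rw [show u * v * y * (u * v)⁻¹ = u * (v * y * v⁻¹) * u⁻¹ by group, b, a, inv_inv]

theorem burn {A : Subgroup Q} (h2 : ∀ a ∈ A, a * a = 1) (hN : normalizer (A : Set Q) ≤ A) :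
    ∃ O : Subgroup Q, O.Normal ∧ IsComplement' O A := by
  have : Fact (Nat.Prime 2) := ⟨Nat.prime_two⟩
  have hp : IsPGroup 2 A := fun a => ⟨1, Subtype.ext (by simpa [pow_two] using h2 a.1 a.2)⟩
  obtain ⟨n, hn⟩ := IsPGroup.iff_card.1 hp
  let P := hp.toSylow fun e => by
    have := Sylow.prime_dvd_card_quotient_normalizer (G := Q) (by
      rw [← A.card_mul_index, hn, pow_succ]; exact Nat.mul_dvd_mul_left _ e) hn
    rw [show A.comap (normalizer (A : Set Q)).subtype = ⊤ from eq_top_iff.2 fun x _ => hN x.2,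
      ← index_eq_card, index_top] at this
    omega
  exact ⟨_, inferInstance, MonoidHom.ker_transferSylow_isComplement' P fun a ha b hb => by
    have := h2 _ (mul_mem (hN ha) hb)
    rw [mul_eq_one_iff_eq_inv, mul_inv_rev, inv_eq_of_mul_eq_one_right (h2 b hb),
      inv_eq_of_mul_eq_one_right (h2 a (hN ha))] at this
    exact this.symm⟩

end

namespace XS

variable {G : Type*} [Group G] [Finite G] {R Z : Subgroup G} {ε : G} {A : Type*} [AddCommGroup A]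
  [Module (ZMod 2) A] [FiniteDimensional (ZMod 2) A]
  {π : G → A} {β : A →ₗ[ZMod 2] A →ₗ[ZMod 2] ZMod 2} (h : XS R Z ε π β) (hZ : ∀ z ∈ Z, z * z = 1)
include h hZ

theorem notZ {a : G} (ha : a * a = ε) : a ∉ Z := fun e => h.ε1 (ha ▸ hZ a e)

theorem exists_pair (hd : 5 ≤ finrank (ZMod 2) A) {a c : G} (ha : a ∈ R) (hc : c ∈ R)
    (hac : a * c = ε * (c * a)) : ∃ a' ∈ R, ∃ c' ∈ R, a' * a' = ε ∧ c' * c' = ε ∧
      a' * c' = ε * (c' * a') ∧ a * a' = a' * a ∧ c * a' = a' * c ∧ a * c' = c' * a ∧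
      c * c' = c' * c := by
  obtain ⟨q, hq, h1, -⟩ := h.tyN hZ
  have hn := h.nd.cut h.alt trivial trivial ((h.one_iff ha hc).2 hac)
  have hd' := finrank_cut (β := β) ⊤ (π a) (π c)
  rw [finrank_top] at hd'
  obtain ⟨u, u1, u2⟩ := hq.exists_ns' hn (by omega)
  obtain ⟨v, v1, v2, v3⟩ := hq.aniso h.alt hn (by omega) u1 u2
  obtain ⟨a', a1, rfl, a2⟩ := (h1 u).2 u2
  obtain ⟨c', c1, rfl, c2⟩ := (h1 v).2 v2
  exact ⟨a', a1, c', c1, a2, c2, (h.one_iff a1 c1).1 v3, (h.comm _ ha _ a1).1 (mem_cut.1 u1).2.1,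
    (h.comm _ hc _ a1).1 (mem_cut.1 u1).2.2, (h.comm _ ha _ c1).1 (mem_cut.1 v1).2.1,
    (h.comm _ hc _ c1).1 (mem_cut.1 v1).2.2⟩

theorem exists_both (hd : 5 ≤ finrank (ZMod 2) A) {a b : G} (ha : a ∈ R) (hb : b ∈ R) (a0 : a ∉ Z)
    (b0 : b ∉ Z) (hab : a * b = b * a) :
    ∃ e ∈ R, e * e = ε ∧ a * e = ε * (e * a) ∧ b * e = ε * (e * b) := by
  obtain ⟨q, hq, h1, -⟩ := h.tyN hZ
  suffices ∃ e, q e = 1 ∧ β (π a) e = 1 ∧ β (π b) e = 1 by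
    obtain ⟨e, e1, e2, e3⟩ := this
    obtain ⟨e, he, rfl, e4⟩ := (h1 e).2 e1
    exact ⟨e, he, e4, (h.one_iff ha he).1 e2, (h.one_iff hb he).1 e3⟩
  obtain ⟨u, -, u1, u2⟩ := h.nd.both h.alt trivial trivial (mt (h.ker a ha).1 a0)
    (mt (h.ker b hb).1 b0)
  rcases zo (q u) with e | e
  swap; · exact ⟨u, e, u1, u2⟩
  have hd' := finrank_cut (β := β) ⊤ (π a) u
  rw [finrank_top] at hd'
  obtain ⟨f, f1, f2, f3⟩ := hq.ns_perp h.alt (h.nd.cut h.alt trivial trivial u1) (by omega)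
    (s := π a + π b) (mem_cut.2 ⟨trivial, by simp [h.alt.alt, (h.comm a ha b hb).2 hab],
      by simp [h.alt.symm u, u1, u2, z11]⟩)
  obtain ⟨-, f4, f5⟩ := mem_cut.1 f1
  exact ⟨u + f, by rw [hq, e, f3, f5]; simp, by simp [u1, f4], by simpa [u2, f4] using f2⟩

theorem exists_cpair (hd : 7 ≤ finrank (ZMod 2) A) (M : Subgroup G)
    (hD : ∀ a ∈ R, ∀ b ∈ R, a * a = ε → b * b = ε → ∃ k ∈ M, ∀ r ∈ R, k * r * k⁻¹ = cj a (cj b r))
    {a c : G} (ha : a ∈ R) (hc : c ∈ R) (a1 : a * a = ε) (c1 : c * c = ε)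
    (hac : a * c = ε * (c * a)) : ∃ k ∈ M, k * a * k⁻¹ ∈ R ∧ k * c * k⁻¹ ∈ R ∧
      a * (k * a * k⁻¹) = k * a * k⁻¹ * a ∧ c * (k * a * k⁻¹) = k * a * k⁻¹ * c ∧
      a * (k * c * k⁻¹) = k * c * k⁻¹ * a ∧ c * (k * c * k⁻¹) = k * c * k⁻¹ * c := by
  obtain ⟨q, hq, h1, -⟩ := h.tyN hZ
  have al := h.alt
  have ac := (h.one_iff ha hc).2 hac
  have hn := h.nd.cut al trivial trivial ac
  have hd' := finrank_cut (β := β) ⊤ (π a) (π c)
  rw [finrank_top] at hd'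
  obtain ⟨u, u1, u2⟩ := hq.exists_ns' hn (by omega)
  obtain ⟨v, v1, v2, v3⟩ := hq.aniso al hn (by omega) u1 u2
  obtain ⟨f, f1, f2, f3, f4⟩ := hq.ns_cut al hn (by omega) u1 v1 v3
  obtain ⟨-, u3, u4⟩ := mem_cut.1 u1
  obtain ⟨-, v4, v5⟩ := mem_cut.1 v1
  obtain ⟨-, f5, f6⟩ := mem_cut.1 f1
  have qa := (h1 _).1 ⟨a, ha, rfl, a1⟩
  have qc := (h1 _).1 ⟨c, hc, rfl, c1⟩
  have key : ∀ s t, q s = 1 → q t = 1 → ∃ k ∈ M, ∀ r ∈ R, k * r * k⁻¹ ∈ R ∧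
      π (k * r * k⁻¹) = tr al s (tr al t (π r)) := fun s t hs ht => by
    obtain ⟨s, s1, rfl, s2⟩ := (h1 s).2 hs
    obtain ⟨t, t1, rfl, t2⟩ := (h1 t).2 ht
    obtain ⟨k, k1, k2⟩ := hD s s1 t t1 s2 t2
    exact ⟨k, k1, fun r hr => by
      rw [k2 r hr, h.π_cj s1 (cj_mem t1 hr), h.π_cj t1 hr]; exact ⟨cj_mem s1 (cj_mem t1 hr), rfl⟩⟩
  obtain ⟨k, k1, k2⟩ := key (π a + u + f) f (by simp [hq _ _, *, z11]) f4
  obtain ⟨l, l1, l2⟩ := key (π a + π c + (u + v) + f) (π c + v + f) (by simp [hq _ _, *, z11])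
    (by simp [hq _ _, *, z11])
  have e : ∀ r ∈ R, l * k * r * (l * k)⁻¹ = l * (k * r * k⁻¹) * l⁻¹ := fun r _ => by group
  have m : ∀ r ∈ R, l * k * r * (l * k)⁻¹ ∈ R := fun r hr => e r hr ▸ (l2 _ (k2 r hr).1).1
  refine ⟨l * k, mul_mem l1 k1, m a ha, m c hc, ?_⟩
  simp only [← h.comm _ ha _ (m _ ha), ← h.comm _ hc _ (m _ ha), ← h.comm _ ha _ (m _ hc),
    ← h.comm _ hc _ (m _ hc)]
  simp only [e a ha, e c hc, (l2 _ (k2 a ha).1).2, (l2 _ (k2 c hc).1).2, (k2 a ha).2, (k2 c hc).2]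
  simp [tr_apply, al.alt, al.symm (π c) (π a), al.symm u (π a), al.symm u (π c), al.symm v (π a),
    al.symm v (π c), al.symm f (π a), al.symm f (π c), al.symm v u, al.symm f u, al.symm f v,
    ac, u3, u4, v3, v4, v5, f2, f3, f5, f6, z11]

theorem ktrick (hd : 5 ≤ finrank (ZMod 2) A) (Z2 : ∀ z ∈ Z, z = 1 ∨ z = ε) {K : Subgroup G}
    (RK : R ≤ K) (εc : ∀ k ∈ K, k * ε = ε * k)
    (hD : ∀ a ∈ R, ∀ b ∈ R, a * a = ε → b * b = ε → ∃ d, (∀ k ∈ K, d * k * d⁻¹ ∈ K) ∧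
      ∀ r ∈ R, d * r * d⁻¹ = cj a (cj b r))
    (hS : ∀ a ∈ R, ∀ c ∈ R, a * a = ε → c * c = ε → a * c = ε * (c * a) →
      ∀ k ∈ K, a * k = k * a → c * k = k * c → k ∈ R) : K ≤ R := by
  have Zc : ∀ z ∈ Z, ∀ k ∈ K, k * z = z * k := fun z hz k hk => by
    rcases Z2 z hz with rfl | rfl <;> simp [εc k hk]
  have P0 : ∀ a ∈ R, ∀ c ∈ R, a * a = ε → c * c = ε → a * c = ε * (c * a) →
      ∀ k ∈ K, a * k * (k * a)⁻¹ ∈ Z → c * k * (k * c)⁻¹ ∈ Z → k ∈ R := by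
    have P : ∀ a ∈ R, ∀ c ∈ R, a * a = ε → c * c = ε → a * c = ε * (c * a) →
        ∀ k ∈ K, a * k = k * a → c * k * (k * c)⁻¹ ∈ Z → k ∈ R := fun a ha c hc a1 c1 ac k hk e e' => by
      rcases Z2 _ e' with b | b <;> rw [mul_inv_eq_iff_eq_mul] at b
      · exact hS a ha c hc a1 c1 ac k hk e (by simpa using b)
      · refine (mul_mem_cancel_right ha).1 (hS a ha c hc a1 c1 ac _ (mul_mem hk (RK ha))
          (by rw [← mul_assoc, e]) ?_)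
        rw [← mul_assoc, b, mul_assoc k a, ac, ← mul_assoc k, εc k hk]; simp only [mul_assoc]
    intro a ha c hc a1 c1 ac k hk e e'
    rcases Z2 _ e with b | b <;> rw [mul_inv_eq_iff_eq_mul] at b
    · exact P a ha c hc a1 c1 ac k hk (by simpa using b) e'
    · refine (mul_mem_cancel_right hc).1 (P a ha c hc a1 c1 ac _ (mul_mem hk (RK hc)) ?_ ?_)
      · rw [← mul_assoc, b, mul_assoc ε, mul_assoc k, ac, ← mul_assoc k, εc k hk]
        simp only [← mul_assoc, h.ε2, one_mul]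
      · convert e' using 1; group
  have act : ∀ k ∈ R, ∀ r ∈ R, π (k * r * k⁻¹) = π r := fun k hk r hr => by
    rw [h.mul _ (mul_mem hk hr) _ (inv_mem hk), h.mul _ hk _ hr, h.inv hk, add_right_comm, aa, zero_add]
  have fixes : ∀ k ∈ K, k ∈ normalizer (R : Set G) → ∀ a ∈ R, π (k * a * k⁻¹) = π a →
      a * k * (k * a)⁻¹ ∈ Z := fun k hk k1 a ha e => by
    convert inv_mem ((h.eq_iff (conj_mem_of_norm k1 ha) ha).1 e) using 1; group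
  obtain ⟨a₀, ha₀, a₁, -⟩ := h.exists_ns (by omega) (one_mem R)
  obtain ⟨c₀, hc₀, c₁, ac₀, -⟩ := h.exists_both hZ hd ha₀ ha₀ (h.notZ hZ a₁) (h.notZ hZ a₁) rfl
  have N : ∀ k ∈ K, k ∈ normalizer (R : Set G) → k ∈ R := fun k hk k1 => by
    obtain ⟨φ, φ1, φ2⟩ := h.exists_act k1
    by_cases h1 : φ = 1
    · subst h1
      exact P0 _ ha₀ _ hc₀ a₁ c₁ ac₀ k hk (fixes k hk k1 _ ha₀ (φ2 _ ha₀).symm)
        (fixes k hk k1 _ hc₀ (φ2 _ hc₀).symm)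
    exfalso
    let L : Subgroup (A ≃ₗ[ZMod 2] A) :=
      { carrier := {σ | ∃ k ∈ K, k ∈ normalizer (R : Set G) ∧ ∀ r ∈ R, σ (π r) = π (k * r * k⁻¹)}
        one_mem' := ⟨1, one_mem _, one_mem _, by simp⟩
        mul_mem' := by
          rintro σ τ ⟨k, k1, k2, k3⟩ ⟨l, l1, l2, l3⟩
          refine ⟨k * l, mul_mem k1 l1, mul_mem k2 l2, fun r hr => ?_⟩
          rw [LinearEquiv.mul_apply, l3 r hr, k3 _ (conj_mem_of_norm l2 hr)]; congr 1; group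
        inv_mem' := by
          rintro σ ⟨k, k1, k2, k3⟩
          refine ⟨k⁻¹, inv_mem k1, inv_mem k2, fun r hr => σ.injective ?_⟩
          rw [k3 _ (conj_mem_of_norm (inv_mem k2) hr)]; simp [mul_assoc] }
    have hK : ∀ a b, SQ R π ε a → SQ R π ε b → ∀ σ ∈ L,
        tr h.alt a * tr h.alt b * σ * (tr h.alt a * tr h.alt b)⁻¹ ∈ L := by
      rintro _ _ ⟨a, ha, rfl, a1⟩ ⟨b, hb, rfl, b1⟩ σ ⟨k, k1, k2, k3⟩
      obtain ⟨d, d1, d2⟩ := hD a ha b hb a1 b1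
      have d3 : d ∈ normalizer (R : Set G) :=
        mem_normalizer_fintype fun r hr => d2 r hr ▸ cj_mem ha (cj_mem hb hr)
      have d4 : ∀ r ∈ R, (tr h.alt (π a) * tr h.alt (π b)) (π r) = π (d * r * d⁻¹) := fun r hr => by
        rw [d2 r hr, h.π_cj ha (cj_mem hb hr), h.π_cj hb hr]; rfl
      refine ⟨_, d1 k k1, mul_mem (mul_mem d3 k2) (inv_mem d3), fun r hr => ?_⟩
      have r1 := conj_mem_of_norm (inv_mem d3) hr
      rw [show π r = (tr h.alt (π a) * tr h.alt (π b)) (π (d⁻¹ * r * d⁻¹⁻¹)) by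
        rw [d4 _ r1]; congr 1; group, ← LinearEquiv.mul_apply, inv_mul_cancel_right,
        LinearEquiv.mul_apply, k3 _ r1, d4 _ (conj_mem_of_norm k2 r1)]
      congr 1; group
    have sq : ∀ r ∈ R, k * r * k⁻¹ * (k * r * k⁻¹) = r * r := fun r hr => by
      rw [conj_sq, Zc _ (h.sqZ hr) k hk, mul_inv_cancel_right]
    obtain ⟨_, _, ⟨a, ha, rfl, a1⟩, ⟨c, hc, rfl, c1⟩, ac, l, l1, l2, l3⟩ :=
      g1 h.alt h.nd h.ty L hK (by omega) (Or.inr (Or.inl hd)) φ1 (fun a => by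
        obtain ⟨r, hr, rfl⟩ := h.surj a
        rw [φ2 r hr]
        exact ⟨fun ⟨s, hs, e, s1⟩ => ⟨r, hr, rfl, by
          rw [← sq r hr, ← h.sq_eq hZ hs (conj_mem_of_norm k1 hr) e, s1]⟩,
          fun ⟨s, hs, e, s1⟩ => ⟨_, conj_mem_of_norm k1 hr, rfl, by
            rw [sq r hr, ← h.sq_eq hZ hs hr e, s1]⟩⟩) h1 fun a b ha hb => by
        have φ3 : φ ∈ L := ⟨k, hk, k1, φ2⟩
        have := mul_mem (hK b a hb ha φ φ3) (inv_mem φ3)
        rw [← φ1.conj_tr h.alt, ← φ1.conj_tr h.alt]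
        simpa [tr_inv, mul_assoc] using this
    obtain ⟨a', a2, c', c2, a3, c3, ac', e1, e2, e3, e4⟩ :=
      h.exists_pair hZ hd ha hc ((h.one_iff ha hc).1 ac)
    have l4 := P0 _ a2 _ c2 a3 c3 ac' l l1 (fixes l l1 l2 _ a2 (by
      rw [← l3 _ a2, LinearEquiv.mul_apply, tr_of_zero _ ((h.comm _ hc _ a2).2 e2),
        tr_of_zero _ ((h.comm _ ha _ a2).2 e1)])) (fixes l l1 l2 _ c2 (by
      rw [← l3 _ c2, LinearEquiv.mul_apply, tr_of_zero _ ((h.comm _ hc _ c2).2 e4),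
        tr_of_zero _ ((h.comm _ ha _ c2).2 e3)]))
    have := congrArg (β (π a)) ((l3 a ha).trans (act l l4 a ha))
    simp [tr_apply, h.alt.alt, ac, h.alt.symm (π c)] at this
  haveI : (Z.subgroupOf K).Normal := ⟨fun z hz u => by
    rw [mem_subgroupOf] at hz ⊢
    simpa [Zc _ hz _ u.2] using hz⟩
  let φ := QuotientGroup.mk' (Z.subgroupOf K)
  have φ1 : ∀ u : K, φ u = 1 ↔ u.1 ∈ Z := fun u => QuotientGroup.eq_one_iff u
  have φ2 : ∀ u v : K, φ u = φ v ↔ u.1 * v.1⁻¹ ∈ Z := fun u v => by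
    rw [← mul_inv_eq_one, ← map_inv, ← map_mul, φ1]; rfl
  have φs : Function.Surjective φ := QuotientGroup.mk'_surjective _
  let E := (R.subgroupOf K).map φ
  have E1 : ∀ u : K, φ u ∈ E ↔ u.1 ∈ R := fun u => ⟨fun ⟨v, hv, e⟩ =>
    inv_mem_iff.1 ((mul_mem_cancel_left (show v.1 ∈ R from hv)).1 (h.ZR ((φ2 _ _).1 e))),
    fun c => ⟨u, c, rfl⟩⟩
  obtain ⟨O, hO, hc⟩ := burn (A := E) (fun a ha => by
    obtain ⟨a, rfl⟩ := φs a
    rw [← map_mul, φ1]; exact h.sqZ ((E1 a).1 ha)) fun u hu => by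
      obtain ⟨u, rfl⟩ := φs u
      refine (E1 u).2 (N _ u.2 (mem_normalizer_fintype fun r hr => (E1 (u * ⟨r, RK hr⟩ * u⁻¹)).1 ?_))
      simpa using conj_mem_of_norm hu ((E1 ⟨r, RK hr⟩).2 hr)
  let ψ : R →* K ⧸ Z.subgroupOf K := φ.comp (inclusion RK)
  have ψ1 : ∀ r s : R, ψ r * ψ s = ψ s * ψ r := fun r s => by
    simp only [ψ, MonoidHom.comp_apply, ← map_mul φ, φ2]
    rcases h.anti r.2 s.2 with e | e <;> simp [e, h.εZ, mul_assoc]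
  have ψ2 : ∀ r : R, ψ r * ψ r = 1 := fun r => by
    simp only [ψ, MonoidHom.comp_apply, ← map_mul φ, φ1]; exact h.sqZ r.2
  have Q0 : ∀ a c : R, a.1 * a = ε → c.1 * c = ε → a.1 * c = ε * (c * a) → ∀ y ∈ O,
      ψ a * y = y * ψ a → ψ c * y = y * ψ c → y = 1 := fun a c a1 c1 ac y hy e1 e2 => by
    obtain ⟨y, rfl⟩ := φs y
    simp only [ψ, MonoidHom.comp_apply, ← map_mul φ, φ2] at e1 e2
    exact disjoint_def.1 hc.disjoint hy ((E1 y).2 (P0 _ a.2 _ c.2 a1 c1 ac _ y.2 e1 e2))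
  have Q1 : ∀ a b c : R, a.1 * a = ε → b.1 * b = ε → a.1 * b = b * a → a.1 * c = ε * (c * a) →
      b.1 * c = c * b → ∀ y ∈ O, ψ a * y = y * ψ a → ψ b * y = y * ψ b → ψ c * y = y * ψ c → y = 1 :=
    fun a b c a1 b1 ab ac bc y hy e1 e2 e3 => by
      rcases h.sq _ c.2 with c1 | c1
      · refine Q0 a (b * c) a1 ?_ ?_ y hy e1 (by rw [map_mul]; exact (Commute.mul_left e2 e3).eq)
        · rw [coe_mul, mul_assoc, ← mul_assoc c.1, ← bc, mul_assoc, c1, mul_one, b1]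
        · rw [coe_mul, ← mul_assoc, ab, mul_assoc, ac, ← mul_assoc, h.Zc h.εZ b.2]
          simp only [mul_assoc]
      · exact Q0 a c a1 c1 ac y hy e1 e3
  have Q2 : ∀ a b : R, a.1 * a = ε → b.1 * b = ε → a.1 * b = b * a → a.1 * b ∉ Z → ∀ y ∈ O,
      ψ a * y = y * ψ a → ψ b * y = y * ψ b → y = 1 := fun a b a1 b1 ab a2 y hy e1 e2 => by
    obtain ⟨u, hu, u1, u2, u3⟩ := h.exists_both hZ hd a.2 b.2 (h.notZ hZ a1) (h.notZ hZ b1) ab
    obtain ⟨v, hv, v1, v2⟩ := h.exists_two a.2 b.2 (h.notZ hZ a1) a2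
    refine fpf_three {ψ a, ψ b} (ψ2 ⟨u, hu⟩) (ψ2 ⟨v, hv⟩) (by simp [ψ1]) ?_ hy (by simp [e1, e2])
    simp only [Set.mem_insert_iff, Set.mem_singleton_iff, forall_eq_or_imp, forall_eq, and_imp,
      ← map_mul]
    exact ⟨fun y hy a2 _ => Q0 a ⟨u, hu⟩ a1 u1 u2 y hy a2, Q1 a b ⟨v, hv⟩ a1 b1 ab v1 v2,
      fun y hy a2 b2 => Q1 b a _ b1 a1 ab.symm (show b.1 * (u * v) = ε * (u * v * b) by
        rw [← mul_assoc, u3, mul_assoc, mul_assoc, v2, mul_assoc])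
        (show a.1 * (u * v) = u * v * a by
          rw [← mul_assoc, u2, mul_assoc, mul_assoc, v1, ← mul_assoc u, h.Zc h.εZ hu]
          simp only [← mul_assoc, h.ε2, one_mul]) y hy b2 a2⟩
  have ac2 : ∀ a ∈ R, ∀ c ∈ R, a * a = ε → c * c = ε → a * c = ε * (c * a) → a * c * (a * c) = ε :=
    fun a ha c hc a1 c1 ac => by
      rw [mul_assoc, ← mul_assoc c, show c * a = ε * (a * c) by rw [ac, ← mul_assoc, h.ε2, one_mul],
        mul_assoc ε, mul_assoc a c, c1, h.Zc h.εZ ha, ← mul_assoc ε, h.ε2, one_mul, a1]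
  have Q3 : ∀ a : R, a.1 * a = ε → ∀ y ∈ O, ψ a * y = y * ψ a → y = 1 := fun a a1 y hy e => by
    obtain ⟨c, hc, ac⟩ := h.exists_anti a.2 (h.notZ hZ a1)
    obtain ⟨u, hu, v, hv, u1, v1, uv, e1, e2, e3, e4⟩ := h.exists_pair hZ hd a.2 hc ac
    have k : ∀ b : R, b.1 * b = ε → a.1 * b = b * a → c * b = b * c → ∀ y ∈ O,
        ψ a * y = y * ψ a → ψ b * y = y * ψ b → y = 1 := fun b b1 ab cb => Q2 a b a1 b1 ab fun e => by
      have := h.Zc e hc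
      rw [mul_assoc, ← cb, ← mul_assoc, ← mul_assoc, ac] at this
      exact h.ε1 (by simpa using this.symm)
    refine fpf_three {ψ a} (ψ2 ⟨u, hu⟩) (ψ2 ⟨v, hv⟩) (by simp [ψ1]) ?_ hy (by simp [e])
    simp only [Set.mem_singleton_iff, forall_eq_or_imp, forall_eq, ← map_mul]
    exact ⟨k _ u1 e1 e2, k _ v1 e3 e4, k _ (ac2 u hu v hv u1 v1 uv) (Commute.mul_right e1 e3).eq
      (Commute.mul_right e2 e4).eq⟩
  intro k hk
  obtain ⟨⟨⟨y, hy⟩, e, he⟩, rfl', -⟩ := hc.existsUnique (φ ⟨k, hk⟩)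
  obtain rfl : y = 1 := by
    refine fpf_three ∅ (ψ2 ⟨_, ha₀⟩) (ψ2 ⟨_, hc₀⟩) (by simp) ?_ hy (by simp)
    simp only [Set.mem_empty_iff_false, false_imp_iff, implies_true, true_imp_iff, forall_eq_or_imp,
      forall_eq, ← map_mul]
    exact ⟨Q3 _ a₁, Q3 _ c₁, Q3 _ (ac2 _ ha₀ _ hc₀ a₁ c₁ ac₀)⟩
  exact (E1 ⟨k, hk⟩).1 (by rw [← rfl']; simpa using he)

end XS

end Cfsg.Agent.C6
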