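import Cfsg.Agent.C6.Hall
import Cfsg.Agent.H9.Sp.Cl4
import Cfsg.Agent.H9.Sp.Root

/-! Maximality of the normaliser of `2^{1+2m}_±` in the symplectic group. -/

set_option autoImplicit false
set_option linter.unusedSimpArgs false
set_option linter.unusedSectionVars false
set_option linter.unusedVariables false

universe u

namespace Cfsg.Agent.C6

open Module Subgroup Cfsg.Agent.H6 Cfsg.Agent.H9 Cfsg.Agent.H9.Sp

attribute [-simp] LinearEquiv.coe_inv

section

variable {F V V' : Type*} [Field F] [AddCommGroup V] [Module F V] [FiniteDimensional F V]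
  [AddCommGroup V'] [Module F V'] [FiniteDimensional F V'] {R M K : Subgroup (V ≃ₗ[F] V)}
  {x y t : V ≃ₗ[F] V} {B : V →ₗ[F] V →ₗ[F] F} {B' : V' →ₗ[F] V' →ₗ[F] F}

theorem exists_iso (hB : Symp B) (hB' : Symp B') (h : finrank F V = finrank F V') :
    ∃ e : V ≃ₗ[F] V', ∀ u v, B' (e u) (e v) = B u v := by
  let C := B.compl₁₂ (.fst F V V') (.fst F V V') + B'.compl₁₂ (.snd F V V') (.snd F V V')
  have hC : ∀ p q, C p q = B p.1 q.1 + B' p.2 q.2 := fun _ _ => rfl
  obtain ⟨α, h1, h2⟩ := exists_isometry (B := C) ⟨by simp [hC, hB.alt, hB'.alt], fun z hz =>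
      Prod.ext (hB.nd _ fun a => by simpa [hC] using hz (a, 0))
        (hB'.nd _ fun a => by simpa [hC] using hz (0, a))⟩
    (W := LinearMap.range (.inl F V V')) (W' := LinearMap.range (.inr F V V'))
    (by
      rintro _ ⟨a, rfl⟩ ha
      obtain ⟨b, hb⟩ := hB.exists_ne (z := a) (by rintro rfl; simp at ha)
      exact ⟨_, ⟨b, rfl⟩, by simpa [hC]⟩)
    (by
      rintro _ ⟨a, rfl⟩ ha
      obtain ⟨b, hb⟩ := hB'.exists_ne (z := a) (by rintro rfl; simp at ha)
      exact ⟨_, ⟨b, rfl⟩, by simpa [hC]⟩)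
    (by rw [LinearMap.finrank_range_of_inj LinearMap.inl_injective,
      LinearMap.finrank_range_of_inj LinearMap.inr_injective, h])
  let f := LinearMap.snd F V V' ∘ₗ α ∘ₗ .inl F V V'
  have hf : ∀ u v, B' (f u) (f v) = B u v := fun u v => by
    obtain ⟨a, ha⟩ := h1 _ ⟨u, rfl⟩
    have : (α (u, 0)).1 = 0 := congrArg Prod.fst ha.symm
    simpa [hC, this, f] using h2 _ ⟨u, rfl⟩ _ ⟨v, rfl⟩
  exact ⟨LinearMap.linearEquivOfInjective f ((injective_iff_map_eq_zero _).2 fun a ha =>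
    hB.nd _ fun b => by simp [← hf, ha]) h, hf⟩

theorem exists_cl (h2 : (2 : F) ≠ 0) (hB : Symp B) (h : finrank F V = 4) :
    ∃ ι, Cl B (Q0 F) ι := by
  obtain ⟨e, he⟩ := exists_iso hB (symp_B0 2 F) (by simp [h])
  have c := cl0 h2
  refine ⟨e.symm.conj.toLinearMap ∘ₗ ι0 F, hB, h2, c.nd, c.dim, h, by simp [c.sq],
    by simp [← he, c.adj], fun x => ?_, fun X h1 h3 => ?_, c.ex⟩
  · rw [← c.tr x, ← LinearMap.trace_conj' _ e.symm]; rfl
  · obtain ⟨x, hx⟩ := c.surj (e.conj X) (fun u v => by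
      obtain ⟨u, rfl⟩ := e.surjective u
      obtain ⟨v, rfl⟩ := e.surjective v
      simp [he, h1]) (by rwa [LinearMap.trace_conj'])
    exact ⟨x, by ext; simp [hx]⟩

/-- normal subgroups of the symplectic group containing a non-central involution -/
theorem Sp_le_of_inv (h2 : (2 : F) ≠ 0) (hB : Symp B) (h0 : K ≤ Sp B)
    (hK : ∀ g ∈ Sp B, ∀ k ∈ K, g * k * g⁻¹ ∈ K) (ht : t ∈ K) (h1 : t * t = 1) (h3 : ¬Sc t) :
    Sp B ≤ K := by
  have h1 : ∀ v, t (t v) = v := LinearEquiv.congr_fun h1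
  obtain ⟨a, ha⟩ : ∃ a, a + t a ≠ 0 := by
    by_contra! k
    exact h3 ⟨-1, fun v => by simpa using eq_neg_of_add_eq_zero_right (k v)⟩
  obtain ⟨b, hb⟩ : ∃ b, b - t b ≠ 0 := by
    by_contra! k
    exact h3 ⟨1, fun v => by simpa using (sub_eq_zero.1 (k v)).symm⟩
  obtain ⟨v, hv⟩ := hB.exists_one hb
  have h4 : t (a + t a) = a + t a := by simp [h1, add_comm]
  have h5 : ∀ b, t (b - t b) = -(b - t b) := by simp [h1]
  generalize a + t a = a at ha h4
  have h6 : ∀ b, t b = -b → B a b = 0 := fun b e => mul_left_cancel₀ h2 (by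
    have := h0 ht a b
    rw [h4, e, map_neg] at this
    linear_combination -this)
  have h7 : ∀ b, t b = -b → Sp.R B K a b 0 := fun b e => ⟨_, mul_mem (hK _ (tvE_mem hB (a + b) 2⁻¹) t ht) ht,
    fun v => smul_right_injective V h2 (by
      have := h0 ht (t v)
      simp only [h1] at this
      simp [tvE_inv_apply, h1, h4, e, ← this, hB.alt, h6 b e, hB.comm.1 (h6 b e)]
      match_scalars <;> field_simp <;> ring)⟩
  refine Sp_le hB h0 fun w c => ?_
  by_cases h8 : w = 0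
  · exact h8 ▸ T.zero_left c
  obtain ⟨g, hg, rfl⟩ := Sp_trans hB ha h8
  have e1 : t ((c / 4) • (v - t v)) = -((c / 4) • (v - t v)) := by rw [map_smul, h5, smul_neg]
  obtain ⟨k, hk, e⟩ := (h7 _ e1).comm hB (h7 _ (h5 b)) (h6 _ e1) (h6 _ (h5 b))
  refine ⟨_, hK g hg k hk, fun z => ?_⟩
  have : B (b - t b) (t v) = -1 := by rw [← h0 ht, h5, h1, map_neg, LinearMap.neg_apply, hv]
  have h4 : (4 : F) ≠ 0 := by rw [show (4 : F) = 2 * 2 by norm_num]; exact mul_ne_zero h2 h2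
  simp only [LinearEquiv.mul_apply, e, map_smul, map_sub (B _), hv, this, map_add, apply_inv_apply,
    Sp_right hg]
  congr 2
  simp only [smul_eq_mul]
  field_simp
  ring

/-- the restricted form -/
abbrev Bp (B : V →ₗ[F] V →ₗ[F] F) (x : V ≃ₗ[F] V) : Vp x →ₗ[F] Vp x →ₗ[F] F :=
  B.compl₁₂ (Vp x).subtype (Vp x).subtype

theorem bi (B : V →ₗ[F] V →ₗ[F] F) : Bi fun u v => B u v := ⟨by simp, by simp⟩

theorem Pr.symp (h : Pr x y) (hB : Symp B) (hx : x ∈ Sp B) : Symp (Bp B x) :=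
  ⟨fun _ => hB.alt _, h.nd (bi B) hx hB.nd⟩

theorem resG_le (h : M ≤ Sp B) : resG x M ≤ Sp (Bp B x) := fun _ =>
  iso_resG (f := fun u v => B u v) h

theorem symp_even (hB : Symp B) : Even (finrank F V) := by
  simpa using NdOn.even hB (A := ⊤) fun w _ h => (hB.exists_ne h).imp fun _ e => ⟨trivial, e⟩

theorem Pr.sc_of_res (h : Pr x y) (hR : ES R) (hy : y ∈ R) (s : centralizer {x}) (hs : s.1 ∈ R)
    (h1 : Sc (res x s)) : Sc s.1 ∨ Sc (x * s.1) := by
  obtain ⟨k, k', e⟩ := h.exists_bd (mem_centralizer_singleton_iff.1 s.2)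
  rw [show res x s = k from LinearEquiv.ext fun v => Subtype.ext (by simp [e])] at h1
  rw [e] at hs ⊢
  refine (h.bd_cases hR hy hs).imp ?_ ?_ <;> rintro rfl
  · exact h.sc_bd h1
  · simpa [h.x_bd, ← mul_assoc, ng_sq] using h.sc_bd h1

theorem res_mem {s : centralizer {x}} (hs : s.1 ∈ M) : res x s ∈ resG x M := ⟨s, hs, rfl⟩

theorem noOne (hB : Symp B) (hR : ES R) (h0 : R ≤ Sp B) (hn : finrank F V < 4) (hx : x ∈ R)
    (h1 : x * x = 1) : Sc x := by
  by_contra k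
  obtain ⟨y, -, h⟩ := hR.exists_pr hx h1 k
  obtain ⟨m, hm⟩ := symp_even (h.symp hB (h0 hx))
  have := h.dim
  have := finrank_zero_iff.1 (show finrank F V = 0 by omega)
  exact k ⟨1, fun _ => Subsingleton.elim _ _⟩

theorem noTwo (hB : Symp B) (hR : ES R) (h0 : R ≤ Sp B) (hn : finrank F V < 8) (hx : x ∈ R)
    (ht : t ∈ R) (h1 : x * x = 1) (h2 : t * t = 1) (h3 : x * t = t * x) :
    Sc x ∨ Sc t ∨ Sc (x * t) := by
  refine or_iff_not_imp_left.2 fun k => ?_
  obtain ⟨y, hy, h⟩ := hR.exists_pr hx h1 k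
  have := h.dim
  refine h.sc_of_res hR hy ⟨t, mem_centralizer_singleton_iff.2 h3.symm⟩ ht (noOne (h.symp hB (h0 hx))
    (h.es hR hx hy) (resG_le h0) (by omega) (res_mem ht) ?_)
  rw [← map_mul, ← map_one (res x)]; exact congrArg _ (Subtype.ext h2)

theorem noThree (hB : Symp B) (hR : ES R) (h0 : R ≤ Sp B) (hn : finrank F V < 16) : NoThree R := by
  intro x hx s hs t ht h1 h2 h3 h4 h5 h6
  refine or_iff_not_imp_left.2 fun k => ?_
  obtain ⟨y, hy, h⟩ := hR.exists_pr hx h1 k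
  have := h.dim
  let s' : centralizer {x} := ⟨s, mem_centralizer_singleton_iff.2 h4.symm⟩
  let t' : centralizer {x} := ⟨t, mem_centralizer_singleton_iff.2 h5.symm⟩
  rcases noTwo (h.symp hB (h0 hx)) (h.es hR hx hy) (resG_le h0) (by omega) (res_mem (s := s') hs)
    (res_mem (s := t') ht) (by rw [← map_mul, ← map_one (res x)]; exact congrArg _ (Subtype.ext h2))
    (by rw [← map_mul, ← map_one (res x)]; exact congrArg _ (Subtype.ext h3))
    (by rw [← map_mul, ← map_mul]; exact congrArg _ (Subtype.ext h6)) with e | e | e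
  · have := h.sc_of_res hR hy s' hs e; tauto
  · have := h.sc_of_res hR hy t' ht e; tauto
  · have := h.sc_of_res hR hy (s' * t') (mul_mem hs ht) (map_mul (res x) _ _ ▸ e)
    rw [mul_assoc]; tauto

theorem Pr.sp_big (h : Pr x y) (hB : Symp B) (hM : M ≤ Sp B) (hx : x ∈ Sp B) (hy : y ∈ M)
    (hK : Sp (Bp B x) ≤ h.Kg M) {g : V ≃ₗ[F] V} (hg : g ∈ M) (h1 : ∀ v, g (x v) = -y (g v)) :
    Sp B ≤ M := by
  have o := h.orth (bi B) hx
  have h2 : ∀ u ∈ Vp x, Sp.Full B M u := fun u hu c =>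
    ⟨_, hK (tvE_mem (h.symp hB hx) ⟨u, hu⟩ c), fun v => by
      obtain ⟨a, b, rfl⟩ := h.ind v
      simp [h.bd_add, (o ⟨u, hu⟩ b).2, add_right_comm]⟩
  have h3 : ∀ a a' b : Vp x, a ≠ 0 → a' ≠ 0 → Sp.Full B M (a + y b) → Sp.Full B M (a' + y b) :=
    fun a a' b ha ha' => Sp.Full.move hB hM h2 (by simp)
      (let ⟨s, e⟩ := (h.symp hB hx).exists_ne ha; ⟨s, s.2, by simpa [o] using e⟩)
      (let ⟨s, e⟩ := (h.symp hB hx).exists_ne ha'; ⟨s, s.2, by simpa [o] using e⟩)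
  have h4 : ∀ a b : Vp x, Sp.Full B M (a + y b) → Sp.Full B M (b + y a) := fun a b e => by
    simpa [h.yy, add_comm] using e.map hM hy
  refine Sp_le hB hM fun v => ?_
  obtain ⟨a, b, rfl⟩ := h.ind v
  by_cases ha : a = 0
  · simpa [ha] using (h2 b b.2).map hM hy
  by_cases hb : b = 0
  · simpa [hb] using h2 a a.2
  obtain ⟨c, d, e⟩ := h.ind (g a)
  have h5 := h1 a
  rw [Vp_apply, e, map_add, h.yy] at h5
  have h6 := congrArg x h5
  simp only [map_add, map_neg, h.xy, Vp_apply] at h6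
  have h7 : (c : V) = -d := half h.two (by linear_combination (norm := module) h5 + h6)
  have hd : d ≠ 0 := by rintro rfl; simp [h7, ha] at e
  exact h4 _ _ (h3 d b a hd hb (h4 _ _ (h3 c a d (by rintro rfl; exact hd (by simpa using h7)) ha
    (e ▸ (h2 a a.2).map hM hg))))

end

variable {F : Type u} [Field F] [Fintype F]

theorem sp_four (hp : (Fintype.card F).Prime) {V : Type u} [AddCommGroup V] [Module F V]
    [FiniteDimensional F V] {B : V →ₗ[F] V →ₗ[F] F} {R M : Subgroup (V ≃ₗ[F] V)} (hB : Symp B)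
    (hR : ES R) (h0 : R ≤ Sp B) (hn : finrank F V = 4) (hM : M ≤ Sp B)
    (hN : ∀ g ∈ Sp B, g ∈ normalizer (R : Set (V ≃ₗ[F] V)) → g ∈ M) :
    M ≤ normalizer (R : Set (V ≃ₗ[F] V)) ∨ Sp B ≤ M := by
  obtain ⟨ι, h⟩ := exists_cl hR.two hB hn
  have h1 : ∀ r ∈ R, Sc r → r = 1 ∨ r = ng F V := fun r hr e => e.cases (by
    obtain ⟨c, hc⟩ := e
    obtain ⟨v, hv⟩ := h.exists_ne
    obtain ⟨w, hw⟩ := hB.exists_one hv
    ext z
    simp [hc, smul_smul, show c * c = 1 by simpa [hc, hw] using h0 hr v w])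
  obtain ⟨e, hF, he⟩ := h.frame h0 hR.ng_mem hR.sq (fun s hs t ht a b c => by
      rcases noTwo hB hR h0 (by omega) hs ht a b c with e | e | e
      · have := h1 s hs e; tauto
      · have := h1 t ht e; tauto
      · rcases h1 _ (mul_mem hs ht) e with e | e
        · simp [mul_left_cancel (e.trans a.symm)]
        · simp [show t = ng F V * s by rw [← e, c, mul_assoc, a, mul_one]])
    (fun r hr => by
      by_cases c : Sc r
      · have := h1 r hr c; tauto
      · obtain ⟨y, hy, e⟩ := hR.exists_anti hr c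
        exact Or.inr (Or.inr ⟨y, hy, by ext; simp [e]⟩))
    fun X hX Y => by simp [hR.eq_zero hX]
  refine or_iff_not_imp_left.2 fun k => h.transfer _ (O5.Mon e) he (fun i => ⟨i, Or.inl rfl⟩)
    (fun M => O5.frame_core (prime_field_cast hp) hF) M hM hN ?_
  simpa [SetLike.le_def] using k

/-- the normaliser of `R` is maximal in the symplectic group -/
theorem sp_core (hm : ∀ (V : Type u) [AddCommGroup V] [Module F V] [FiniteDimensional F V],
      MainStmt F V) (hp : (Fintype.card F).Prime) {V : Type u} [AddCommGroup V] [Module F V]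
    [FiniteDimensional F V] {B : V →ₗ[F] V →ₗ[F] F} {R M : Subgroup (V ≃ₗ[F] V)} (hB : Symp B)
    (hR : ES R) (h0 : R ≤ Sp B) (hn : 4 ≤ finrank F V) (hM : M ≤ Sp B)
    (hN : ∀ g ∈ Sp B, g ∈ normalizer (R : Set (V ≃ₗ[F] V)) → g ∈ M) :
    M ≤ normalizer (R : Set (V ≃ₗ[F] V)) ∨ Sp B ≤ M := by
  induction hd : finrank F V using Nat.strong_induction_on generalizing V with | _ n ih
  rcases hn.eq_or_lt with hn | hn
  · exact sp_four hp hB hR h0 hn.symm hM hN
  have h1 : ∀ {x y}, x ∈ R → Pr x y → 4 ≤ finrank F (Vp x) ∧ finrank F (Vp x) < n := fun hx h => by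
    obtain ⟨m, hm⟩ := symp_even (h.symp hB (h0 hx))
    have := h.dim
    omega
  have h2 : R ≤ M := fun r hr => hN r (h0 hr) (le_normalizer hr)
  have h3 : HasD R M := fun a ha b hb c d =>
    let ⟨g, hg, e⟩ := hR.exists_isD ha hb c d
    ⟨g, hN g (e.iso hR.two (bi B) (h0 ha) (h0 hb) c d) hg, e⟩
  by_cases k : ∀ x ∈ R, x * x = 1 → ¬Sc x →
      resG x M ≤ normalizer (resG x R : Set (Vp x ≃ₗ[F] Vp x))
  · obtain ⟨x, hx, a, b⟩ := hR.exists_inv (by omega)
    obtain ⟨y, hy, h⟩ := hR.exists_pr hx a b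
    have := h1 hx h
    have := h.dim
    refine Or.inl (hm V R M hR (by omega) (Or.inr ?_) h2 h3 (hasZ_of_sq hR fun g hg c hc => ?_)
      (hasN_of k))
    · exact (le_or_gt _ _).imp_right (noThree hB hR h0)
    · obtain ⟨v, hv⟩ := exists_ne_zero_of_finrank (K := (⊤ : Submodule F V)) (by simp; omega)
      obtain ⟨w, hw⟩ := hB.exists_one hv.2
      simpa [hc, hw] using hM hg v w
  push Not at k
  obtain ⟨x, hx, a, b, k⟩ := k
  obtain ⟨y, hy, h⟩ := hR.exists_pr hx a b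
  have hE := h.es hR hx hy
  have h4 := (ih _ (h1 hx h).2 (h.symp hB (h0 hx)) hE (resG_le h0) (h1 hx h).1 (resG_le hM)
    (fun g c d => h.bd_mem_resG g g (hN _ (h.iso_bd (bi B) (h0 hx) (h0 hy) c c)
      (h.bd_norm hR hx hy d))) rfl).resolve_left k
  obtain ⟨t, ht, c, d⟩ := hE.exists_inv (by have := (h1 hx h).1; omega)
  obtain ⟨s, hs, h'⟩ := hE.exists_pr ht c d
  obtain ⟨g, hg, e⟩ := h3 _ (mul_mem hx hy) _ ((h.mem_resG_iff hR hx hy).1 (mul_mem ht hs))
    (by ext; simp [h.xy, h.xx, h.yy]) (by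
      rw [h.bd_mul, ← h.bd_ng]; congr 1 <;> ext <;> simp [h'.xy, h'.xx, h'.yy])
  refine Or.inr (h.sp_big hB hM (h0 hx) (h2 hy) ?_ hg fun v => ?_)
  · refine (Sp_le_of_inv hR.two (h.symp hB (h0 hx)) inf_le_right (fun g a k b =>
      ⟨h.Kg_conj (h4 a) b.1, (Sp _).mul_mem (mul_mem a b.2) (inv_mem a)⟩) ⟨?_, resG_le h0 ht⟩ c d).trans
      inf_le_left
    exact hN _ (h.iso_bd (bi B) (h0 hx) (h0 hy) (resG_le h0 ht) fun _ _ => rfl)
      (h.bd_norm' hR hx hy ht)
  · rw [e.cnj6 h.two (by ext; simp [h.xy, h.xx, h.yy]) (by simp [h.xy, h.xx])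
      (LinearEquiv.congr_fun (h.bd_comm _ _))]
    simp [h.xy, h.xx]

theorem sp_c6 (hm : ∀ (V : Type u) [AddCommGroup V] [Module F V] [FiniteDimensional F V],
      MainStmt F V) (hp : (Fintype.card F).Prime) (hodd : Odd (Fintype.card F)) {m : ℕ} (h3 : 3 ≤ m)
    (R : Subgroup (GL (Fin m ⊕ Fin m) F)) (h1 : Geo.IsSymplecticTypeGroup 2 R)
    (h2 : Geo.ActsAbsolutelyIrreducibly (Geo.matrixSet R)) (h4 : R ≤ spGL m F) :
    Geo.IsMaximalIn (spGL m F) (Geo.subgroupNormalizer R ⊓ spGL m F) := by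
  have hR := es_of_symplecticType h1 h2 (two_ne_zero_of_odd hodd)
  have hB := symp_B0 m F
  refine isMaximalIn_transport gl0 _ _ (Sp (B0 m F)) (· ∈ normalizer (im R : Set _)) mem_spGL
    (fun g _ => mem_normalizer_im) ?_ fun M a b ⟨g, c, d⟩ => (sp_core hm hp hB hR
      (by rintro _ ⟨g, hg, rfl⟩; exact h4 hg) (by rw [finrank_V]; omega) a b).resolve_left
      fun e => d (e c)
  obtain ⟨v, -, hv⟩ := exists_ne_zero_of_finrank (K := (⊤ : Submodule F (Fin m ⊕ Fin m → F)))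
    (by rw [finrank_top, finrank_V]; omega)
  obtain ⟨w, hw⟩ := hB.exists_one hv
  refine ⟨_, tvE_mem hB v 1, fun e => ?_⟩
  obtain ⟨c, hc⟩ := hR.sc_of_fix (by rw [finrank_V]; omega) e ((B0 m F).flip v) fun z hz => by
    simp [show B0 m F z v = 0 from hz]
  have h5 := hc v
  have h6 := hc w
  simp only [tvE_apply, hB.alt, mul_zero, zero_smul, add_zero] at h5
  rw [← smul_left_injective F hv ((one_smul F v).trans h5), tvE_apply, hB.skew, hw] at h6
  simp [hv] at h6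

end Cfsg.Agent.C6
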