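import Cfsg.Agent.C6.Main
import Cfsg.Agent.C6.Sp
import Cfsg.Agent.Orth.GLPair

/-! Centralisers of quaternion subgroups in orthogonal groups. -/

set_option autoImplicit false
set_option linter.unusedSimpArgs false
set_option linter.unusedSectionVars false
set_option linter.unusedVariables false

universe u

namespace Cfsg.Agent.C6

open Module Subgroup Cfsg.Agent.Orth
open Cfsg.Agent.H9.Sp (Symp Sp tvE tvE_mem tvE_apply Sp_le T_iff)

attribute [-simp] LinearEquiv.coe_inv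

section

variable {F V : Type*} [Field F] [AddCommGroup V] [Module F V] {Q : QuadraticForm F V}
  {R M : Subgroup (V ≃ₗ[F] V)} {a c x y a' c' x' y' g : V ≃ₗ[F] V}

/-- a splitting of the quaternion algebra generated by `a` and `c` -/
structure QS (Q : QuadraticForm F V) (a c x y : V ≃ₗ[F] V) : Prop where
  pr : Pr x y
  bx : ∀ u v, B Q (x u) v = -B Q u (x v)
  bz : ∀ u v, B Q (y u) v = -B Q u (y v)
  cm : ∀ X : End F V, ((∀ v, X (a v) = a (X v)) ∧ ∀ v, X (c v) = c (X v)) ↔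
    ((∀ v, X (x v) = x (X v)) ∧ ∀ v, X (y v) = y (X v))
  j : ∀ v, a (c (x v)) = y v

theorem exists_QS [Finite F] (h2 : (2 : F) ≠ 0) (ha : a ∈ O Q) (hc : c ∈ O Q)
    (a1 : a * a = ng F V) (c1 : c * c = ng F V) (ac : a * c = ng F V * (c * a)) :
    ∃ x y, QS Q a c x y := by
  obtain ⟨p, hp⟩ := CharP.exists F
  have : NeZero p := ⟨CharP.char_ne_zero_of_finite F p⟩
  obtain ⟨s, t, e⟩ := CharP.sq_add_sq F p (-1)
  generalize (s : F) = s, (t : F) = t at e
  replace e : s ^ 2 + t ^ 2 = -1 := by simpa using e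
  have a2 := ap_sq' a1
  have c2 := ap_sq' c1
  have ac' := ap_of_anti ac
  have k : ∀ g ∈ O Q, (∀ v, g (g v) = -v) → ∀ u v, B Q (g u) v = -B Q u (g v) := fun g hg e u v => by
    rw [← O_B hg u, e, map_neg, neg_neg]
  have ka := k a ha a2
  have kc := k c hc c2
  let x := LinearEquiv.ofInvolutive (s • (a : End F V) + t • (c : End F V)) fun v => by
    simp [a2, c2, ac']; match_scalars <;> grind
  let y := LinearEquiv.ofInvolutive (s • (c : End F V) - t • (a : End F V)) fun v => by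
    simp [a2, c2, ac']; match_scalars <;> grind
  have hx : ∀ v, x v = s • a v + t • c v := fun _ => rfl
  have hy : ∀ v, y v = s • c v - t • a v := fun _ => rfl
  have ea : ∀ v, a v = t • y v - s • x v := fun v => by rw [hx, hy]; match_scalars <;> grind
  have ec : ∀ v, c v = -(t • x v + s • y v) := fun v => by rw [hx, hy]; match_scalars <;> grind
  refine ⟨x, y, ⟨h2, x.left_inv, y.left_inv, fun v => ?_⟩, fun u v => ?_, fun u v => ?_,
    fun X => ⟨fun ⟨e1, e2⟩ => ⟨fun v => ?_, fun v => ?_⟩, fun ⟨e1, e2⟩ => ⟨fun v => ?_, fun v => ?_⟩⟩,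
    fun v => ?_⟩
  · simp [hx, hy, a2, c2, ac']; match_scalars <;> grind
  · simp [hx, ka, kc]; ring
  · simp [hy, ka, kc]; ring
  · simp [hx, e1, e2]
  · simp [hy, e1, e2]
  · simp [ea, e1, e2]
  · simp [ec, e1, e2]
  · simp [hx, hy, a2, c2, ac', sub_eq_add_neg]

/-- the elements acting diagonally -/
def Pr.Tg (h : Pr x y) (M : Subgroup (V ≃ₗ[F] V)) : Subgroup (Vp x ≃ₗ[F] Vp x) where
  carrier := {k | h.bd k k ∈ M}
  one_mem' := (h.bd_one ▸ one_mem M : h.bd 1 1 ∈ M)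
  mul_mem' := fun ha hb => by simpa [h.bd_mul] using M.mul_mem ha hb
  inv_mem' := fun ha => by simpa [h.bd_inv] using M.inv_mem ha

theorem Pr.mem_Tg (h : Pr x y) {k : Vp x ≃ₗ[F] Vp x} : k ∈ h.Tg M ↔ h.bd k k ∈ M := Iff.rfl

theorem ES.le_of_pair (hR : ES R) (ha : a ∈ R) (hc : c ∈ R) (ac : a * c = ng F V * (c * a))
    {K : Subgroup (V ≃ₗ[F] V)} (h1 : a ∈ K) (h2 : c ∈ K)
    (h3 : ∀ r ∈ R, r * a = a * r → r * c = c * r → r ∈ K) : R ≤ K := by
  have ac' := ap_of_anti ac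
  have k : ∀ r ∈ R, r * a = a * r → r ∈ K := fun r hr e => (hR.anti hr hc).elim
    (fun e' => h3 r hr e (LinearEquiv.ext e')) fun e' => (K.mul_mem_cancel_left h1).1
      (h3 _ (mul_mem ha hr) (by rw [mul_assoc, e]) (by ext; simp [e', ac']))
  exact fun r hr => (hR.anti hr ha).elim (fun e => k r hr (LinearEquiv.ext e)) fun e =>
    (K.mul_mem_cancel_left h2).1 (k _ (mul_mem hc hr) (by ext; simp [e, ac']))

namespace QS

variable (h : QS Q a c x y)
include h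

theorem b0 {u v : V} (hu : x u = u) (hv : x v = v) : B Q u v = 0 :=
  eq_zero_of_neg (V := F) h.pr.two (by simpa [hu, hv] using h.bx u v)

theorem q0 {u : V} (hu : x u = u) : Q u = 0 := by
  simpa [B_self, h.pr.two] using h.b0 hu hu

theorem b1 {u v : V} (hu : x u = u) (hv : x v = v) : B Q (y u) (y v) = 0 := by
  simp [h.bz, h.pr.yy, h.b0 hu hv]

theorem q1 {u : V} (hu : x u = u) : Q (y u) = 0 := by
  simpa [B_self, h.pr.two] using h.b1 hu hu

theorem b2 (u : V) : B Q u (y u) = 0 :=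
  eq_zero_of_neg (V := F) h.pr.two (by simpa [B_comm Q u] using h.bz u u)

theorem cm' : (g * a = a * g ∧ g * c = c * g) ↔ (g * x = x * g ∧ g * y = y * g) := by
  simp only [LinearEquiv.ext_iff]; exact h.cm g

theorem bd_cm (k : Vp x ≃ₗ[F] Vp x) :
    h.pr.bd k k * a = a * h.pr.bd k k ∧ h.pr.bd k k * c = c * h.pr.bd k k :=
  h.cm'.2 ⟨h.pr.bd_comm k k, h.pr.bd_y k k⟩

theorem exists_bd (h1 : g * a = a * g) (h2 : g * c = c * g) : ∃ k, g = h.pr.bd k k := by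
  obtain ⟨e1, e2⟩ := h.cm'.1 ⟨h1, h2⟩
  obtain ⟨k, k', rfl⟩ := h.pr.exists_bd e1
  rw [h.pr.bd_y, mul_right_inj] at e2
  obtain rfl : k' = k := LinearEquiv.ext fun v => Subtype.ext (by
    simpa using LinearEquiv.congr_fun e2 v)
  exact ⟨_, rfl⟩

/-- the symplectic form -/
def f (_ : QS Q a c x y) : Vp x →ₗ[F] Vp x →ₗ[F] F :=
  (B Q).compl₁₂ (Vp x).subtype ((y : V →ₗ[F] V) ∘ₗ (Vp x).subtype)

theorem f_apply (u v : Vp x) : h.f u v = B Q u (y v) := rfl

theorem symp (hQ : Orth.Nd Q) : Symp h.f := ⟨fun v => h.b2 v, fun z hz => Subtype.ext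
  (y.map_eq_zero_iff.1 (hQ _ fun w => by
    obtain ⟨u, u', rfl⟩ := h.pr.ind w
    simpa [h.b1 u'.2 z.2, f_apply] using hz u))⟩

theorem q_add (u v : Vp x) : Q (u + y v) = h.f u v := by
  rw [Q_add, h.q0 u.2, h.q1 v.2, f_apply]; simp

theorem mem_O {k : Vp x ≃ₗ[F] Vp x} : h.pr.bd k k ∈ O Q ↔ k ∈ Sp h.f :=
  ⟨fun e u v => by rw [← h.q_add, ← h.pr.bd_add, e, h.q_add], fun e w => by
    obtain ⟨u, v, rfl⟩ := h.pr.ind w
    rw [h.pr.bd_add, h.q_add, h.q_add, e]⟩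

theorem bd_tv (hQ : Orth.Nd Q) (v : Vp x) (t : F) :
    h.pr.bd (tvE (h.symp hQ) v t) (tvE (h.symp hQ) v t) = eich Q v (-t • y v) := by
  refine h.pr.ext (fun u => ?_) fun u => ?_ <;>
    rw [eich_apply (h.q0 v.2) (by simp [h.b2])] <;>
    simp [f_apply, h.b0 v.2 u.2, h.b1 v.2 u.2, B_comm Q (y v), Q_neg, Q_smul, h.q1 v.2]
  rw [B_comm Q (v : V), h.bz, smul_smul]; simp [mul_comm, h.bz, h.pr.yy, h.b0 u.2 v.2]

variable [FiniteDimensional F V]

theorem mem_EO (hQ : Orth.Nd Q) : Sp h.f ≤ h.pr.Tg (EO Q) :=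
  (Sp_le (h.symp hQ) (M := h.pr.Tg (EO Q) ⊓ Sp h.f) inf_le_right fun v t => (T_iff _).2
    ⟨h.pr.mem_Tg.2 (h.bd_tv hQ v t ▸ eich_mem_EO _ _), tvE_mem _ _ _⟩).trans
    inf_le_left

theorem es (hR : ES R) (ha : a ∈ R) (hc : c ∈ R) (ac : a * c = ng F V * (c * a)) :
    ES (h.pr.Tg R) := by
  refine ⟨hR.two, h.pr.mem_Tg.2 (h.pr.bd_ng ▸ hR.ng_mem), fun k hk => ?_, fun X hX => ?_⟩
  · exact (hR.sq' hk).imp (fun e => LinearEquiv.ext fun v => Subtype.ext (by simpa using e v))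
      fun e => LinearEquiv.ext fun v => Subtype.ext (by simpa using e v)
  let Y : End F V := h.pr.e.conj (X.prodMap X)
  have e : ∀ u u' : Vp x, Y (u + y u') = X u + y (X u') := fun u u' =>
    congrArg (fun p => h.pr.e (X.prodMap X p)) (h.pr.e.symm_apply_apply (u, u'))
  let K : Subgroup (V ≃ₗ[F] V) :=
    { carrier := {r | ∀ v, Y (r v) = r (Y v)}
      one_mem' := fun _ => rfl
      mul_mem' := fun {a b} ha hb v => (ha _).trans (congrArg a (hb v))
      inv_mem' := fun {a} ha v => a.injective (by simp [← ha _]) }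
  obtain ⟨e1, e2⟩ := (h.cm Y).2 ⟨fun v => by
    obtain ⟨u, u', rfl⟩ := h.pr.ind v
    simpa [e, h.pr.xy] using e u (-u'), fun v => by
    obtain ⟨u, u', rfl⟩ := h.pr.ind v
    simp [e, h.pr.yy, add_comm]⟩
  refine (hR.cent Y (hR.le_of_pair ha hc ac (K := K) e1 e2 fun r hr r1 r2 v => ?_)).imp
    fun c hc v => Subtype.ext (by simpa [hc] using (e v 0).symm)
  obtain ⟨k, rfl⟩ := h.exists_bd r1 r2
  obtain ⟨u, u', rfl⟩ := h.pr.ind v
  simp only [h.pr.bd_add, e, hX k hr]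

theorem bd_norm [Finite F] (hR : ES R) (ha : a ∈ R) (hc : c ∈ R) (ac : a * c = ng F V * (c * a))
    {k : Vp x ≃ₗ[F] Vp x} (hk : k ∈ normalizer (h.pr.Tg R : Set (Vp x ≃ₗ[F] Vp x))) :
    h.pr.bd k k ∈ normalizer (R : Set (V ≃ₗ[F] V)) := by
  have : Finite V := finite_of_finite F
  have : Finite (V ≃ₗ[F] V) := Finite.of_injective _ DFunLike.coe_injective
  refine mem_normalizer_fintype (hR.le_of_pair ha hc ac
    (K := R.comap (MulAut.conj (h.pr.bd k k)).toMonoidHom) (by simpa [(h.bd_cm k).1])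
    (by simpa [(h.bd_cm k).2]) fun r hr r1 r2 => ?_)
  obtain ⟨j, rfl⟩ := h.exists_bd r1 r2
  simpa [h.pr.bd_inv, h.pr.bd_mul, h.pr.mem_Tg] using conj_mem_of_norm hk (h.pr.mem_Tg.2 hr)

theorem move (hM : M ≤ O Q) (hb : ∀ v, x v = v → ∀ t : F, eich Q v (t • y v) ∈ M) {e : V}
    (he : x e = e) {S : Submodule F V} (hS : ∀ w, w ∈ S ↔ B Q e w = 0 ∧ ∀ t : F, eich Q e (t • w) ∈ M)
    {v w : V} (hv : x v = v) (hv' : B Q e (y v) = 0) (hw : w ∈ S) :
    B Q v w • y v - B Q (y v) w • v ∈ S := by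
  refine (hS _).2 ⟨by simp [hv', h.b0 he hv], fun t => ?_⟩
  have := eich_move_mem hM (hb v hv 1) (eich_apply_of_perp (h.b0 hv he) (by simpa [B_comm Q e] using hv'))
    (w := t • w) (by simp [((hS w).1 hw).1]) (((hS w).1 hw).2 t)
  rw [one_smul, eich_apply (h.q0 hv) (h.b2 v), h.q1 hv] at this
  convert this using 2
  simp only [map_smul, smul_eq_mul]; module

theorem full1 (hM : M ≤ O Q) (hb : ∀ v, x v = v → ∀ t : F, eich Q v (t • y v) ∈ M) {e : V}
    (he : x e = e) {S : Submodule F V} (hS : ∀ w, w ∈ S ↔ B Q e w = 0 ∧ ∀ t : F, eich Q e (t • w) ∈ M)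
    {w : V} (hw : w ∈ S) (w1 : x w = w) (w2 : B Q (y e) w ≠ 0) {v : V} (hv : x v = v) : v ∈ S := by
  have k : ∀ v, x v = v → B Q e (y v) = 0 → B Q (y v) w ≠ 0 → v ∈ S := fun v hv a b => by
    simpa [h.b0 hv w1, S.smul_mem_iff b] using h.move hM hb he hS hv a hw
  have k' : ∀ v, x v = v → B Q e (y v) = 0 → v ∈ S := fun v hv a => by
    by_cases b : B Q (y v) w = 0
    · simpa using sub_mem (k (v + e) (by simp [hv, he]) (by simp [a, h.b2]) (by simpa [b]))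
        (k e he (h.b2 e) w2)
    · exact k v hv a b
  have w3 : B Q e (y w) ≠ 0 := by simpa [h.bz] using w2
  simpa using add_mem (k' (v - (B Q e (y v) / B Q e (y w)) • w) (by simp [hv, w1]) (by simp [w3]))
    (S.smul_mem (B Q e (y v) / B Q e (y w)) hw)

theorem full2 (hQ : Orth.Nd Q) (hM : M ≤ O Q) (hb : ∀ v, x v = v → ∀ t : F, eich Q v (t • y v) ∈ M)
    {e : V} (he : x e = e) {S : Submodule F V}
    (hS : ∀ w, w ∈ S ↔ B Q e w = 0 ∧ ∀ t : F, eich Q e (t • w) ∈ M) {w : V} (hw : y w ∈ S)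
    (w1 : x w = w) (w2 : w ∉ F ∙ e) {v : V} (hv : x v = v) (hv' : B Q e (y v) = 0) : y v ∈ S := by
  have k : ∀ v, x v = v → B Q e (y v) = 0 → B Q v (y w) ≠ 0 → y v ∈ S := fun v hv a b => by
    simpa [h.b1 hv w1, S.smul_mem_iff b] using h.move hM hb he hS hv a hw
  by_cases b : B Q v (y w) = 0
  swap; · exact k v hv hv' b
  obtain ⟨s, s1, s2⟩ := (h.symp hQ).exists_perp (K := F ∙ (⟨e, he⟩ : Vp x)) (x := ⟨w, w1⟩)
    fun c => w2 (by
      obtain ⟨t, ht⟩ := Submodule.mem_span_singleton.1 c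
      exact Submodule.mem_span_singleton.2 ⟨t, congrArg Subtype.val ht⟩)
  replace s1 : B Q e (y s) = 0 := s1 _ (Submodule.mem_span_singleton_self _)
  have s3 : B Q s (y w) ≠ 0 := by
    rw [B_comm, h.bz, neg_ne_zero]; exact ne_of_eq_of_ne s2 one_ne_zero
  simpa using sub_mem (k (v + s) (by simp [hv]) (by simp [hv', s1]) (by simpa [b])) (k s s.2 s1 s3)

theorem big [Finite F] (h' : QS Q a' c' x' y') (hQ : Orth.Nd Q) (hd : 5 ≤ finrank F V) (hM : M ≤ O Q)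
    (hb : ∀ v, x v = v → ∀ t : F, eich Q v (t • y v) ∈ M)
    (hb' : ∀ v, x' v = v → ∀ t : F, eich Q v (t • y' v) ∈ M) (hj : a * c ∈ M)
    (e1 : a * a' = a' * a) (e2 : c * a' = a' * c) (e3 : a * c' = c' * a) (e4 : c * c' = c' * c) :
    EO Q ≤ M := by
  obtain ⟨a1, a2⟩ := h'.cm'.1 ⟨e1, e3⟩
  obtain ⟨c1, c2⟩ := h'.cm'.1 ⟨e2, e4⟩
  obtain ⟨xx, xy⟩ := h.cm'.1 ⟨a1.symm, c1.symm⟩
  obtain ⟨yx, yy⟩ := h.cm'.1 ⟨a2.symm, c2.symm⟩
  replace xx := ap_of_comm xx
  replace xy := ap_of_comm xy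
  replace yx := ap_of_comm yx
  replace yy := ap_of_comm yy
  have h2 := h.pr.two
  have h4 : (4 : F) ≠ 0 := by simpa [← two_mul, show (2 : F) * 2 = 4 by norm_num] using mul_ne_zero h2 h2
  let p : V → V := fun z => z + x z + x' z + x (x' z)
  have p1 : ∀ z, x (p z) = p z := fun z => by simp [p, h.pr.xx]; abel
  have p2 : ∀ z, x' (p z) = p z := fun z => by simp [p, xx, h'.pr.xx]; abel
  have ex : ∀ e, ∃ v, x v = v ∧ x' v = v ∧ v ∉ F ∙ e := fun e => by
    by_contra! k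
    have ht : Submodule.span F {e, y e, y' e, y (y' e)} = ⊤ := eq_top_iff.2 fun z _ => by
      rw [← Submodule.smul_mem_iff _ h4, show (4 : F) • z =
        p z + y (p (y z)) + y' (p (y' z)) + y (y' (p (y (y' z)))) by
          simp [p, h.pr.xy, h'.pr.xy, h.pr.yy, h'.pr.yy, xx, xy, yx, yy]; module]
      choose t ht using fun z => Submodule.mem_span_singleton.1 (k _ (p1 z) (p2 z))
      simp only [← ht, map_smul]
      refine add_mem (add_mem (add_mem ?_ ?_) ?_) ?_ <;>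
        exact Submodule.smul_mem _ _ (Submodule.subset_span (by simp))
    have := finrank_span_four_le (F := F) e (y e) (y' e) (y (y' e))
    rw [ht, finrank_top] at this
    omega
  obtain ⟨e, f1, f2, f3⟩ : ∃ e, x e = e ∧ x' e = e ∧ B Q (y e) (y' e) ≠ 0 := by
    by_contra! k
    obtain ⟨e, f1, f2, f3⟩ := ex 0
    obtain ⟨z, hz⟩ := hQ.exists_B_ne (v := e) (by simpa using f3)
    obtain ⟨z, rfl⟩ := (y * y').surjective z
    have s : B Q (y (p z)) (y' e) = B Q (y e) (y' (p z)) := by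
      rw [B_comm, h'.bz, yy, h.bz]
    have := k (e + p z) (by simp [f1, p1]) (by simp [f2, p2])
    simp only [map_add (y : V ≃ₗ[F] V), map_add (y' : V ≃ₗ[F] V), map_add (B Q), LinearMap.add_apply,
      map_add (B Q _), k e f1 f2, k _ (p1 z) (p2 z), s, zero_add, add_zero, ← two_mul,
      mul_eq_zero, h2, false_or] at this
    have g1 : ∀ z, B Q (y e) (y' (x z)) = B Q (y e) (y' z) := fun z => by
      rw [yx, ← neg_inj, ← h.bx, h.pr.xy, f1, map_neg, LinearMap.neg_apply]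
    have g2 : ∀ z, B Q (y e) (y' (x' z)) = B Q (y e) (y' z) := fun z => by
      rw [← neg_neg (y' _), ← h'.pr.xy, map_neg, ← h'.bx, xy, f2]
    simp only [p, map_add, g1, g2] at this
    rw [LinearEquiv.mul_apply, ← neg_ne_zero, ← h.bz] at hz
    exact mul_ne_zero h4 hz (by linear_combination this)
  let S : Submodule F V :=
    { carrier := {w | B Q e w = 0 ∧ ∀ t : F, eich Q e (t • w) ∈ M}
      add_mem' := fun {u v} hu hv => ⟨by simp [hu.1, hv.1], fun t => smul_add t u v ▸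
        eich_add_mem (by simp [hu.1]) (by simp [hv.1]) (hu.2 t) (hv.2 t)⟩
      zero_mem' := ⟨by simp, fun t => by simp [eich_zero]⟩
      smul_mem' := fun s u hu => ⟨by simp [hu.1], fun t => by rw [smul_smul]; exact hu.2 _⟩ }
  have hS : ∀ w, w ∈ S ↔ B Q e w = 0 ∧ ∀ t : F, eich Q e (t • w) ∈ M := fun _ => Iff.rfl
  obtain ⟨w, w1, w2, w3⟩ := ex e
  have S1 := fun {v} => h.full1 hM hb f1 hS (v := v) ⟨h'.b2 e, hb' e f2⟩ (by rw [← yx, f1]) f3
  have S2 := fun {v} => h'.full1 hM hb' f2 hS (v := v) ⟨h.b2 e, hb e f1⟩ (by rw [xy, f2])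
    (by rwa [B_comm])
  obtain ⟨v, hv⟩ := (h.symp hQ).exists_ne (z := ⟨e, f1⟩) fun c => f3 (by
    simp [show e = 0 from congrArg Subtype.val c])
  refine EO_le_of_full_of_move hQ hd hM (h.q0 f1) (fun z hz => ?_) (mul_mem hj (hb v v.2 1)) ?_
  · obtain ⟨u, u', rfl⟩ := h.pr.ind z
    simpa using (add_mem (S1 u.2) (h.full2 hQ hM hb f1 hS (S2 (by rw [xy, w2])) w1 w3 u'.2
      (by simpa [h.b0 f1 u.2] using hz))).2 1
  · have j : ∀ u, x u = u → a (c u) = y u := fun u hu => by rw [← h.j, hu]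
    replace hv : B Q e (y v) ≠ 0 := hv
    simp [eich_apply_of_perp_left (h.q0 v.2) (h.b2 v) (h.b0 v.2 f1), j e f1, j v v.2, h.b2,
      B_comm Q (y v), hv]

end QS

end

theorem QS.split {F V : Type u} [Field F] [Fintype F] [AddCommGroup V] [Module F V]
    [FiniteDimensional F V] {Q : QuadraticForm F V} {R M : Subgroup (V ≃ₗ[F] V)}
    {a c x y : V ≃ₗ[F] V} (h : QS Q a c x y) (hp : (Fintype.card F).Prime) (hQ : Orth.Nd Q) (hR : ES R)
    (h0 : R ≤ O Q) (hn : 8 ≤ finrank F V) (ha : a ∈ R) (hc : c ∈ R)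
    (ac : a * c = ng F V * (c * a)) (hM : M ≤ O Q)
    (hN : ∀ g ∈ EO Q, g ∈ normalizer (R : Set (V ≃ₗ[F] V)) → g ∈ M) :
    (∀ g ∈ M, g * a = a * g → g * c = c * g → g ∈ normalizer (R : Set (V ≃ₗ[F] V))) ∨
      ∀ g ∈ O Q, g * a = a * g → g * c = c * g → g ∈ M := by
  refine (sp_core (fun _ _ _ _ => main) hp (h.symp hQ) (h.es hR ha hc ac)
    (fun k hk => h.mem_O.1 (h0 hk)) (by have := h.pr.dim; omega) (M := h.pr.Tg M)
    (fun k hk => h.mem_O.1 (hM hk))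
    fun k k1 k2 => hN _ (h.mem_EO hQ k1) (h.bd_norm hR ha hc ac k2)).imp (fun e g hg g1 g2 => ?_)
    fun e g hg g1 g2 => ?_ <;> obtain ⟨k, rfl⟩ := h.exists_bd g1 g2
  · exact h.bd_norm hR ha hc ac (e hg)
  · exact e (h.mem_O.1 hg)

end Cfsg.Agent.C6
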