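import Cfsg.Agent.C6.O1
import Cfsg.Agent.C6.O2
import Cfsg.Agent.Orth.Ext1

/-! Maximality of the normaliser of `2^{1+2m}_+` in the orthogonal group. -/

set_option autoImplicit false
set_option linter.unusedSimpArgs false
set_option linter.unusedSectionVars false
set_option linter.unusedVariables false

universe u

namespace Cfsg.Agent.C6

open Module Subgroup Cfsg.Agent.Orth

attribute [-simp] LinearEquiv.coe_inv

variable {F V : Type u} [Field F] [Fintype F] [AddCommGroup V] [Module F V]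
  [FiniteDimensional F V] {Q : QuadraticForm F V} {R M : Subgroup (V ≃ₗ[F] V)}
  {a b d g x s : V ≃ₗ[F] V}

theorem sq_of_O (hQ : Orth.Nd Q) (hg : g ∈ O Q) (h : Sc g) : g * g = 1 := by
  obtain ⟨c, hc⟩ := h
  refine LinearEquiv.ext fun v => sub_eq_zero.1 (hQ _ fun w => ?_)
  have := O_B hg w v
  simp only [hc, map_smul, LinearMap.smul_apply, smul_eq_mul] at this
  simp [hc, this]

theorem IsD.mem_O (h : IsD a b d) (h2 : (2 : F) ≠ 0) (ha : a ∈ O Q) (hb : b ∈ O Q)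
    (a1 : a * a = ng F V) (b1 : b * b = ng F V) : d ∈ O Q := fun v => by
  simpa [B_self, h2] using h.iso h2 (bi (B Q)) (O_B ha) (O_B hb) a1 b1 v v

theorem IsD.mem_EO (h : IsD a b d) (h2 : (2 : F) ≠ 0) (hQ : Orth.Nd Q) (hn : 5 ≤ finrank F V)
    (ha : a ∈ O Q) (hb : b ∈ O Q) (a1 : a * a = ng F V) (b1 : b * b = ng F V)
    (ab : a * b = ng F V * (b * a)) : d ∈ EO Q := by
  have e : ∀ v, d (d v) = d v - v := fun v => smul_right_injective V h2 <|
    smul_right_injective V h2 <| by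
      simp only [h _, smul_sub, smul_add, map_add, ← map_smul a, ← map_smul b, ap_sq' a1, ap_sq' b1,
        ap_of_anti ab, map_neg, smul_neg]
      simp only [map_smul]
      module
  have h1 := hQ.commutator_mem_EO hn ha hb
  have hd := h.mem_O h2 ha hb a1 b1
  have h3 := hQ.sq_mem_EO hn (mul_mem hd hd)
  rw [ab, show ng F V * (b * a) * a⁻¹ * b⁻¹ = ng F V by group] at h1
  rwa [show d * d * (d * d) = ng F V * d by ext; simp [e], mul_mem_cancel_left h1] at h3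

theorem ES.sc_of_fix2 (hR : ES R) (hn : 9 ≤ finrank F V) (hg : g ∈ normalizer (R : Set (V ≃ₗ[F] V)))
    (φ ψ : Dual F V) (h : ∀ v, φ v = 0 → ψ v = 0 → g v = v) : Sc g := by
  refine hR.cent g fun r hr => ?_
  have h1 := mul_mem ((mem_normalizer_iff.1 hg r).1 hr) (inv_mem hr)
  have h2 : LinearMap.ker φ ⊓ LinearMap.ker ψ ⊓ LinearMap.ker (φ ∘ₗ (r⁻¹ : V ≃ₗ[F] V)) ⊓
      LinearMap.ker (ψ ∘ₗ (r⁻¹ : V ≃ₗ[F] V)) ≤ Vp (g * r * g⁻¹ * r⁻¹) := by
    rintro v ⟨⟨⟨a, a'⟩, b⟩, b'⟩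
    have : g⁻¹ (r⁻¹ v) = r⁻¹ v := g.injective (by simpa using (h _ b b').symm)
    simp [this, h v a a']
  have h3 := (H6.finrank_ker₂_ge _ _).trans (Nat.add_le_add_right ((H6.finrank_inf_ker_ge _ _).trans
    (Nat.add_le_add_right ((H6.finrank_inf_ker_ge _ _).trans
      (Nat.add_le_add_right (Submodule.finrank_mono h2) 1)) 1)) 2)
  obtain ⟨w, a, b⟩ := H6.exists_ne_zero_of_finrank (K := Vp (g * r * g⁻¹ * r⁻¹)) (by omega)
  have h4 : g * r * g⁻¹ * r⁻¹ = 1 := by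
    generalize g * r * g⁻¹ * r⁻¹ = s at *
    rw [mem_Vp] at a
    rcases hR.sq s h1 with e | e
    · by_cases c : Sc s
      · exact (c.two e).resolve_right fun c => b (eq_zero_of_neg hR.two (by simpa [c] using a.symm))
      obtain ⟨y, -, hy⟩ := hR.exists_pr h1 e c
      have := hy.dim
      omega
    · exact (b (eq_zero_of_neg hR.two (by simpa [a] using ap_sq' e w))).elim
  rw [mul_inv_eq_one, mul_inv_eq_iff_eq_mul] at h4
  exact fun v => LinearEquiv.congr_fun h4 v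

theorem HasD.isC (hD : HasD R M) (hR : ES R) (hn : 8 ≤ finrank F V) (hx : x ∈ R) (x0 : ¬ Sc x)
    (x1 : x * x = 1) (hs : s ∈ R) (e : s * x = x * s) :
    ∃ k ∈ M, Ag x k 1 ∧ Ag (ng F V * x) k s := by
  have : Finite V := finite_of_finite F
  have : Finite (V ≃ₗ[F] V) := Finite.of_injective _ DFunLike.coe_injective
  obtain ⟨A, _, _, _, π, β, h, hd, -⟩ := hR.exists_XS hn
  obtain ⟨W, π', β', h', hd'⟩ := h.sub hx fun e => x0 e.2
  have key : ∀ a ∈ R, a * a = ng F V → a * x = x * a → ∃ k ∈ M, Ag x k 1 ∧ Ag (ng F V * x) k a :=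
    fun a ha a1 a2 => by
      obtain ⟨k, k1, k2⟩ := hD a ha _ (mul_mem hR.ng_mem (mul_mem hx ha)) a1 (by
        rw [sq_ng, mul_assoc, ← mul_assoc a, a2, mul_assoc, a1, ← mul_assoc, x1, one_mul])
      exact ⟨k, k1, k2.isC hR.two a1 a2⟩
  refine (hR.sq s hs).elim (fun s1 => ?_) fun s1 => key s hs s1 e
  obtain ⟨t, ⟨t1, t2⟩, t3, t4⟩ := h'.exists_ns (by omega)
    (show s ∈ R ⊓ centralizer {x} from ⟨hs, mem_centralizer_singleton_iff.2 e⟩)
  replace t2 : t * x = x * t := mem_centralizer_singleton_iff.1 t2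
  obtain ⟨k, k1, k2, k3⟩ := key t t1 t3 t2
  obtain ⟨l, l1, l2, l3⟩ := key (s * t⁻¹) (mul_mem hs (inv_mem t1)) (by
    rw [mul_assoc, ← mul_assoc t⁻¹, ← (Commute.inv_right t4).eq, mul_assoc, ← mul_inv_rev, t3,
      ← mul_assoc, s1, one_mul, inv_eq_of_mul_eq_one_right ng_ng])
    (Commute.mul_left e (Commute.inv_left t2)).eq
  exact ⟨l * k, mul_mem l1 k1, by simpa using l2.mul k2 (by simp),
    by simpa using l3.mul k3 (comm_ng t2)⟩

theorem hasN_of_small (hR : ES R) (hn : 16 ≤ finrank F V) (hZ : ∀ z ∈ R, Sc z → z * z = 1)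
    (hD : HasD R M) (hS : ∀ a ∈ R, ∀ c ∈ R, a * a = ng F V → c * c = ng F V →
      a * c = ng F V * (c * a) → ∀ g ∈ M, g * a = a * g → g * c = c * g →
        g ∈ normalizer (R : Set (V ≃ₗ[F] V))) : HasN R M := by
  refine hasN_of fun x hx x1 x0 => ?_
  obtain ⟨y, hy, h⟩ := hR.exists_pr hx x1 x0
  have : Finite (Vp x) := finite_of_finite F
  have : Finite (Vp x ≃ₗ[F] Vp x) := Finite.of_injective _ DFunLike.coe_injective
  have hE := h.es hR hx hy
  have hm := fun {k} => h.mem_resG_iff (k := k) hR hx hy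
  obtain ⟨A, _, _, _, π, β, hX, hd, -⟩ := hE.exists_XS (by have := h.dim; omega)
  have hZ' : ∀ z ∈ resG x R ⊓ ScG F _, z * z = 1 := fun z hz => LinearEquiv.ext fun v =>
    Subtype.ext (by simpa using LinearEquiv.congr_fun (hZ _ (hm.1 hz.1) (h.sc_bd hz.2)) v)
  have RK : resG x R ≤ h.Kg M := fun j hj => by
    obtain ⟨k, k1, k2, k3⟩ := hD.isC hR (by omega) (mul_mem hR.ng_mem hx) (mt sc_ng_mul.1 x0)
      (sq_ng.trans x1) (hm.1 hj) (comm_ng (h.bd_comm j j))
    rwa [h.mem_Kg, ← show k = h.bd j 1 from h.ext (fun u => by simpa using k3 u (by simp))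
      fun u => by simpa using k2 (y u) (by simp [h.xy])]
  have sq : ∀ a, a * a = ng F _ → h.bd a a * h.bd a a = ng F V := fun a e => by
    rw [h.bd_mul, e, h.bd_ng]
  have := hX.ktrick hZ' (by omega) (fun z hz => Sc.two hz.2 (hZ' z hz)) RK (fun k _ => ng_cm k)
    (fun a ha b hb a1 b1 => by
      obtain ⟨d, d1, d2⟩ := hD _ (hm.1 ha) _ (hm.1 hb) (sq a a1) (sq b b1)
      obtain ⟨k, k', rfl⟩ := h.exists_bd (g := d) (LinearEquiv.ext fun v =>
        smul_right_injective V h.two (by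
          simp only [LinearEquiv.mul_apply, ← map_smul x, d2 _, map_add x,
            ← ap_of_comm (h.bd_comm _ _)]))
      exact ⟨k, fun _ => h.Kg_conj (h.bd_mem_resG _ _ d1), fun r hr => IsD.cj_eq h.two hX.ε1
        (fun v => Subtype.ext (by simpa using d2 v)) a1 b1 (hX.anti hb hr)
          (hX.anti ha (cj_mem hb hr))⟩)
    fun a ha c hc a1 c1 ac k hk e1 e2 => by
      have := conj_mem_of_norm (hS _ (hm.1 ha) _ (hm.1 hc) (sq a a1) (sq c c1)
        (by rw [h.bd_mul, ac, h.bd_mul, ← h.bd_ng, h.bd_mul]) _ hk (by simp [h.bd_mul, e1])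
        (by simp [h.bd_mul, e2])) hy
      rw [h.bd_y, h.bd_inv, mul_assoc, h.bd_mul, mul_mem_cancel_left hy] at this
      simpa using h.bd_mem_resG _ _ this
  exact fun l hl => mem_normalizer_fintype fun r hr => this (h.Kg_conj hl (RK hr))

theorem o_core (hp : (Fintype.card F).Prime) (hQ : Orth.Nd Q) (hR : ES R) (h0 : R ≤ O Q)
    (hn : 16 ≤ finrank F V) : (∃ g ∈ EO Q, g ∉ normalizer (R : Set (V ≃ₗ[F] V))) ∧
      ∀ M ≤ O Q, (∀ g ∈ EO Q, g ∈ normalizer (R : Set (V ≃ₗ[F] V)) → g ∈ M) →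
        M ≤ normalizer (R : Set (V ≃ₗ[F] V)) ∨ EO Q ≤ M := by
  have : Finite V := finite_of_finite F
  have : Finite (V ≃ₗ[F] V) := Finite.of_injective _ DFunLike.coe_injective
  have h2 := hR.two
  obtain ⟨A, _, _, _, π, β, h, -, hd⟩ := hR.exists_XS (by omega)
  replace hd := hd hn
  have hZ : ∀ z ∈ R ⊓ ScG F V, z * z = 1 := fun z hz => sq_of_O hQ (h0 hz.1) hz.2
  refine ⟨?_, fun M hM hN => ?_⟩
  · obtain ⟨a, ha, a1, -⟩ := h.exists_ns (by omega) (one_mem R)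
    obtain ⟨c, hc, c1, ac, -⟩ := h.exists_both hZ (by omega) ha ha (h.notZ hZ a1) (h.notZ hZ a1) rfl
    obtain ⟨x, y, q⟩ := exists_QS h2 (h0 ha) (h0 hc) a1 c1 ac
    obtain ⟨v, v1, v0⟩ := H6.exists_ne_zero_of_finrank (K := Vp x) (by have := q.pr.dim; omega)
    refine ⟨_, eich_mem_EO v (y v), fun e => ?_⟩
    obtain ⟨t, ht⟩ := hR.sc_of_fix2 (by omega) e (B Q v) (B Q (y v)) fun _ => eich_apply_of_perp
    obtain ⟨⟨z, hz⟩, z1⟩ := (q.symp hQ).exists_ne (z := ⟨v, v1⟩) (by simpa)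
    obtain rfl : t = 1 := smul_left_injective F v0 (by
      simpa [eich_apply_self (q.q0 v1) (q.b2 v)] using (ht v).symm)
    have := ht (y z)
    rw [eich_apply (q.q0 v1) (q.b2 v), q.b1 v1 hz, q.q1 v1] at this
    simp [v0, show B Q v (y z) ≠ 0 from z1] at this
  have dE : ∀ a ∈ R, ∀ b ∈ R, a * a = ng F V → b * b = ng F V → ∀ d, IsD a b d → d ∈ EO Q :=
    fun a ha b hb a1 b1 d hd => by
      refine (h.anti ha hb).elim (fun ab => ?_) (hd.mem_EO h2 hQ (by omega) (h0 ha) (h0 hb) a1 b1)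
      obtain ⟨e, he, e1, e2, e3⟩ := h.exists_both hZ (by omega) ha hb (h.notZ hZ a1) (h.notZ hZ b1) ab
      have he' := mul_mem hR.ng_mem he
      obtain ⟨k, -, k1⟩ := hR.exists_isD ha he a1 e1
      obtain ⟨l, -, l1⟩ := hR.exists_isD he' hb (sq_ng.trans e1) b1
      convert mul_mem (k1.mem_EO h2 hQ (by omega) (h0 ha) (h0 he) a1 e1 e2) (l1.mem_EO h2 hQ (by omega)
        (h0 he') (h0 hb) (sq_ng.trans e1) b1 (by ext; simp [ap_of_anti e3]))
      refine LinearEquiv.ext fun v => smul_right_injective V h2 <| smul_right_injective V h2 ?_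
      simp only [LinearEquiv.mul_apply, hd _, k1 _, smul_add, map_add, ← map_smul a, ← map_smul e,
        l1 _, ng_apply, map_neg, ap_sq' e1]
      simp only [map_smul]
      module
  have hD : HasD R M := fun a ha b hb a1 b1 =>
    let ⟨d, d1, d2⟩ := hR.exists_isD ha hb a1 b1
    ⟨d, hN d (dE a ha b hb a1 b1 d d2) d1, d2⟩
  have RM : R ≤ M := fun r hr => by
    have k : ∀ a ∈ R, a * a = ng F V → a ∈ M := fun a ha a1 => hN a (dE a ha a ha a1 a1 a fun v => by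
      simp [ap_sq' a1, two_smul]; abel) (le_normalizer ha)
    refine (hR.sq r hr).elim (fun r1 => ?_) (k r hr)
    obtain ⟨t, t1, t2, t3⟩ := h.exists_ns (by omega) hr
    refine (mul_mem_cancel_right (k t t1 t2)).1 (k _ (mul_mem hr t1) ?_)
    rw [mul_assoc, ← mul_assoc t, ← t3, mul_assoc, t2, ← mul_assoc, r1, one_mul]
  by_cases hS : ∀ a ∈ R, ∀ c ∈ R, a * a = ng F V → c * c = ng F V →
      a * c = ng F V * (c * a) → ∀ g ∈ M, g * a = a * g → g * c = c * g →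
        g ∈ normalizer (R : Set (V ≃ₗ[F] V))
  · exact Or.inl (main R M hR (by omega) (Or.inr (Or.inl hn)) RM hD (hasZ_of_sq hR fun g hg c hc => by
      obtain ⟨v, -, v0⟩ := H6.exists_ne_zero_of_finrank (K := (⊤ : Submodule F V)) (by simp; omega)
      exact smul_left_injective F v0 (by
        simpa [hc, smul_smul] using LinearEquiv.congr_fun (sq_of_O hQ (hM hg) ⟨c, hc⟩) v))
      (hasN_of_small hR hn (fun z a b => hZ z ⟨a, b⟩) hD hS))
  simp only [not_forall] at hS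
  obtain ⟨a, ha, c, hc, a1, c1, ac, hS⟩ := hS
  obtain ⟨x, y, q⟩ := exists_QS h2 (h0 ha) (h0 hc) a1 c1 ac
  have hb := (q.split hp hQ hR h0 (by omega) ha hc ac hM hN).resolve_left (by
    simpa only [not_forall] using hS)
  obtain ⟨k, k1, a2, c2, e1, e2, e3, e4⟩ := h.exists_cpair hZ (by omega) M (fun a ha b hb a1 b1 =>
    let ⟨d, d1, d2⟩ := hD a ha b hb a1 b1
    ⟨d, d1, fun r hr => d2.cj_eq h2 h.ε1 a1 b1 (h.anti hb hr) (h.anti ha (cj_mem hb hr))⟩)
    ha hc a1 c1 ac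
  obtain ⟨x', y', q'⟩ := exists_QS h2 (h0 a2) (h0 c2) (by rw [conj_sq, a1, ng_cm]; simp)
    (by rw [conj_sq, c1, ng_cm]; simp) (by rw [conj_mul, conj_mul, ac, ← mul_assoc k, ng_cm]; group)
  have key : ∀ {a c x y}, QS Q a c x y → (∀ g ∈ O Q, g * a = a * g → g * c = c * g → g ∈ M) →
      ∀ v, x v = v → ∀ t : F, eich Q v (t • y v) ∈ M := fun q e v hv t => by
    have := q.bd_cm (H9.Sp.tvE (q.symp hQ) ⟨v, hv⟩ (-t))
    rw [q.bd_tv hQ, neg_neg] at this
    exact e _ (eich_mem_O _ _) this.1 this.2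
  refine Or.inr (q.big q' hQ (by omega) hM (key q hb) (key q' fun g hg g1 g2 => ?_)
    (RM (mul_mem ha hc)) e1 e2 e3 e4)
  have k2 : ∀ r, g * (k * r * k⁻¹) = k * r * k⁻¹ * g → k⁻¹ * g * k * r = r * (k⁻¹ * g * k) :=
    fun r e => by rw [← mul_right_inj k, ← mul_left_inj k⁻¹]; simpa [mul_assoc] using e
  simpa [mul_assoc] using mul_mem (mul_mem k1 (hb _ (mul_mem (mul_mem (inv_mem (hM k1)) hg) (hM k1))
    (k2 a g1) (k2 c g2))) (inv_mem k1)

end Cfsg.Agent.C6
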