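import Cfsg.Agent.C6.Hall
import Cfsg.Agent.C6.Main
import Cfsg.Agent.H9.O6.Kl5
import Cfsg.Agent.H9.Sp.Cl4

/-! Maximality of the normaliser of `4 ∘ 2^{1+6}` in `SL_8(p)`. -/

set_option autoImplicit false
set_option linter.unusedSimpArgs false
set_option linter.unusedSectionVars false
set_option linter.unusedVariables false

universe u

namespace Cfsg.Agent.C6

open Module Subgroup Cfsg.Agent.H6

attribute [-simp] LinearEquiv.coe_inv

theorem of_isMaximalIn {G G' : Type*} [Group G] [Group G'] (φ : G ≃* G') {K H : Subgroup G}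
    {K' H' M : Subgroup G'} (hK : ∀ g, g ∈ K ↔ φ g ∈ K') (hH : ∀ g, g ∈ H ↔ φ g ∈ H')
    (h : Geo.IsMaximalIn K (H ⊓ K)) (h1 : M ≤ K') (h2 : ∀ g ∈ K', g ∈ H' → g ∈ M) :
    M ≤ H' ∨ K' ≤ M :=
  (h.2 (M.comap φ.toMonoidHom) (fun g hg => h2 _ ((hK g).1 hg.2) ((hH g).1 hg.1))
    fun g hg => (hK g).2 (h1 hg)).imp
    (fun e g hg => by obtain ⟨g, rfl⟩ := φ.surjective g; exact (hH g).1 (e.le hg).1)
    fun e g hg => by obtain ⟨g, rfl⟩ := φ.surjective g; exact e.ge ((hK g).2 hg)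

theorem mem_normalizer_comap {G G' : Type*} [Group G] [Group G'] (φ : G ≃* G') (R : Subgroup G')
    (g : G) : g ∈ normalizer (R.comap φ.toMonoidHom : Set G) ↔ φ g ∈ normalizer (R : Set G') := by
  simp only [mem_normalizer_iff, φ.surjective.forall, mem_comap, MulEquiv.coe_toMonoidHom, map_mul,
    map_inv]

variable {F V : Type u} [Field F] [AddCommGroup V] [Module F V] {R M : Subgroup (V ≃ₗ[F] V)}
  {x y g i : V ≃ₗ[F] V} [Finite F] [FiniteDimensional F V]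

theorem ES.irr (h : ES R) (W : Submodule F V) (hW : ∀ r ∈ R, ∀ w ∈ W, r w ∈ W) : W = ⊥ ∨ W = ⊤ := by
  by_contra! k
  obtain ⟨w, h1, h2⟩ := Submodule.exists_mem_ne_zero_of_ne_bot k.1
  obtain ⟨v, -, hv⟩ := SetLike.exists_of_lt k.2.lt_top
  obtain ⟨φ, h3, h4⟩ := exists_dual_one hv
  have := h.eq_zero (f := φ.smulRight w) fun t ht => by
    rw [LinearMap.trace_mul_comm, show (t : End F V) * φ.smulRight w = φ.smulRight (t w) by ext; simp,
      LinearMap.trace_smulRight, h3 _ (hW t ht w h1)]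
  exact h2 (by simpa [h4] using LinearMap.congr_fun this v)

theorem ES.absIrr (h : ES R) {ι : Type} [Fintype ι] [DecidableEq ι] (e : (ι → F) ≃ₗ[F] V) :
    H7.AbsIrr (R.comap (glEquiv e).toMonoidHom) := by
  refine H7.absIrr_iff.2 ⟨fun W hW => ?_, fun X hX => ?_⟩
  · refine (h.irr (W.map e.toLinearMap) ?_).imp (by simp) (by simp)
    rintro r hr _ ⟨w, hw, rfl⟩
    obtain ⟨r, rfl⟩ := (glEquiv e).surjective r
    exact ⟨_, hW _ ⟨r, hr, rfl⟩ ⟨w, hw, rfl⟩, by simp [glEquiv_apply]⟩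
  · obtain ⟨c, hc⟩ := h.cent (e.conj (Matrix.toLin' X)) fun r hr v => by
      obtain ⟨r, rfl⟩ := (glEquiv e).surjective r
      simp [glEquiv_apply, hX _ ⟨r, hr, rfl⟩]
    refine ⟨c, Matrix.toLin'.injective (LinearMap.ext fun v => e.injective ?_)⟩
    simpa using hc (e v)

theorem glEquiv_eq_smul {ι : Type} [Fintype ι] [DecidableEq ι] (e : (ι → F) ≃ₗ[F] V) {g : GL ι F}
    {c : F} (h : ∀ v, glEquiv e g v = c • v) : g.1 = c • 1 :=
  Matrix.toLin'.injective (LinearMap.ext fun v => e.injective (by simpa [glEquiv_apply] using h (e v)))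

theorem ES.pm (h : ES R) {ι : Type} [Fintype ι] [DecidableEq ι] (e : (ι → F) ≃ₗ[F] V) :
    ∀ r ∈ R.comap (glEquiv e).toMonoidHom, r.1 * r.1 = 1 ∨ r.1 * r.1 = -1 := fun r hr =>
  (h.sq' hr).imp (fun a => by simpa using glEquiv_eq_smul e (g := r * r) (c := 1) (by simpa))
    fun a => by simpa using glEquiv_eq_smul e (g := r * r) (c := -1) (by simpa)

theorem sl_four (hp : ∀ c : F, ∃ n : ℕ, c = n) (hR : ES R) (hi : i ∈ R) (h1 : Sc i)
    (h2 : i * i = ng F V) (hn : finrank F V = 4) (hM : M ≤ SLV F V)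
    (hN : ∀ g ∈ SLV F V, g ∈ normalizer (R : Set (V ≃ₗ[F] V)) → g ∈ M) :
    M ≤ normalizer (R : Set (V ≃ₗ[F] V)) ∨ SLV F V ≤ M := by
  have := nontrivial_of_finrank_pos (show 0 < finrank F V by omega)
  obtain ⟨ι, h3, h4⟩ := sc_sq h1 h2
  let e : (Fin 4 → F) ≃ₗ[F] V := .ofFinrankEq _ _ (by simp [hn])
  obtain ⟨i, rfl⟩ := (glEquiv e).surjective i
  exact of_isMaximalIn (glEquiv e) (fun g => (glEquiv_mem_SLV e g).symm) (mem_normalizer_comap _ R)
    (H9.O6.sl4_core hp hR.two (hR.pm e) (hR.absIrr e) h4 hi (glEquiv_eq_smul e h3)) hM hN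

theorem Pr.sl_big (h : Pr x y) (hn : 3 ≤ finrank F (Vp x)) (hy : y ∈ M)
    (hK : SLV F (Vp x) ≤ h.Kg M) (hg : g ∈ M) (h1 : ∀ v, g (x v) = -y (g v)) : SLV F V ≤ M := by
  let A := fun x : V ≃ₗ[F] V =>
    ∀ u (φ : Dual F V), x u = u → (∀ v, φ (x v) = φ v) → φ u = 0 → HasT M u φ
  have h0 : ∀ (φ : Dual F V), (∀ v, φ (x v) = φ v) → ∀ u, x u = u → φ (y u) = 0 := fun φ a u b =>
    half (V := F) h.two (by simpa [h.xy, b, neg_eq_iff_add_eq_zero] using a (y u))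
  have h2 : A x := fun u φ a b c =>
    ⟨_, hK (tv_mem_SLV (⟨u, mem_Vp.2 a⟩ : Vp x) (φ ∘ₗ (Vp x).subtype) (by exact c)), fun v => by
      obtain ⟨a, d, rfl⟩ := h.ind v
      erw [h.bd_add, tv_apply]
      simp [h0 φ b, add_right_comm]⟩
  have h3 : ∀ x x', A x → ∀ g ∈ M, (∀ v, g (x v) = x' (g v)) → A x' := fun x x' k g hg e u φ a b c => by
    obtain ⟨u, rfl⟩ := g.surjective u
    exact (k u (φ ∘ₗ g) (g.injective (by rw [e, a])) (by simp [e, b]) c).conj hg fun _ => rfl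
  have h4 := h3 _ (ng F V * x) h2 y hy (by simp [h.xy])
  have h5 := h3 _ y h4 g hg (by simp [h1])
  have h6 : ∀ u : Vp x, Full M (u : V) := fun u => by
    have k : ∀ β : Dual F V, ∃ w, ∃ α : Dual F V, x w = w ∧ β w = 0 ∧ (∀ v, α (x v) = α v) ∧
        α u = 0 ∧ α w = 1 := fun β => by
      obtain ⟨w, a, b⟩ := exists_not_mem_one (K := Vp x ⊓ LinearMap.ker β)
        (by have := finrank_inf_ker_ge (Vp x) β; omega) u
      obtain ⟨α, c, d⟩ := exists_dual_pair b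
      refine ⟨w, (2 : F)⁻¹ • (α + α ∘ₗ x), a.1, a.2, by simp [h.xx, add_comm], by simp [c], ?_⟩
      simp [show x w = w from a.1, d, ← two_mul, h.two]
    have k1 : ∀ α : Dual F V, (∀ v, α (x v) = α v) → α u = 0 → HasT M u (α ∘ₗ y) := fun α a b => by
      obtain ⟨w, β, c1, c2, c3, c4, c5⟩ := k α
      have := (h2 u β u.2 c3 c4).comm (h5 (w + y w) (α + α ∘ₗ y) (by simp [h.yy, add_comm])
        (by simp [h.yy, add_comm]) (by simp [h.yy, c2, h0 α a w c1])) c4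
        (by simp [h.yy, c2, h0 α a w c1]) (by simp [b, h0 α a])
      simpa [c5, h0 β c3 w c1] using this.sub_right (h2 u α u.2 a b) (by simp [b, h0 α a]) b
    intro φ hφ
    obtain ⟨w, β, c1, c2, c3, c4, c5⟩ := k (φ ∘ₗ y)
    have c6 : φ (y w) = 0 := c2
    have := (k1 β c3 c4).comm (h4 (y w) ((2 : F)⁻¹ • (φ - φ ∘ₗ x)) (by simp [h.xy, c1])
      (fun v => by simp [h.xx, neg_add_eq_sub]) (by simp [h.xy, c1, c6])) (by simp [h0 β c3]) (by simp [h.xy, c1, c6])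
      (by simp)
    refine ((h2 u ((2 : F)⁻¹ • (φ + φ ∘ₗ x)) u.2 (by simp [h.xx, add_comm])
      (by simp [hφ])).add_right this (by simp [hφ])).congr fun v => ?_
    congr 1
    have := h.two
    simp [h.yy, c5]
    field_simp
    ring
  refine SLV_le_of_full fun v => ?_
  obtain ⟨a, b, rfl⟩ := h.ind v
  exact (h6 a).add ((h6 b).map hy)

theorem sl_eight (hp : ∀ c : F, ∃ n : ℕ, c = n) (hR : ES R) (hi : i ∈ R) (h1 : Sc i)
    (h2 : i * i = ng F V) (hn : finrank F V = 8) (hM : M ≤ SLV F V)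
    (hN : ∀ g ∈ SLV F V, g ∈ normalizer (R : Set (V ≃ₗ[F] V)) → g ∈ M) :
    M ≤ normalizer (R : Set (V ≃ₗ[F] V)) ∨ SLV F V ≤ M := by
  have h3 : R ≤ M := fun r hr => hN r (hR.le_SLV hi h1 h2 (by simp [hn]) hr) (le_normalizer hr)
  have h4 : HasD R M := fun a ha b hb c d =>
    let ⟨g, hg, e⟩ := hR.exists_isD ha hb c d
    ⟨g, hN g (e.det_one hR hi h1 h2 (by simp [hn]) ha hb c d) hg, e⟩
  by_cases k : ∀ x ∈ R, x * x = 1 → ¬Sc x →
      resG x M ≤ normalizer (resG x R : Set (Vp x ≃ₗ[F] Vp x))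
  · exact Or.inl (main R M hR hn.ge (Or.inl ⟨i, hi, h1, h2⟩) h3 h4 (hasZ_of_i hR hi h1 h2) (hasN_of k))
  push Not at k
  obtain ⟨x, hx, a, b, k⟩ := k
  obtain ⟨y, hy, h⟩ := hR.exists_pr hx a b
  have hE := h.es hR hx hy
  have h5 : finrank F (Vp x) = 4 := by have := h.dim; omega
  have := nontrivial_of_finrank_pos (show 0 < finrank F (Vp x) by omega)
  obtain ⟨j, j', rfl⟩ := h.exists_bd (h1.cm6 x).symm
  have j1 := h.bd_mem_resG _ _ hi
  have j2 := h.sc_of_bd h1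
  have j3 : j * j = ng F _ := LinearEquiv.ext fun v => Subtype.ext (by
    simpa using LinearEquiv.congr_fun h2 v)
  have h6 := hE.le_SLV j1 j2 j3 (by simp [h5])
  have h7 : ∀ k ∈ SLV F (Vp x), k ∈ normalizer (resG x R : Set (Vp x ≃ₗ[F] Vp x)) →
      k ∈ resG x M ⊓ SLV F (Vp x) := fun g c d => ⟨h.bd_mem_resG g g (hN _
        (mem_SLV'.2 (by rw [h.det_bd, mem_SLV'.1 c, one_mul])) (h.bd_norm hR hx hy d)), c⟩
  have h8 := (sl_four hp hE j1 j2 j3 h5 inf_le_right h7).resolve_left fun e => k fun g hg =>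
    hE.mem_normalizer j1 j2 j3 h6 (fun _ _ _ _ _ _ _ a _ => a) (by
      rw [← le_antisymm (le_inf e inf_le_right) fun g a => h7 g a.2 a.1]
      exact mem_normalizer_iff.2 fun r => and_congr (mem_normalizer_iff.1 (le_normalizer hg) r)
        (by simp [mem_SLV, mul_comm]))
  obtain ⟨t, ht, c, d⟩ := hE.exists_inv (by omega)
  obtain ⟨s, hs, h'⟩ := hE.exists_pr ht c d
  obtain ⟨g, hg, e⟩ := h4 _ (mul_mem hx hy) _ hi (by ext; simp [h.xy, h.xx, h.yy]) h2
  obtain ⟨v, -, hv⟩ := exists_ne_zero_of_finrank (K := (⊤ : Submodule F (Vp t)))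
    (by have := h'.dim; rw [finrank_top]; omega)
  refine Or.inr (h.sl_big (by omega) (h3 hy) ?_ hg fun v => ?_)
  · refine SLV_le_of_inv hR.two (by omega) (fun g a k b => h.Kg_conj (h8 a).1 b) (t := t) (hN _
      (mem_SLV'.2 (by rw [h.det_bd, mem_SLV'.1 (h6 ht)]; simp)) (h.bd_norm' hR hx hy ht)) h'.xx
      (a := v) (b := s v) (by simpa) (by simpa) v.2 (by simp [h'.xy])
  · rw [e.cnj6 h.two (by ext; simp [h.xy, h.xx, h.yy]) (by simp [h.xy, h.xx])
      (LinearEquiv.congr_fun (h.bd_comm _ _))]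
    simp [h.xy, h.xx]

theorem sl8_c6 {F : Type u} [Field F] [Fintype F] {p : ℕ} (hp : p.Prime) (hF : Fintype.card F = p)
    (h4 : p % 4 = 1) (R : Subgroup (GL (Fin 8) F)) (h : Geo.IsLinearSymplecticTypeData 2 R) :
    Geo.IsMaximalIn (Geo.specialLinear (Fin 8) F)
      (Geo.subgroupNormalizer R ⊓ Geo.specialLinear (Fin 8) F) := by
  have hR := es_of_symplecticType h.symplecticType h.absIrred
    (H9.Sp.two_ne_zero_of_odd (hF ▸ Nat.odd_iff.2 (by omega)))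
  obtain ⟨i, hi, h1, h2⟩ := exists_i h.absIrred hR (by
    obtain ⟨_, _, -, -, a | a | a⟩ := h.field
    · exact absurd a.1 (by decide)
    · exact a.2.2.1
    · simpa using a.2.2.1)
  refine isMaximalIn_of_core (.refl F _) _ (· ∈ normalizer (im R : Set _))
    (fun g => mem_normalizer_im) ?_ fun M a b ⟨g, c, d⟩ => (sl_eight
      (H9.Sp.prime_field_cast (hF ▸ hp)) hR hi h1 h2 (by simp) a b).resolve_left fun e => d (e c)
  refine ⟨_, tv_mem_SLV (Pi.single 0 1) (.proj 1) (by simp), fun e => ?_⟩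
  obtain ⟨c, hc⟩ := hR.sc_of_fix (by simp) e (.proj 1) fun z hz => by rw [tv_apply, hz]; simp
  simpa using congrFun (hc (Pi.single 1 1)) 0

end Cfsg.Agent.C6
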