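import Cfsg.Agent.C6.Geo2
import Cfsg.Agent.C6.Geo3
import Cfsg.Agent.C6.Grp

/-! The symplectic space of a `2`-group of symplectic type. -/

set_option autoImplicit false
set_option linter.unusedSimpArgs false
set_option linter.unusedSectionVars false
set_option linter.unusedVariables false

namespace Cfsg.Agent.C6

open Subgroup Module

universe u

variable {G : Type u} [Group G]

/-- `π : R → A` identifies `R / Z` with a symplectic space -/
structure XS (R Z : Subgroup G) (ε : G) {A : Type*} [AddCommGroup A] [Module (ZMod 2) A]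
    (π : G → A) (β : A →ₗ[ZMod 2] A →ₗ[ZMod 2] ZMod 2) : Prop where
  ε1 : ε ≠ 1
  εZ : ε ∈ Z
  ZR : Z ≤ R
  sq : ∀ r ∈ R, r * r = 1 ∨ r * r = ε
  mul : ∀ r ∈ R, ∀ s ∈ R, π (r * s) = π r + π s
  ker : ∀ r ∈ R, π r = 0 ↔ r ∈ Z
  surj : ∀ a, ∃ r ∈ R, π r = a
  comm : ∀ r ∈ R, ∀ s ∈ R, β (π r) (π s) = 0 ↔ r * s = s * r
  nd : Nd β ⊤

theorem anti_of_sq {R : Subgroup G} {ε : G} (h1 : ε * ε = 1) (hc : ∀ r ∈ R, r * ε = ε * r)
    (sq : ∀ r ∈ R, r * r = 1 ∨ r * r = ε) {r s : G} (hr : r ∈ R) (hs : s ∈ R) :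
    r * s = s * r ∨ r * s = ε * (s * r) := by
  have e : r * s = (r * s * (r * s)) * (s * s)⁻¹ * (s * (r * r)⁻¹ * s⁻¹) * (s * r) := by group
  have h2 : ε⁻¹ = ε := inv_eq_of_mul_eq_one_right h1
  have h3 : s * ε * s⁻¹ = ε := by rw [hc s hs]; simp
  rcases sq r hr with a | a <;> rcases sq s hs with b | b <;>
    rcases sq _ (mul_mem hr hs) with c | c <;> rw [a, b, c] at e <;>
    simp only [inv_one, mul_one, mul_inv_cancel, one_mul, h2, h3, h1] at e <;> simp [e]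

theorem exists_XS [Finite G] {R Z : Subgroup G} {ε : G} (h0 : ε ≠ 1) (h1 : ε ∈ Z)
    (hZ : ∀ z, z ∈ Z ↔ z ∈ R ∧ ∀ r ∈ R, r * z = z * r) (sq : ∀ r ∈ R, r * r = 1 ∨ r * r = ε) :
    ∃ (A : Type u) (_ : AddCommGroup A) (_ : Module (ZMod 2) A) (_ : FiniteDimensional (ZMod 2) A)
      (π : G → A) (β : A →ₗ[ZMod 2] A →ₗ[ZMod 2] ZMod 2), XS R Z ε π β := by
  classical
  have hε := (hZ ε).1 h1
  have h2 : ε * ε = 1 := (sq ε hε.1).resolve_right (by simpa)
  have anti := fun {r s} => anti_of_sq (r := r) (s := s) h2 hε.2 sq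
  have hc : ∀ r : R, r ∈ center R ↔ r.1 ∈ Z := fun r => by
    simp [hZ, mem_center_iff, Subtype.ext_iff]
  letI : CommGroup (R ⧸ center R) := { (inferInstance : Group (R ⧸ center R)) with
    mul_comm := fun a b => by
      obtain ⟨a, rfl⟩ := QuotientGroup.mk_surjective a
      obtain ⟨b, rfl⟩ := QuotientGroup.mk_surjective b
      rw [← QuotientGroup.mk_mul, ← QuotientGroup.mk_mul, eq_comm, QuotientGroup.eq, hc]
      rcases anti a.2 b.2 with e | e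
      · simp [e]
      · simp only [Subgroup.coe_mul, Subgroup.coe_inv, e]
        rw [← hε.2 _ (mul_mem b.2 a.2), inv_mul_cancel_left]; exact h1 }
  let π : G → Additive (R ⧸ center R) := fun g =>
    if hg : g ∈ R then Additive.ofMul (QuotientGroup.mk ⟨g, hg⟩) else 0
  have mul : ∀ r ∈ R, ∀ s ∈ R, π (r * s) = π r + π s := fun r hr s hs => by
    simp only [π, dif_pos hr, dif_pos hs, dif_pos (mul_mem hr hs)]; rfl
  have ker : ∀ r ∈ R, π r = 0 ↔ r ∈ Z := fun r hr => by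
    simp only [π, dif_pos hr, ofMul_eq_zero, QuotientGroup.eq_one_iff, hc]
  have surj : ∀ a, ∃ r ∈ R, π r = a := fun a => by
    obtain ⟨a, rfl⟩ := QuotientGroup.mk_surjective (s := center R) a
    exact ⟨a.1, a.2, by simp only [π, dif_pos a.2]; rfl⟩
  have two : ∀ a : Additive (R ⧸ center R), 2 • a = 0 := fun a => by
    obtain ⟨r, hr, rfl⟩ := surj a
    rw [two_nsmul, ← mul r hr r hr, ker _ (mul_mem hr hr)]
    rcases sq r hr with e | e <;> simp [e, h1]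
  letI : Module (ZMod 2) (Additive (R ⧸ center R)) := AddCommGroup.zmodModule two
  choose s hs hs' using surj
  let b : G → G → ZMod 2 := fun r t => if r * t = t * r then 0 else 1
  have bs : ∀ r t, b r t = b t r := fun r t => by simp [b, eq_comm]
  have bm : ∀ r ∈ R, ∀ t ∈ R, ∀ t' ∈ R, b r (t * t') = b r t + b r t' := fun r hr t ht t' ht' => by
    have n : ∀ x : G, ¬ ε * x = x := by simpa
    rcases anti hr ht with e | e <;> rcases anti hr ht' with e' | e' <;>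
      simp only [b, ← mul_assoc r, e, mul_assoc, e', ← mul_assoc t ε, hε.2 t ht, ← mul_assoc ε ε, h2,
        one_mul, n, if_true, if_false] <;> decide
  have bz : ∀ r ∈ R, ∀ t ∈ R, ∀ t' ∈ R, π t = π t' → b r t = b r t' := fun r hr t ht t' ht' e => by
    have : b r (t * t') = 0 := if_pos (((hZ _).1 ((ker _ (mul_mem ht ht')).1 (by
      rw [mul t ht t' ht', e, aa]))).2 r hr)
    rwa [bm r hr t ht t' ht', add_eq_zero'] at this
  have bπ : ∀ r ∈ R, ∀ t ∈ R, b (s (π r)) (s (π t)) = b r t := fun r hr t ht => by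
    rw [bz _ (hs _) _ (hs _) t ht (hs' _), bs, bz _ ht _ (hs _) r hr (hs' _), bs]
  have badd : ∀ a c d, b (s a) (s (c + d)) = b (s a) (s c) + b (s a) (s d) := fun a c d => by
    rw [← bm _ (hs _) _ (hs _) _ (hs _)]
    exact bz _ (hs _) _ (hs _) _ (mul_mem (hs _) (hs _)) (by rw [mul _ (hs _) _ (hs _), hs', hs', hs'])
  have b0 : ∀ a, b (s a) (s 0) = 0 := fun a => by simpa using badd a 0 0
  have bsm : ∀ a (c : ZMod 2) d, b (s a) (s (c • d)) = c • b (s a) (s d) := fun a c d => by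
    rcases zo c with rfl | rfl <;> simp [b0]
  refine ⟨Additive (R ⧸ center R), inferInstance, inferInstance, inferInstance, π,
    LinearMap.mk₂ (ZMod 2) (fun a c => b (s a) (s c))
      (fun a c d => by rw [bs, badd, bs, bs (s d)]) (fun c a d => by rw [bs, bsm, bs]) badd
      (fun c a d => bsm a c d), h0, h1, fun z hz => ((hZ z).1 hz).1, sq, mul, ker,
    fun a => ⟨s a, hs a, hs' a⟩, fun r hr t ht => by simp [bπ r hr t ht, b], fun a _ ha => ?_⟩
  by_contra! c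
  refine ha (hs' a ▸ (ker _ (hs a)).2 ((hZ _).2 ⟨hs a, fun r hr => ?_⟩))
  have := zero_of_ne (c (π r) trivial)
  rw [LinearMap.mk₂_apply, ← hs' a, bπ _ (hs a) r hr] at this
  simpa [b, eq_comm] using this

open Classical in
/-- the automorphism induced by `1 + a` -/
noncomputable def cj (a z : G) : G := if a * z = z * a then z else a * z

theorem cj_mem {R : Subgroup G} {a z : G} (ha : a ∈ R) (hz : z ∈ R) : cj a z ∈ R := by
  unfold cj; split_ifs; exacts [hz, mul_mem ha hz]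

namespace XS

variable {R Z : Subgroup G} {ε : G} {A : Type*} [AddCommGroup A] [Module (ZMod 2) A]
  {π : G → A} {β : A →ₗ[ZMod 2] A →ₗ[ZMod 2] ZMod 2} (h : XS R Z ε π β)
include h

theorem alt : Alt β := ⟨fun a => by
  obtain ⟨r, hr, rfl⟩ := h.surj a
  exact (h.comm r hr r hr).2 rfl⟩

theorem εR : ε ∈ R := h.ZR h.εZ

theorem ε2 : ε * ε = 1 := (h.sq ε h.εR).resolve_right (by simpa using h.ε1)

theorem πZ {z : G} (hz : z ∈ Z) : π z = 0 := (h.ker z (h.ZR hz)).2 hz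

theorem Zc {z r : G} (hz : z ∈ Z) (hr : r ∈ R) : r * z = z * r :=
  (h.comm r hr z (h.ZR hz)).1 (by simp [h.πZ hz])

theorem anti {r s : G} (hr : r ∈ R) (hs : s ∈ R) : r * s = s * r ∨ r * s = ε * (s * r) :=
  anti_of_sq h.ε2 (fun r hr => h.Zc h.εZ hr) h.sq hr hs

theorem sqZ {r : G} (hr : r ∈ R) : r * r ∈ Z := by
  rcases h.sq r hr with e | e <;> simp [e, h.εZ]

theorem inv {r : G} (hr : r ∈ R) : π r⁻¹ = π r := by
  rw [← add_eq_zero', ← h.mul _ (inv_mem hr) _ hr, inv_mul_cancel, h.πZ (one_mem _)]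

theorem eq_iff {r s : G} (hr : r ∈ R) (hs : s ∈ R) : π r = π s ↔ r * s⁻¹ ∈ Z := by
  rw [← h.ker _ (mul_mem hr (inv_mem hs)), h.mul _ hr _ (inv_mem hs), h.inv hs, add_eq_zero']

theorem one_iff {r s : G} (hr : r ∈ R) (hs : s ∈ R) :
    β (π r) (π s) = 1 ↔ r * s = ε * (s * r) := by
  refine ⟨fun e => (h.anti hr hs).resolve_left fun c => ?_, fun e => one_of_ne fun c => ?_⟩
  · rw [(h.comm r hr s hs).2 c] at e; exact zero_ne_one e
  · rw [(h.comm r hr s hs).1 c] at e; exact h.ε1 (by simpa using e)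

theorem π_cj {a r : G} (ha : a ∈ R) (hr : r ∈ R) : π (cj a r) = tr h.alt (π a) (π r) := by
  unfold cj; split_ifs with c
  · rw [tr_of_zero _ ((h.comm a ha r hr).2 c)]
  · rw [tr_of_one _ (one_of_ne (mt (h.comm a ha r hr).1 c)), h.mul a ha r hr, add_comm]

theorem exists_anti {r : G} (hr : r ∈ R) (hr' : r ∉ Z) : ∃ s ∈ R, r * s = ε * (s * r) := by
  obtain ⟨a, -, ha⟩ := h.nd (π r) trivial (mt (h.ker r hr).1 hr')
  obtain ⟨s, hs, rfl⟩ := h.surj a
  exact ⟨s, hs, (h.one_iff hr hs).1 ha⟩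

theorem exists_two {r s : G} (hr : r ∈ R) (hs : s ∈ R) (hr' : r ∉ Z) (hrs : r * s ∉ Z) :
    ∃ t ∈ R, r * t = ε * (t * r) ∧ s * t = t * s := by
  obtain ⟨a, -, a1, a2⟩ := h.nd.two h.alt (a := π r) (c := π s) trivial trivial
    (mt (h.ker r hr).1 hr') fun e => hrs ((h.ker _ (mul_mem hr hs)).1 (by rw [h.mul r hr s hs, e, aa]))
  obtain ⟨t, ht, rfl⟩ := h.surj a
  exact ⟨t, ht, (h.one_iff hr ht).1 a1, (h.comm s hs t ht).1 a2⟩

end XS

/-- vectors with a preimage of square `e` -/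
def SQ (R : Subgroup G) {A : Type*} (π : G → A) (e : G) (a : A) : Prop :=
  ∃ r ∈ R, π r = a ∧ r * r = e

namespace XS

variable {R Z : Subgroup G} {ε : G} {A : Type*} [AddCommGroup A] [Module (ZMod 2) A]
  {π : G → A} {β : A →ₗ[ZMod 2] A →ₗ[ZMod 2] ZMod 2} (h : XS R Z ε π β)
include h

theorem sq_mul {z r : G} (hz : z ∈ Z) (hr : r ∈ R) : z * r * (z * r) = z * z * (r * r) := by
  rw [mul_assoc, ← mul_assoc r, h.Zc hz hr]; simp only [mul_assoc]

theorem tyP {i : G} (hi : i ∈ Z) (hi' : i * i = ε) (a : A) : SQ R π ε a ∧ SQ R π 1 a := by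
  obtain ⟨r, hr, rfl⟩ := h.surj a
  have e : π (i * r) = π r := by rw [h.mul _ (h.ZR hi) _ hr, h.πZ hi, zero_add]
  have hm := mul_mem (h.ZR hi) hr
  rcases h.sq r hr with c | c
  · exact ⟨⟨_, hm, e, by rw [h.sq_mul hi hr, c, hi', mul_one]⟩, r, hr, rfl, c⟩
  · exact ⟨⟨r, hr, rfl, c⟩, _, hm, e, by rw [h.sq_mul hi hr, c, hi', h.ε2]⟩

theorem sq_eq (hZ : ∀ z ∈ Z, z * z = 1) {r s : G} (hr : r ∈ R) (hs : s ∈ R) (e : π r = π s) :
    r * r = s * s := by
  have := h.sq_mul ((h.eq_iff hr hs).1 e) hs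
  rwa [hZ _ ((h.eq_iff hr hs).1 e), one_mul, inv_mul_cancel_right] at this

theorem tyN (hZ : ∀ z ∈ Z, z * z = 1) : ∃ q, Qf β q ∧ (∀ a, SQ R π ε a ↔ q a = 1) ∧
    ∀ a, SQ R π 1 a ↔ q a = 0 := by
  classical
  have k : ∀ r ∈ R, ∀ e, SQ R π e (π r) ↔ r * r = e := fun r hr e =>
    ⟨fun ⟨s, hs, a, b⟩ => (h.sq_eq hZ hs hr a).symm.trans b, fun a => ⟨r, hr, rfl, a⟩⟩
  have n := h.ε1
  refine ⟨fun a => if SQ R π 1 a then 0 else 1, fun a b => ?_, fun a => ?_, fun a => by simp⟩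
  · obtain ⟨r, hr, rfl⟩ := h.surj a
    obtain ⟨s, hs, rfl⟩ := h.surj b
    simp only [← h.mul r hr s hs, k r hr, k s hs, k _ (mul_mem hr hs)]
    have e1 : r * s = s * r → r * s * (r * s) = r * r * (s * s) := fun c => by
      rw [mul_assoc, ← mul_assoc s, ← c]; simp only [mul_assoc]
    have e2 : r * s = ε * (s * r) → r * s * (r * s) = ε * (r * r * (s * s)) := fun c => by
      have : s * r = ε * (r * s) := by rw [c, ← mul_assoc, h.ε2, one_mul]
      rw [mul_assoc, ← mul_assoc s, this, mul_assoc ε, ← mul_assoc r, h.Zc h.εZ hr]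
      simp only [mul_assoc]
    rcases h.anti hr hs with c | c
    · rw [(h.comm r hr s hs).2 c, e1 c]
      rcases h.sq r hr with a | a <;> rcases h.sq s hs with b | b <;> simp [a, b, n, h.ε2, z11]
    · rw [(h.one_iff hr hs).2 c, e2 c]
      rcases h.sq r hr with a | a <;> rcases h.sq s hs with b | b <;> simp [a, b, n, h.ε2, z11]
  · obtain ⟨r, hr, rfl⟩ := h.surj a
    simp only [k r hr]
    rcases h.sq r hr with a | a <;> simp [a, n, n.symm]

theorem ty : Ty β (SQ R π ε) (SQ R π 1) := by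
  by_cases c : ∃ i ∈ Z, i * i = ε
  · obtain ⟨i, hi, hi'⟩ := c
    exact Or.inl ⟨fun a => (h.tyP hi hi' a).1, fun a => (h.tyP hi hi' a).2⟩
  · push Not at c
    exact Or.inr (h.tyN fun z hz => (h.sq z (h.ZR hz)).resolve_right (c z hz))

theorem exists_lin [FiniteDimensional (ZMod 2) A] (ρ : G → G → Prop)
    (h1 : ∀ r ∈ R, ∃ s ∈ R, ρ r s) (h2 : ∀ r s r' s', ρ r s → ρ r' s' → ρ (r * r') (s * s'))
    (h3 : ∀ r ∈ R, ∀ s ∈ R, ρ r s → (r ∈ Z ↔ s ∈ Z)) :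
    ∃ σ : A ≃ₗ[ZMod 2] A, ∀ r ∈ R, ∀ s ∈ R, ρ r s → σ (π r) = π s := by
  choose l hl hl' using h.surj
  choose! f hf hf' using h1
  have k : ∀ r ∈ R, ∀ s ∈ R, ρ r s → π (f (l (π r))) = π s := fun r hr s hs e => by
    rw [← add_eq_zero', ← h.mul _ (hf _ (hl _)) _ hs, h.ker _ (mul_mem (hf _ (hl _)) hs),
      ← h3 _ (mul_mem (hl _) hr) _ (mul_mem (hf _ (hl _)) hs) (h2 _ _ _ _ (hf' _ (hl _)) e),
      ← h.ker _ (mul_mem (hl _) hr), h.mul _ (hl _) _ hr, hl', aa]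
  let φ : A →+ A := AddMonoidHom.mk' (fun a => π (f (l a))) fun a b => by
    have := k _ (mul_mem (hl a) (hl b)) _ (mul_mem (hf _ (hl a)) (hf _ (hl b)))
      (h2 _ _ _ _ (hf' _ (hl _)) (hf' _ (hl _)))
    rwa [h.mul _ (hl a) _ (hl b), hl', hl', h.mul _ (hf _ (hl a)) _ (hf _ (hl b))] at this
  refine ⟨LinearEquiv.ofInjectiveEndo (φ.toZModLinearMap 2) ((injective_iff_map_eq_zero _).2
    fun a ha => ?_), k⟩
  rw [← hl' a, h.ker _ (hl a), h3 _ (hl a) _ (hf _ (hl a)) (hf' _ (hl a)), ← h.ker _ (hf _ (hl a))]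
  exact ha

/-- the centre of the centraliser of `x` -/
def Zx (x : G) : Subgroup G where
  carrier := {r | r ∈ R ∧ (π r = 0 ∨ π r = π x)}
  one_mem' := ⟨one_mem _, Or.inl (h.πZ (one_mem _))⟩
  mul_mem' := by
    rintro a b ⟨ha, a1⟩ ⟨hb, b1⟩
    refine ⟨mul_mem ha hb, ?_⟩
    rw [h.mul a ha b hb]
    rcases a1 with a1 | a1 <;> rcases b1 with b1 | b1 <;> simp [a1, b1, aa]
  inv_mem' := fun ⟨ha, a1⟩ => ⟨inv_mem ha, by rwa [h.inv ha]⟩

theorem mem_Zx {x r : G} (hx : x ∈ R) : r ∈ h.Zx x ↔ r ∈ Z ∨ r * x ∈ Z := by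
  constructor
  · rintro ⟨hr, e | e⟩
    · exact Or.inl ((h.ker r hr).1 e)
    · exact Or.inr ((h.ker _ (mul_mem hr hx)).1 (by rw [h.mul r hr x hx, e, aa]))
  · rintro (e | e)
    · exact ⟨h.ZR e, Or.inl (h.πZ e)⟩
    · have hr := (mul_mem_cancel_right hx).1 (h.ZR e)
      exact ⟨hr, Or.inr (by rw [← add_eq_zero', ← h.mul r hr x hx, h.πZ e])⟩

theorem sub [FiniteDimensional (ZMod 2) A] {x : G} (hx : x ∈ R) (hx' : x ∉ Z) :
    ∃ (W : Submodule (ZMod 2) A) (π₁ : G → W) (β₁ : W →ₗ[ZMod 2] W →ₗ[ZMod 2] ZMod 2),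
      XS (R ⊓ centralizer {x}) (h.Zx x) ε π₁ β₁ ∧ finrank (ZMod 2) A ≤ finrank (ZMod 2) W + 2 := by
  obtain ⟨y, -, hy⟩ := h.nd (π x) trivial (mt (h.ker x hx).1 hx')
  have ha := h.alt
  have hc : ∀ {r}, r ∈ R ⊓ centralizer {x} ↔ r ∈ R ∧ β (π x) (π r) = 0 := fun {r} =>
    and_congr_right fun hr => by rw [h.comm x hx r hr]; simp [mem_centralizer_iff]
  let p : A → cut β ⊤ (π x) y := fun v => ⟨v + β y v • π x + β (π x) v • y, mem_cut.2 ⟨trivial,
    by simp [ha.alt, hy, aa], by simp [ha.alt, ha.symm y (π x), hy, aa]⟩⟩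
  refine ⟨cut β ⊤ (π x) y, fun r => p (π r), β.domRestrict₁₂ _ _, ⟨h.ε1,
    (h.mem_Zx hx).2 (Or.inl h.εZ), fun r hr => hc.2 ⟨hr.1, ?_⟩, fun r hr => h.sq r hr.1,
    fun r hr s hs => ?_, fun r hr => ?_, fun a => ?_, fun r hr s hs => ?_, fun a _ a0 => ?_⟩,
    by simpa using finrank_cut (β := β) ⊤ (π x) y⟩
  · rcases hr.2 with e | e <;> simp [e, ha.alt]
  · ext; simp only [p, h.mul r hr.1 s hs.1, map_add, Submodule.coe_add]; vec2
  · simp only [p, Subtype.ext_iff, (hc.1 hr).2, zero_smul, add_zero, Submodule.coe_zero,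
      add_eq_zero']
    refine ⟨fun e => ⟨hr.1, ?_⟩, fun ⟨_, e⟩ => ?_⟩
    · rcases zo (β y (π r)) with c | c <;> rw [c] at e <;> simp [e]
    · rcases e with e | e <;> simp [e, ha.symm y, hy]
  · obtain ⟨r, hr, e⟩ := h.surj a.1
    obtain ⟨-, a1, a2⟩ := mem_cut.1 a.2
    exact ⟨r, hc.2 ⟨hr, by rw [e, a1]⟩, Subtype.ext (by simp [p, e, a1, a2])⟩
  · rw [← h.comm r hr.1 s hs.1]
    simp [p, (hc.1 hr).2, (hc.1 hs).2, ha.alt, ha.symm (π r) (π x), LinearMap.domRestrict₁₂_apply]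
  · obtain ⟨v, v1, v2⟩ := h.nd.cut ha trivial trivial hy a.1 a.2 (by simpa using a0)
    exact ⟨⟨v, v1⟩, trivial, v2⟩

end XS

end Cfsg.Agent.C6
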